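import Mathlib
import Cfsg.Prelude.Def_GeometricClasses
import Cfsg.Agent.GeoClasses.Basic
import Cfsg.Agent.Linear.Orders
import Cfsg.Agent.Linear.Transvection
import Cfsg.Agent.MaxSub.FieldSub

/-!
No member of a geometric class of the linear case contains the special linear group.
-/

set_option autoImplicit false

namespace Cfsg.Agent.MaxSub

open Matrix Cfsg.Geo Cfsg.Agent.GeoClasses
open scoped MatrixGroups Matrix Kronecker commutatorElement

variable {ι : Type} [Fintype ι] [DecidableEq ι] {F : Type*} [Field F]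

theorem specialLinear_normal : (specialLinear ι F).Normal := MonoidHom.normal_ker _

theorem range_toGL :
    (Matrix.SpecialLinearGroup.toGL : Matrix.SpecialLinearGroup ι F →* GL ι F).range = specialLinear ι F :=
  Cfsg.Agent.Linear.range_toGL_eq_ker_det

theorem specialLinear_commutator (h : 3 ≤ Fintype.card ι) :
    ⁅specialLinear ι F, specialLinear ι F⁆ = specialLinear ι F := by
  rw [← range_toGL, MonoidHom.range_eq_map, ← Subgroup.map_commutator, ← commutator_def,
    Cfsg.Agent.Linear.commutator_SL_eq_top h]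

theorem not_le_decompositionStabilizer {t m : ℕ} {D : Fin t → Submodule F (ι → F)}
    (hD : IsMDecomposition m D) : ¬ specialLinear ι F ≤ decompositionStabilizer D := by
  classical
  intro hle
  have ht := hD.two_le
  set i₀ : Fin t := ⟨0, by omega⟩
  set i₁ : Fin t := ⟨1, by omega⟩
  have h01 : i₀ ≠ i₁ := by simp [i₀, i₁, Fin.ext_iff]
  have hne : ∀ i, ∃ v ∈ D i, v ≠ 0 := fun i => Submodule.exists_mem_ne_zero_of_ne_bot fun h => by
    have := hD.finrank_eq i
    rw [h, finrank_bot] at this
    exact hD.pos.ne this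
  obtain ⟨v, hv, hv0⟩ := hne i₀
  obtain ⟨w, hw, hw0⟩ := hne i₁
  have hind := hD.indep i₀
  obtain ⟨φ, hφv, hφ⟩ := exists_functional (x := v) (p := ⨆ (j) (_ : j ≠ i₀), D j)
    fun h => hv0 ((Submodule.disjoint_def.mp hind) v hv h)
  have hφw : φ w = 0 := hφ w (Submodule.mem_iSup_of_mem i₁ (Submodule.mem_iSup_of_mem h01.symm hw))
  obtain ⟨σ, hσ⟩ := hle (transv_mem_specialLinear φ w hφw)
  have hmem : v + w ∈ D (σ i₀) := by
    rw [← hσ i₀]
    exact ⟨v, hv, by rw [Matrix.toLin'_apply, transv_mulVec, hφv, one_smul]⟩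
  by_cases hj : σ i₀ = i₀
  · rw [hj] at hmem
    have : w ∈ D i₀ := by simpa using Submodule.sub_mem _ hmem hv
    exact hw0 ((Submodule.disjoint_def.mp hind) w this
      (Submodule.mem_iSup_of_mem i₁ (Submodule.mem_iSup_of_mem h01.symm hw)))
  · apply hv0
    have h1 : v + w ∈ ⨆ (j) (_ : j ≠ i₀), D j :=
      Submodule.mem_iSup_of_mem (σ i₀) (Submodule.mem_iSup_of_mem hj hmem)
    have h2 : w ∈ ⨆ (j) (_ : j ≠ i₀), D j :=
      Submodule.mem_iSup_of_mem i₁ (Submodule.mem_iSup_of_mem h01.symm hw)
    exact (Submodule.disjoint_def.mp hind) v hv (by simpa using Submodule.sub_mem _ h1 h2)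

/-- The elementary transvection `1 + x E_{ab}`. -/
noncomputable def elemTransv (a b : ι) (hab : a ≠ b) (x : F) : GL ι F :=
  Matrix.SpecialLinearGroup.toGL ⟨Matrix.transvection a b x, Matrix.det_transvection_of_ne a b hab x⟩

theorem elemTransv_mem (a b : ι) (hab : a ≠ b) (x : F) : elemTransv a b hab x ∈ specialLinear ι F :=
  range_toGL (ι := ι) (F := F) ▸ MonoidHom.mem_range.mpr ⟨_, rfl⟩

theorem elemTransv_apply (a b : ι) (hab : a ≠ b) (x : F) (i j : ι) :
    (elemTransv a b hab x : Matrix ι ι F) i j = (if i = j then 1 else 0) + if a = i ∧ b = j then x else 0 := by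
  show Matrix.transvection a b x i j = _
  rw [Matrix.transvection, Matrix.add_apply, Matrix.one_apply, Matrix.single_apply]

theorem le_of_le_conj {K : Subgroup (GL ι F)} {P : GL ι F}
    (h : specialLinear ι F ≤ K.map (MulAut.conj P).toMonoidHom) : specialLinear ι F ≤ K := by
  intro s hs
  obtain ⟨k, hk, he⟩ := h (specialLinear_normal.conj_mem s hs P)
  exact ((MulAut.conj P).injective he : k = s) ▸ hk

theorem le_of_le_reindex {κ : Type} [Fintype κ] [DecidableEq κ] {K : Subgroup (GL κ F)} (e : ι ≃ κ)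
    (h : specialLinear ι F ≤ K.map (glReindex e.symm).toMonoidHom) : specialLinear κ F ≤ K := by
  intro s hs
  have : glReindex e.symm s ∈ specialLinear ι F := by
    rw [mem_specialLinear_iff] at hs ⊢
    show ((Matrix.reindexAlgEquiv F F e.symm) (s : Matrix κ κ F)).det = 1
    rw [Matrix.det_reindexAlgEquiv, hs]
  obtain ⟨k, hk, he⟩ := h this
  exact ((glReindex e.symm).injective he : k = s) ▸ hk

theorem not_le_tensorProductSubgroup {n₁ n₂ : ℕ} (h1 : 2 ≤ n₁) (h2 : 2 ≤ n₂)
    (e : ι ≃ Fin n₁ × Fin n₂) (P : GL ι F) : ¬ specialLinear ι F ≤ tensorProductSubgroup n₁ n₂ e P := by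
  intro hle
  have hK := le_of_le_reindex e (le_of_le_conj hle)
  set i0 : Fin n₁ := ⟨0, by omega⟩
  set i1 : Fin n₁ := ⟨1, by omega⟩
  set j0 : Fin n₂ := ⟨0, by omega⟩
  set j1 : Fin n₂ := ⟨1, by omega⟩
  have hi : i0 ≠ i1 := by simp [i0, i1, Fin.ext_iff]
  have hj : j0 ≠ j1 := by simp [j0, j1, Fin.ext_iff]
  have hne : (i0, j0) ≠ (i1, j1) := fun h => hi (congrArg Prod.fst h)
  obtain ⟨A, B, hg⟩ := hK (elemTransv_mem (F := F) (i0, j0) (i1, j1) hne 1)
  have hent : ∀ p q : Fin n₁ × Fin n₂, (elemTransv (F := F) (i0, j0) (i1, j1) hne 1 : Matrix _ _ F) p q =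
      (A : Matrix _ _ F) p.1 q.1 * (B : Matrix _ _ F) p.2 q.2 := fun p q => by rw [hg]; rfl
  have e1 := hent (i0, j0) (i1, j1)
  have e2 := hent (i0, j0) (i1, j0)
  have e3 := hent (i0, j0) (i0, j0)
  rw [elemTransv_apply] at e1 e2 e3
  simp [hi, hj.symm, hi.symm] at e1 e2 e3
  rcases e2 with h | h
  · rw [h, zero_mul] at e1; exact one_ne_zero e1
  · rw [h, mul_zero] at e3; exact one_ne_zero e3

theorem not_le_subfieldSubgroup [Nontrivial ι] {F₀ : Subfield F} (hF₀ : F₀ ≠ ⊤) (P : GL ι F) :
    ¬ specialLinear ι F ≤ subfieldSubgroup F₀ P := by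
  intro hle
  have hK := le_of_le_conj hle
  obtain ⟨a, b, hab⟩ := exists_pair_ne ι
  apply hF₀
  rw [eq_top_iff]
  intro x _
  have hx := hK (elemTransv_mem a b hab x)
  rw [← SetLike.mem_coe, Subgroup.coe_mul_of_left_le_normalizer_right _ _
    (fun y _ => Subgroup.normalizer_eq_top (scalars ι F) ▸ Subgroup.mem_top y)] at hx
  obtain ⟨_, ⟨g₀, rfl⟩, c, hc, he⟩ := hx
  obtain ⟨c, hc⟩ := (mem_scalars_iff c).mp hc
  have hent : ∀ i j, (elemTransv a b hab x : Matrix ι ι F) i j =
      (c : F) * ((g₀ : Matrix ι ι F₀) i j : F) := fun i j => by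
    rw [← he, Units.val_mul, hc, Matrix.mul_smul, Matrix.mul_one, Matrix.smul_apply, smul_eq_mul]
    rfl
  have e1 := hent a a
  have e2 := hent a b
  rw [elemTransv_apply] at e1 e2
  simp [hab, hab.symm] at e1 e2
  have hcF : (c : F) ∈ F₀ := by
    rw [show (c : F) = (((g₀ : Matrix ι ι F₀) a a : F))⁻¹ from eq_inv_of_mul_eq_one_left e1.symm]
    exact F₀.inv_mem ((g₀ : Matrix ι ι F₀) a a).2
  rw [e2]
  exact F₀.mul_mem hcF ((g₀ : Matrix ι ι F₀) a b).2

/-- Elements of the tensor-wreath group act as pure tensors followed by a permutation of the factors. -/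
theorem tensorWreath_apply [Finite F] {m t : ℕ} {g : GL (Fin t → Fin m) F}
    (hg : g ∈ tensorWreathStandard m t F) :
    ∃ (gs : Fin t → Matrix (Fin m) (Fin m) F) (σ : Equiv.Perm (Fin t)), ∀ x y : Fin t → Fin m,
      (g : Matrix (Fin t → Fin m) (Fin t → Fin m) F) x y = ∏ i, gs i (x i) (y (σ i)) := by
  classical
  let S : Submonoid (GL (Fin t → Fin m) F) :=
    { carrier := {g | ∃ (gs : Fin t → Matrix (Fin m) (Fin m) F) (σ : Equiv.Perm (Fin t)),
        ∀ x y : Fin t → Fin m,
          (g : Matrix (Fin t → Fin m) (Fin t → Fin m) F) x y = ∏ i, gs i (x i) (y (σ i))}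
      one_mem' := ⟨fun _ => 1, 1, fun x y => by
        rw [Units.val_one, Matrix.one_apply]
        simp only [Matrix.one_apply, Equiv.Perm.one_apply]
        by_cases hxy : x = y
        · simp [hxy]
        · obtain ⟨i, hi⟩ := Function.ne_iff.mp hxy
          rw [if_neg hxy, Finset.prod_eq_zero (Finset.mem_univ i) (if_neg hi)]⟩
      mul_mem' := by
        rintro g h ⟨gs, σ, hg⟩ ⟨hs, τ, hh⟩
        refine ⟨fun i => gs i * hs (σ i), σ.trans τ, fun x y => ?_⟩
        rw [Units.val_mul, Matrix.mul_apply]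
        simp only [Matrix.mul_apply, Equiv.trans_apply]
        rw [Fintype.prod_sum]
        refine Fintype.sum_equiv (Equiv.arrowCongr σ.symm (Equiv.refl _)) _ _ fun z => ?_
        rw [hg, hh, ← Equiv.prod_comp σ (fun i => hs i (z i) (y (τ i))), ← Finset.prod_mul_distrib]
        simp [Equiv.arrowCongr] }
  suffices g ∈ S from this
  refine Subgroup.closure_induction (p := fun g _ => g ∈ S) ?_ S.one_mem (fun _ _ _ _ => S.mul_mem) ?_ hg
  · rintro x (⟨gs, hgs⟩ | ⟨σ, hσ⟩)
    · exact ⟨fun i => (gs i : Matrix (Fin m) (Fin m) F), 1, hgs⟩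
    · refine ⟨fun _ => 1, σ.symm, fun x y => ?_⟩
      rw [hσ]
      simp only [Matrix.one_apply]
      rw [Finset.prod_ite_zero, Finset.prod_const_one]
      simp only [Finset.mem_univ, forall_const]
      refine if_congr ?_ rfl rfl
      constructor
      · rintro rfl i; simp
      · intro h; funext i
        have := h (σ i)
        rw [Equiv.symm_apply_apply] at this
        exact this.symm
  · intro x _ hx
    have : x⁻¹ = x ^ (orderOf x - 1) := by
      rw [inv_eq_iff_mul_eq_one, ← pow_succ', Nat.sub_add_cancel (orderOf_pos x), pow_orderOf_eq_one]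
    rw [this]
    exact S.pow_mem hx _

theorem not_le_tensorWreathSubgroup [Finite F] {m t : ℕ} (hm : 2 ≤ m) (ht : 2 ≤ t)
    (e : ι ≃ (Fin t → Fin m)) (P : GL ι F) : ¬ specialLinear ι F ≤ tensorWreathSubgroup m t e P := by
  classical
  intro hle
  have hK := le_of_le_reindex e (le_of_le_conj hle)
  set u : Fin m := ⟨0, by omega⟩
  set v : Fin m := ⟨1, by omega⟩
  have huv : u ≠ v := by simp [u, v, Fin.ext_iff]
  set t0 : Fin t := ⟨0, by omega⟩
  set t1 : Fin t := ⟨1, by omega⟩
  have ht01 : t0 ≠ t1 := by simp [t0, t1, Fin.ext_iff]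
  let a : Fin t → Fin m := fun _ => u
  let b : Fin t → Fin m := fun _ => v
  have hab : a ≠ b := fun h => huv (congrFun h t0)
  obtain ⟨gs, σ, hg⟩ := tensorWreath_apply (hK (elemTransv_mem (F := F) a b hab 1))
  -- the row of `a` contains a mixed entry
  set y : Fin t → Fin m := fun i => if i = σ t0 then u else v
  have hya : y ≠ a := fun h => by
    have := congrFun h (σ t1)
    simp [y, a, ht01.symm] at this
    exact huv this.symm
  have hyb : y ≠ b := fun h => by
    have := congrFun h (σ t0)
    simp [y, b] at this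
    exact huv this
  have h0 : (elemTransv (F := F) a b hab 1 : Matrix _ _ F) a y = 0 := by
    rw [elemTransv_apply]; simp [hya.symm, hyb.symm]
  rw [hg, Finset.prod_eq_zero_iff] at h0
  obtain ⟨i, -, hi⟩ := h0
  by_cases hit : i = t0
  · subst hit
    simp [y] at hi
    have h1 : (elemTransv (F := F) a b hab 1 : Matrix _ _ F) a a = 1 := by
      rw [elemTransv_apply]; simp [hab.symm]
    rw [hg, Finset.prod_eq_zero (f := fun i => gs i (a i) (a (σ i))) (Finset.mem_univ t0) hi] at h1
    exact zero_ne_one h1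
  · simp [y, hit] at hi
    have h1 : (elemTransv (F := F) a b hab 1 : Matrix _ _ F) a b = 1 := by
      rw [elemTransv_apply]; simp [hab]
    rw [hg, Finset.prod_eq_zero (Finset.mem_univ i) hi] at h1
    exact zero_ne_one h1

/-- A non-degenerate form, linear on the left and semilinear on the right, has no `SL` of similarities. -/
theorem not_le_similarityGroup_of_sesq [Finite F] (h3 : 3 ≤ Fintype.card ι) {f : (ι → F) → (ι → F) → F}
    (σ : F → F) (hσ : ∀ c, c ≠ 0 → σ c ≠ 0)
    (al : ∀ x y v, f (x + y) v = f x v + f y v) (sl : ∀ (c : F) x v, f (c • x) v = c * f x v)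
    (ar : ∀ v x y, f v (x + y) = f v x + f v y) (sr : ∀ (c : F) v x, f v (c • x) = σ c * f v x)
    (hnd : IsNondegenerateForm f) : ¬ specialLinear ι F ≤ similarityGroup f := by
  classical
  intro hle
  obtain ⟨p, hp⟩ := CharP.exists F
  haveI : Fact p.Prime := ⟨CharP.char_is_prime F p⟩
  -- transvections are isometries
  have hiso : ∀ (φ : (ι → F) →ₗ[F] F) (w : ι → F), φ w = 0 → ∀ u v,
      f (u + φ u • w) (v + φ v • w) = f u v := by
    intro φ w hw
    obtain ⟨c, hc⟩ := hle (transv_mem_specialLinear φ w hw)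
    simp only [transv_mulVec] at hc
    have hk : ∀ (k : ℕ) u v, f (u + ((k : F) * φ u) • w) (v + ((k : F) * φ v) • w) = (c : F) ^ k * f u v := by
      intro k
      induction k with
      | zero => intro u v; simp
      | succ k ih =>
        intro u v
        have := hc (u + ((k : F) * φ u) • w) (v + ((k : F) * φ v) • w)
        rw [ih] at this
        have e : ∀ z : ι → F, z + ((k : F) * φ z) • w + φ (z + ((k : F) * φ z) • w) • w =
            z + (((k + 1 : ℕ) : F) * φ z) • w := by
          intro z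
          simp [hw, add_smul, add_mul, add_assoc]
        rw [e, e] at this
        rw [this, pow_succ]
        ring
    have hex : ∃ u v, f u v ≠ 0 := by
      haveI : Nonempty ι := Fintype.card_pos_iff.mp (by omega)
      obtain ⟨i⟩ := ‹Nonempty ι›
      obtain ⟨x, hx⟩ := (hnd (Pi.single i 1) (by simp)).2
      exact ⟨_, x, hx⟩
    obtain ⟨u₀, v₀, huv⟩ := hex
    have hp' := hk p u₀ v₀
    simp [CharP.cast_eq_zero] at hp'
    have hcp : (c : F) ^ p = 1 ^ p := by
      rw [one_pow]; exact mul_right_cancel₀ huv (by rw [one_mul]; exact hp'.symm)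
    have hc1 : (c : F) = 1 := frobenius_inj F p hcp
    intro u v
    rw [hc u v, hc1, one_mul]
  obtain ⟨i, j, k, hij, hik, hjk⟩ : ∃ i j k : ι, i ≠ j ∧ i ≠ k ∧ j ≠ k := Fintype.two_lt_card_iff.mp (by omega)
  set w : ι → F := Pi.single i 1
  have hw0 : w ≠ 0 := by simp [w]
  obtain ⟨x, hx⟩ := (hnd w hw0).1
  apply hx
  have hzero : ∀ l, l ≠ i → ∀ z : ι → F, z l = 0 → f z w = 0 := by
    intro l hl z hz
    have hw : (LinearMap.proj l : (ι → F) →ₗ[F] F) w = 0 := by simp [w, hl]
    have := hiso (LinearMap.proj l) w hw z (Pi.single l 1)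
    simp [hz, ar] at this
    exact this
  have hdec : x = (x - Pi.single j (x j)) + Pi.single j (x j) := by simp
  rw [hdec, al, hzero j hij.symm _ (by simp), hzero k hik.symm _ (by simp [hjk.symm]), add_zero]

theorem not_le_similarityGroup_symplectic [Finite F] (h3 : 3 ≤ Fintype.card ι)
    {f : (ι → F) → (ι → F) → F} (hf : IsSymplecticForm f) : ¬ specialLinear ι F ≤ similarityGroup f :=
  not_le_similarityGroup_of_sesq h3 id (fun _ h => h) hf.bilinear.add_left hf.bilinear.smul_left
    hf.bilinear.add_right (fun c v x => hf.bilinear.smul_right c v x) hf.nondegenerate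

theorem not_le_similarityGroup_unitary [Finite F] (h3 : 3 ≤ Fintype.card ι) {σ : F ≃+* F}
    {f : (ι → F) → (ι → F) → F} (hf : IsUnitaryForm σ f) : ¬ specialLinear ι F ≤ similarityGroup f :=
  not_le_similarityGroup_of_sesq h3 σ (fun _ h => by simpa using h) hf.add_left hf.smul_left
    (fun v x y => by rw [hf.herm, hf.add_left, map_add, ← hf.herm, ← hf.herm])
    (fun c v x => by rw [hf.herm, hf.smul_left, map_mul, ← hf.herm]) hf.nondegenerate

theorem not_le_quadSimilarityGroup [Finite F] (h3 : 3 ≤ Fintype.card ι)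
    {Q : (ι → F) → F} (hQ : IsNondegenerateQuadraticForm Q) : ¬ specialLinear ι F ≤ quadSimilarityGroup Q := by
  intro hle
  refine not_le_similarityGroup_of_sesq h3 id (fun _ h => h) hQ.polar_bilinear.add_left
    hQ.polar_bilinear.smul_left hQ.polar_bilinear.add_right
    (fun c v x => hQ.polar_bilinear.smul_right c v x) hQ.nondegenerate fun g hg => ?_
  obtain ⟨c, hc⟩ := hle hg
  refine ⟨c, fun u v => ?_⟩
  simp only [QuadraticMap.polar, ← Matrix.mulVec_add, hc]
  ring

theorem not_le_subgroupNormalizer [Finite F] (h3 : 3 ≤ Fintype.card ι) {r : ℕ} [Fact r.Prime]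
    {R : Subgroup (GL ι F)} (hR : IsPGroup r R) (hirr : ActsAbsolutelyIrreducibly (matrixSet R)) :
    ¬ specialLinear ι F ≤ subgroupNormalizer R := by
  classical
  intro hle
  haveI : Nontrivial ι := Fintype.one_lt_card_iff_nontrivial.mp (by omega)
  set S := specialLinear ι F with hS
  have hperf := specialLinear_commutator (ι := ι) (F := F) h3
  haveI hSn : S.Normal := specialLinear_normal
  -- [R, S] lies in the r-group R ∩ S, which is normalised by S
  set N := R ⊓ S with hN
  have hNR : IsPGroup r N := hR.to_le inf_le_left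
  have hcomm : ⁅R, S⁆ ≤ N := by
    refine le_inf ?_ (Subgroup.commutator_le_right _ _)
    rw [Subgroup.commutator_le]
    intro x hx s hs
    have h1 : s * x⁻¹ * s⁻¹ ∈ R := (Subgroup.mem_normalizer_iff.mp (hle hs) _).mp (R.inv_mem hx)
    have := R.mul_mem hx h1
    simpa [commutatorElement_def, mul_assoc] using this
  haveI hNn : (N.subgroupOf S).Normal := by
    refine ⟨fun x hx s => ⟨?_, ?_⟩⟩
    · exact (Subgroup.mem_normalizer_iff.mp (hle s.2) _).mp hx.1
    · exact S.mul_mem (S.mul_mem s.2 hx.2) (S.inv_mem s.2)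
  haveI hsimp : IsSimpleGroup (Matrix.ProjectiveSpecialLinearGroup ι F) :=
    Cfsg.Agent.Linear.isSimpleGroup_PSL h3
  let N' : Subgroup (Matrix.SpecialLinearGroup ι F) := N.comap Matrix.SpecialLinearGroup.toGL
  haveI : N'.Normal := by
    refine ⟨fun x hx s => ?_⟩
    have hs : Matrix.SpecialLinearGroup.toGL s ∈ S := by rw [hS, ← range_toGL]; exact ⟨s, rfl⟩
    have hxS : Matrix.SpecialLinearGroup.toGL x ∈ S := by rw [hS, ← range_toGL]; exact ⟨x, rfl⟩
    show Matrix.SpecialLinearGroup.toGL (s * x * s⁻¹) ∈ N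
    rw [map_mul, map_mul, map_inv]
    exact hNn.conj_mem ⟨_, hxS⟩ hx ⟨_, hs⟩
  rcases (Subgroup.Normal.map (inferInstance : N'.Normal) _
      (QuotientGroup.mk'_surjective (Subgroup.center (Matrix.SpecialLinearGroup ι F)))).eq_bot_or_eq_top with
    hbot | htop
  · -- every commutator is scalar, hence trivial, hence R is scalar
    rw [Subgroup.map_eq_bot_iff, QuotientGroup.ker_mk'] at hbot
    have hNc : ∀ y ∈ N, ∀ s ∈ S, y * s = s * y := by
      intro y hy s hs
      have hyS : y ∈ S := hy.2
      rw [hS, ← range_toGL] at hyS hs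
      obtain ⟨y', rfl⟩ := hyS
      obtain ⟨s', rfl⟩ := hs
      rw [← map_mul, ← map_mul, Subgroup.mem_center_iff.mp (hbot hy) s']
    have hRS : ∀ x ∈ R, ∀ s ∈ S, x * s = s * x := by
      intro x hx
      have hmem : ∀ s ∈ S, x * s * x⁻¹ * s⁻¹ ∈ N := fun s hs => hcomm (Subgroup.commutator_mem_commutator hx hs)
      have key : ⁅S, S⁆ ≤ Subgroup.centralizer {x} := by
        rw [Subgroup.commutator_le]
        intro s hs u hu
        rw [Subgroup.mem_centralizer_iff]
        intro y hy
        rw [Set.mem_singleton_iff] at hy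
        subst hy
        set a := y * s * y⁻¹ * s⁻¹ with ha
        set b := y * u * y⁻¹ * u⁻¹ with hb
        have e1 : y * s * y⁻¹ = a * s := by rw [ha]; group
        have e2 : y * u * y⁻¹ = b * u := by rw [hb]; group
        have ca : ∀ w ∈ S, Commute a w := fun w hw => hNc a (hmem s hs) w hw
        have cb : ∀ w ∈ S, Commute b w := fun w hw => hNc b (hmem u hu) w hw
        have haS : a ∈ S := (hmem s hs).2
        have hbS : b ∈ S := (hmem u hu).2
        have e : y * ⁅s, u⁆ * y⁻¹ = ⁅s, u⁆ := by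
          simp only [commutatorElement_def]
          calc y * (s * u * s⁻¹ * u⁻¹) * y⁻¹
              = (y * s * y⁻¹) * (y * u * y⁻¹) * (y * s * y⁻¹)⁻¹ * (y * u * y⁻¹)⁻¹ := by group
            _ = (a * s) * (b * u) * (a * s)⁻¹ * (b * u)⁻¹ := by rw [e1, e2]
            _ = a * (s * b) * u * (s⁻¹ * a⁻¹) * (u⁻¹ * b⁻¹) := by group
            _ = a * (b * s) * u * (a⁻¹ * s⁻¹) * (b⁻¹ * u⁻¹) := by
                rw [(cb s hs).eq, ((ca s hs).inv_inv).eq, ((cb u hu).inv_inv).eq]
            _ = a * b * (s * u * a⁻¹) * (s⁻¹ * b⁻¹) * u⁻¹ := by group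
            _ = a * b * (a⁻¹ * (s * u)) * (b⁻¹ * s⁻¹) * u⁻¹ := by
                rw [((ca (s * u) (S.mul_mem hs hu)).inv_left).eq, ((cb s hs).inv_inv).eq]
            _ = a * (b * a⁻¹) * (s * u * b⁻¹) * s⁻¹ * u⁻¹ := by group
            _ = a * (a⁻¹ * b) * (b⁻¹ * (s * u)) * s⁻¹ * u⁻¹ := by
                rw [((ca b hbS).inv_left).eq, ((cb (s * u) (S.mul_mem hs hu)).inv_left).eq]
            _ = s * u * s⁻¹ * u⁻¹ := by group
        exact mul_inv_eq_iff_eq_mul.mp e
      rw [hperf] at key
      intro s hs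
      exact (Subgroup.mem_centralizer_iff.mp (key hs)) x rfl
    -- so the matrices of R are scalar, contradicting irreducibility
    obtain ⟨i, j, hij⟩ := exists_pair_ne ι
    have hscal : ∀ x ∈ R, ∃ c : F, (x : Matrix ι ι F) = c • (1 : Matrix ι ι F) := by
      intro x hx
      refine ⟨(x : Matrix ι ι F) i i, ?_⟩
      have hc : ∀ a b, ∀ hab : a ≠ b, ∀ l l', ((x : Matrix ι ι F) * ((elemTransv a b hab (1 : F) : GL ι F) : Matrix ι ι F)) l l' =
          (((elemTransv a b hab (1 : F) : GL ι F) : Matrix ι ι F) * (x : Matrix ι ι F)) l l' := by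
        intro a b hab l l'
        have := congrArg (fun g : GL ι F => (g : Matrix ι ι F) l l') (hRS x hx _ (elemTransv_mem a b hab (1 : F)))
        simpa using this
      have hc' : ∀ a b, a ≠ b → ∀ l l', (if b = l' then (x : Matrix ι ι F) l a else 0) =
          (if a = l then (x : Matrix ι ι F) b l' else 0) := by
        intro a b hab l l'
        have := hc a b hab l l'
        simp [Matrix.mul_apply, elemTransv_apply, mul_add, add_mul, Finset.sum_add_distrib, ite_and] at this
        exact this
      ext a b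
      by_cases hab : a = b
      · subst hab
        by_cases hai : a = i
        · subst hai; simp
        · have := hc' i a (Ne.symm hai) i a
          simp at this
          simp [this]
      · obtain ⟨c, hc1, hc2⟩ : ∃ c, c ≠ a ∧ c ≠ b := by
          by_contra hcc
          push Not at hcc
          have := Finset.card_le_card (show (Finset.univ : Finset ι) ⊆ {a, b} from fun c _ => by
            by_cases h : c = a
            · simp [h]
            · simp [hcc c h])
          rw [Finset.card_univ, Finset.card_pair hab] at this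
          omega
        have := hc' b c (Ne.symm hc2) a c
        simp [Ne.symm hab] at this
        simp [hab, this]
    have hW := hirr.1 (Submodule.span F {Pi.single i 1}) ?_
    · rcases hW with h | h
      · rw [Submodule.span_singleton_eq_bot] at h
        simpa using congrFun h i
      · have : (Pi.single j 1 : ι → F) ∈ Submodule.span F {Pi.single i 1} := h ▸ Submodule.mem_top
        obtain ⟨c, hc⟩ := Submodule.mem_span_singleton.mp this
        have := congrFun hc j
        simp [hij.symm] at this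
    · rintro _ ⟨x, hx, rfl⟩
      obtain ⟨c, hc⟩ := hscal x hx
      rintro _ ⟨v, hv, rfl⟩
      rw [Matrix.toLin'_apply]
      show (x : Matrix ι ι F) *ᵥ v ∈ _
      rw [hc, Matrix.smul_mulVec, Matrix.one_mulVec]
      exact Submodule.smul_mem _ _ hv
  · -- the r-group N maps onto PSL
    have hN' : IsPGroup r N' :=
      hNR.of_injective ((Matrix.SpecialLinearGroup.toGL.comp N'.subtype).codRestrict N fun x => x.2)
        (fun x y h => Subtype.ext (Matrix.SpecialLinearGroup.toGL_injective (congrArg Subtype.val h)))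
    have hPSL : IsPGroup r (Matrix.ProjectiveSpecialLinearGroup ι F) := by
      have h := hN'.map (QuotientGroup.mk' (Subgroup.center (Matrix.SpecialLinearGroup ι F)))
      rw [htop] at h
      exact h.of_equiv Subgroup.topEquiv
    haveI : Group.IsNilpotent (Matrix.ProjectiveSpecialLinearGroup ι F) := hPSL.isNilpotent
    have hsol : Group.IsSolvable (Matrix.ProjectiveSpecialLinearGroup ι F) := inferInstance
    have h1 := Group.IsSolvable.commutator_lt_top_of_nontrivial (G := Matrix.ProjectiveSpecialLinearGroup ι F)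
    have h2 : commutator (Matrix.ProjectiveSpecialLinearGroup ι F) = ⊤ := by
      have hs := QuotientGroup.mk'_surjective (Subgroup.center (Matrix.SpecialLinearGroup ι F))
      rw [commutator_def, ← Subgroup.map_top_of_surjective _ hs, ← Subgroup.map_commutator, ← commutator_def,
        Cfsg.Agent.Linear.commutator_SL_eq_top h3]
    exact h1.ne h2

end Cfsg.Agent.MaxSub
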