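import Mathlib
import Cfsg.Prelude.Def_GeometricClasses
import Cfsg.Agent.GeoClasses.Algebra

/-!
Symplectic-type groups: class two, and the degree of an absolutely irreducible one.
-/

set_option autoImplicit false

namespace Cfsg.Agent.MaxSub

open Matrix Cfsg.Geo
open scoped MatrixGroups Matrix commutatorElement

/-- If all characteristic abelian subgroups are cyclic and the exponent equals the order of the
centre, a nilpotent group has class at most two. -/
theorem commutator_le_center_of_cyclic_char {R : Type*} [Group R] [Finite R] [Group.IsNilpotent R]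
    (hcyc : ∀ A : Subgroup R, A.Characteristic → IsMulCommutative A → IsCyclic A)
    (hexp : Monoid.exponent R = Nat.card (Subgroup.center R)) :
    commutator R ≤ Subgroup.center R := by
  set Z := Subgroup.center R
  set Z2 := Subgroup.upperCentralSeries R 2
  haveI : Z.Characteristic := Subgroup.centerCharacteristic
  haveI : Z2.Characteristic := inferInstance
  -- the second centre centralises the commutator subgroup
  have hZ2 : ⁅Z2, (⊤ : Subgroup R)⁆ ≤ Z := by
    rw [Subgroup.commutator_le]
    intro x hx y _
    have h1 := Subgroup.mem_upperCentralSeries_succ_iff.mp hx y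
    rw [Subgroup.upperCentralSeries_one] at h1
    simpa [commutatorElement_def] using h1
  have hZc : ⁅Z, (⊤ : Subgroup R)⁆ = ⊥ := by
    rw [eq_bot_iff, Subgroup.commutator_le]
    intro z hz y _
    rw [Subgroup.mem_bot, commutatorElement_eq_one_iff_commute]
    exact ((Subgroup.mem_center_iff.mp hz) y).symm
  have hcen : ⁅commutator R, Z2⁆ = ⊥ := by
    rw [commutator_def]
    refine Subgroup.commutator_commutator_eq_bot_of_rotate ?_ ?_
    · rw [Subgroup.commutator_comm ⊤ Z2, eq_bot_iff, ← hZc]
      exact Subgroup.commutator_mono hZ2 le_rfl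
    · rw [eq_bot_iff, ← hZc]
      exact Subgroup.commutator_mono hZ2 le_rfl
  have hcomm : ∀ d ∈ commutator R, ∀ a ∈ Z2, Commute d a := by
    intro d hd a ha
    rw [← commutatorElement_eq_one_iff_commute, ← Subgroup.mem_bot, ← hcen]
    exact Subgroup.commutator_mem_commutator hd ha
  -- A = (D Z) ∩ Z2 is characteristic abelian, hence cyclic, hence central
  set A := (commutator R ⊔ Z) ⊓ Z2
  haveI : (commutator R).Characteristic := Subgroup.commutator_characteristic ⊤ ⊤
  haveI : A.Characteristic := inferInstance
  have hA : IsMulCommutative A := by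
    constructor; constructor
    intro a b
    apply Subtype.ext
    have hle : commutator R ⊔ Z ≤ Subgroup.centralizer (Z2 : Set R) := by
      refine sup_le (fun d hd => ?_) (fun z hz => ?_)
      · exact Subgroup.mem_centralizer_iff.mpr fun x hx => (hcomm d hd x hx).symm.eq
      · exact Subgroup.mem_centralizer_iff.mpr fun x _ => (Subgroup.mem_center_iff.mp hz x)
    exact (Subgroup.mem_centralizer_iff.mp (hle a.2.1) (b : R) b.2.2).symm
  haveI := hcyc A inferInstance hA
  have hZA : Z ≤ A := le_inf le_sup_right (by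
    intro z hz
    rw [Subgroup.mem_upperCentralSeries_succ_iff]
    intro y
    rw [Subgroup.upperCentralSeries_one]
    have : z * y * z⁻¹ * y⁻¹ = 1 := by rw [← (Subgroup.mem_center_iff.mp hz y)]; group
    first
    | (rw [this]; exact one_mem _)
    | (simp [commutatorElement_def, this]))
  have hAcard : Nat.card A ≤ Nat.card Z := by
    obtain ⟨g, hg⟩ := IsCyclic.exists_ofOrder_eq_natCard (α := A)
    rw [← hg, ← hexp, ← Subgroup.orderOf_coe]
    exact Nat.le_of_dvd (Nat.pos_of_ne_zero Monoid.exponent_ne_zero_of_finite) (Monoid.order_dvd_exponent _)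
  have hAZ : A = Z := (Subgroup.eq_of_le_of_card_ge hZA hAcard).symm
  -- D Z / Z is normal in R / Z and meets the centre trivially
  by_contra hne
  set π := QuotientGroup.mk' Z
  have hN : ((commutator R).map π) ≠ ⊥ := by
    rw [Ne, Subgroup.map_eq_bot_iff, QuotientGroup.ker_mk']
    exact hne
  haveI : ((commutator R).map π).Normal :=
    Subgroup.Normal.map inferInstance _ (QuotientGroup.mk'_surjective Z)
  haveI : Group.IsNilpotent (R ⧸ Z) := inferInstance
  obtain ⟨q, hq1, hq2⟩ : ∃ q ∈ (commutator R).map π ⊓ Subgroup.center (R ⧸ Z), q ≠ 1 := by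
    by_contra hc
    push Not at hc
    apply hN
    -- climb the upper central series
    rw [eq_bot_iff]
    intro q hq
    obtain ⟨n, hn⟩ := Group.IsNilpotent.nilpotent (G := R ⧸ Z)
    have key : ∀ k, ∀ q ∈ (commutator R).map π, q ∈ Subgroup.upperCentralSeries (R ⧸ Z) k → q = 1 := by
      intro k
      induction k with
      | zero => intro q _ hq; rwa [Subgroup.upperCentralSeries_zero, Subgroup.mem_bot] at hq
      | succ k ih =>
        intro q hqN hq
        apply hc q ⟨hqN, ?_⟩
        show q ∈ Subgroup.center (R ⧸ Z)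
        rw [Subgroup.mem_center_iff]
        intro y
        have h2 := Subgroup.mem_upperCentralSeries_succ_iff.mp hq y
        have hqy : q * y * q⁻¹ * y⁻¹ = 1 := by
          refine ih _ ?_ ?_
          · rw [mul_assoc q y, mul_assoc q]
            refine Subgroup.mul_mem _ hqN ?_
            exact Subgroup.Normal.conj_mem inferInstance _ (Subgroup.inv_mem _ hqN) y
          · simpa [commutatorElement_def] using h2
        calc y * q = (q * y * q⁻¹ * y⁻¹) * (y * q) := by rw [hqy, one_mul]
          _ = q * y := by group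
    exact key n q hq (hn ▸ Subgroup.mem_top q)
  obtain ⟨⟨d, hd, rfl⟩, hqc⟩ := hq1
  apply hq2
  rw [← MonoidHom.mem_ker, QuotientGroup.ker_mk', ← hAZ]
  refine ⟨Subgroup.mem_sup_left hd, ?_⟩
  show d ∈ Subgroup.upperCentralSeries R (1 + 1)
  rw [Subgroup.mem_upperCentralSeries_succ_iff]
  intro y
  rw [Subgroup.upperCentralSeries_one]
  have h1 : d * y * d⁻¹ * y⁻¹ ∈ π.ker := by
    rw [MonoidHom.mem_ker, map_mul, map_mul, map_mul, map_inv, map_inv, ← Subgroup.mem_center_iff.mp hqc (π y)]
    group
  rw [QuotientGroup.ker_mk'] at h1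
  simpa [commutatorElement_def] using h1

variable {ι : Type} [Fintype ι] [DecidableEq ι] {F : Type*} [Field F]

/-- A central element of an absolutely irreducible group is scalar. -/
theorem exists_scalar_of_mem_center {R : Subgroup (GL ι F)}
    (h : ActsAbsolutelyIrreducibly (matrixSet R)) {z : R} (hz : z ∈ Subgroup.center R) :
    ∃ c : F, ((z : GL ι F) : Matrix ι ι F) = c • (1 : Matrix ι ι F) := by
  refine h.2 _ ?_
  rintro _ ⟨g, hg, rfl⟩
  exact congrArg (fun x : R => ((x : GL ι F) : Matrix ι ι F))
    (Subgroup.mem_center_iff.mp hz ⟨g, hg⟩).symm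

/-- Degree of an absolutely irreducible group of class two. -/
theorem sq_card_eq_index_center [Finite F] [Nonempty ι] {R : Subgroup (GL ι F)}
    (h : ActsAbsolutelyIrreducibly (matrixSet R)) (hcl : commutator R ≤ Subgroup.center R) :
    Fintype.card ι ^ 2 = (Subgroup.center R).index := by
  classical
  haveI : Finite R := inferInstance
  haveI := Fintype.ofFinite (R ⧸ Subgroup.center R)
  let v : R ⧸ Subgroup.center R → Matrix ι ι F := fun q => ((q.out : R) : GL ι F)
  have hspan : ⊤ ≤ Submodule.span F (Set.range v) := by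
    have := Cfsg.Agent.GeoClasses.spanAlg_toSubmodule (F := F) R
    rw [Cfsg.Agent.GeoClasses.spanAlg_eq_top h, Algebra.top_toSubmodule] at this
    rw [this, Submodule.span_le]
    rintro _ ⟨g, hg, rfl⟩
    let q : R ⧸ Subgroup.center R := QuotientGroup.mk ⟨g, hg⟩
    obtain ⟨z, hz⟩ := QuotientGroup.mk_out_eq_mul (Subgroup.center R) (⟨g, hg⟩ : R)
    obtain ⟨c, hc⟩ := exists_scalar_of_mem_center h (Subgroup.inv_mem _ z.2)
    have hg' : (⟨g, hg⟩ : R) = q.out * (z : R)⁻¹ := by
      rw [show q.out = _ from hz, mul_inv_cancel_right]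
    have : (g : Matrix ι ι F) = c • v q := by
      rw [show (g : GL ι F) = ((q.out * (z : R)⁻¹ : R) : GL ι F) from congrArg Subtype.val hg',
        Subgroup.coe_mul, Units.val_mul, hc, Matrix.mul_smul, Matrix.mul_one]
    show (g : Matrix ι ι F) ∈ Submodule.span F (Set.range v)
    rw [this]
    exact Submodule.smul_mem _ _ (Submodule.subset_span ⟨q, rfl⟩)
  -- the characters
  have hχ : ∀ (y : R) (q : R ⧸ Subgroup.center R), ∃ c : F,
      ((y : GL ι F) : Matrix ι ι F) * v q * (((y⁻¹ : R) : GL ι F) : Matrix ι ι F) = c • v q := by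
    intro y q
    have hmem : ⁅y, q.out⁆ ∈ Subgroup.center R :=
      hcl (Subgroup.commutator_mem_commutator (Subgroup.mem_top _) (Subgroup.mem_top _))
    obtain ⟨c, hc⟩ := exists_scalar_of_mem_center h hmem
    refine ⟨c, ?_⟩
    have e : y * q.out * y⁻¹ = ⁅y, q.out⁆ * q.out := by rw [commutatorElement_def]; group
    have := congrArg (fun x : R => ((x : GL ι F) : Matrix ι ι F)) e
    simp only [Subgroup.coe_mul, Units.val_mul] at this
    rw [hc, Matrix.smul_mul, Matrix.one_mul] at this
    exact this
  choose χ hχ using hχ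
  have hv0 : ∀ q, v q ≠ 0 := fun q h0 => by
    have := congrArg (fun M : Matrix ι ι F => ((((q.out : R) : GL ι F)⁻¹ : GL ι F) : Matrix ι ι F) * M) h0
    simp [v] at this
  have hsep : ∀ p q, p ≠ q → ∃ y, χ y p ≠ χ y q := by
    intro p q hpq
    by_contra hc
    push Not at hc
    apply hpq
    have hmem : p.out⁻¹ * q.out ∈ Subgroup.center R := by
      rw [Subgroup.mem_center_iff]
      intro y
      apply Subtype.ext
      apply Units.ext
      simp only [Subgroup.coe_mul, Units.val_mul]
      have h1 := hχ y p
      have h2 := hχ y q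
      rw [← hc y] at h2
      set P := ((p.out : R) : GL ι F) with hP
      set Q := ((q.out : R) : GL ι F) with hQ
      set Y := (y : GL ι F) with hY
      have hYi : (((y⁻¹ : R) : GL ι F)) = Y⁻¹ := rfl
      rw [hYi] at h1 h2
      have hvP : v p = (P : Matrix ι ι F) := rfl
      have hvQ : v q = (Q : Matrix ι ι F) := rfl
      rw [hvP] at h1
      rw [hvQ] at h2
      have hc0 : χ y p ≠ 0 := by
        intro h0
        rw [h0, zero_smul] at h1
        exact (Y * P * Y⁻¹ : GL ι F).ne_zero (by rw [Units.val_mul, Units.val_mul]; exact h1)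
      set c := χ y p
      have e1 : (Y : Matrix ι ι F) * P = c • ((P : Matrix ι ι F) * Y) := by
        rw [← Matrix.smul_mul, ← h1, mul_assoc _ _ (Y : Matrix ι ι F), ← Units.val_mul Y⁻¹, inv_mul_cancel, Units.val_one, mul_one]
      have e2 : (Y : Matrix ι ι F) * Q = c • ((Q : Matrix ι ι F) * Y) := by
        rw [← Matrix.smul_mul, ← h2, mul_assoc _ _ (Y : Matrix ι ι F), ← Units.val_mul Y⁻¹, inv_mul_cancel, Units.val_one, mul_one]
      have hPi : (((p.out⁻¹ : R) : GL ι F)) = P⁻¹ := rfl
      rw [hPi]
      have e3 : ((P⁻¹ : GL ι F) : Matrix ι ι F) * Y = c • ((Y : Matrix ι ι F) * (P⁻¹ : GL ι F)) := by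
        have := congrArg (fun M : Matrix ι ι F =>
          ((P⁻¹ : GL ι F) : Matrix ι ι F) * M * ((P⁻¹ : GL ι F) : Matrix ι ι F)) e1
        simp only [Matrix.mul_smul, Matrix.smul_mul] at this
        rw [mul_assoc, mul_assoc (Y : Matrix ι ι F), ← Units.val_mul P P⁻¹, mul_inv_cancel, Units.val_one, mul_one,
          ← mul_assoc ((P⁻¹ : GL ι F) : Matrix ι ι F) (P : Matrix ι ι F), ← Units.val_mul P⁻¹ P, inv_mul_cancel,
          Units.val_one, one_mul] at this
        exact this
      apply smul_right_injective (Matrix ι ι F) hc0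
      show c • ((Y : Matrix ι ι F) * (((P⁻¹ : GL ι F) : Matrix ι ι F) * (Q : Matrix ι ι F))) = _
      rw [← mul_assoc, ← Matrix.smul_mul, ← e3, mul_assoc, e2, Matrix.mul_smul, mul_assoc]
    rw [← QuotientGroup.out_eq' p, ← QuotientGroup.out_eq' q]
    exact QuotientGroup.eq.mpr hmem
  have hli : LinearIndependent F v := by
    rw [linearIndependent_iff']
    intro s
    induction s using Finset.induction_on with
    | empty => simp
    | insert a s has ih =>
      intro c hsum
      have hs : ∀ q ∈ s, c q = 0 := by
        intro q hq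
        obtain ⟨y, hy⟩ := hsep q a (fun e => has (e ▸ hq))
        have h1 : ∑ t ∈ insert a s, (c t * χ y t) • v t = 0 := by
          have := congrArg (fun M : Matrix ι ι F =>
            ((y : GL ι F) : Matrix ι ι F) * M * (((y⁻¹ : R) : GL ι F) : Matrix ι ι F)) hsum
          simp only [Matrix.mul_sum, Matrix.sum_mul, Matrix.mul_smul, Matrix.smul_mul, hχ, smul_smul,
            Matrix.mul_zero, Matrix.zero_mul] at this
          exact this
        have h2 : ∑ t ∈ insert a s, (c t * χ y t - χ y a * c t) • v t = 0 := by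
          simp only [sub_smul, Finset.sum_sub_distrib, h1, zero_sub, neg_eq_zero, ← smul_smul (χ y a)]
          rw [← Finset.smul_sum, hsum, smul_zero]
        rw [Finset.sum_insert has, show c a * χ y a - χ y a * c a = 0 by ring, zero_smul, zero_add] at h2
        have := ih (fun t => c t * χ y t - χ y a * c t) h2 q hq
        have h3 : c q * (χ y q - χ y a) = 0 := by linear_combination this
        exact (mul_eq_zero.mp h3).resolve_right (sub_ne_zero.mpr hy)
      rw [Finset.sum_insert has, Finset.sum_eq_zero (fun t ht => by rw [hs t ht, zero_smul]), add_zero] at hsum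
      intro t ht
      rcases Finset.mem_insert.mp ht with rfl | ht
      · exact (smul_eq_zero.mp hsum).resolve_right (hv0 _)
      · exact hs t ht
  have := Module.finrank_eq_card_basis (Module.Basis.mk hli hspan)
  rw [Module.finrank_matrix, Module.finrank_self, mul_one, Fintype.card_eq_nat_card (α := R ⧸ Subgroup.center R)] at this
  rw [pow_two, this]
  rfl

/-- In dimension at least three the degree of a symplectic-type group of the linear case is a power of its prime. -/
theorem card_eq_pow_of_data [Fintype F] (h3 : 3 ≤ Fintype.card ι) {r : ℕ} {R : Subgroup (GL ι F)}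
    (hR : IsLinearSymplecticTypeData r R) : ∃ m, Fintype.card ι = r ^ m := by
  haveI : Nonempty ι := Fintype.card_pos_iff.mp (by omega)
  obtain ⟨hst, hirr, p, e, -, -, hcase⟩ := hR
  haveI : Fact r.Prime := ⟨hst.prime⟩
  haveI : Group.IsNilpotent R := hst.pGroup.isNilpotent
  have hexp := hst.exponent_eq
  have main : ∀ m k, Monoid.exponent R = Nat.card (Subgroup.center R) →
      Nat.card (Subgroup.center R) = r ^ k → Nat.card R = r ^ (k + 2 * m) → Fintype.card ι = r ^ m := by
    intro m k hx hZ hc
    have hsq := sq_card_eq_index_center hirr (commutator_le_center_of_cyclic_char hst.cyclic_of_characteristic hx)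
    have hmul := (Subgroup.center R).card_mul_index
    rw [hc, hZ, pow_add, ← hsq] at hmul
    have := Nat.eq_of_mul_eq_mul_left (pow_pos hst.prime.pos k) hmul
    rw [mul_comm 2 m, pow_mul] at this
    exact Nat.pow_left_injective two_ne_zero this
  rcases hcase with ⟨hodd, -, hZ, m, -, hm⟩ | ⟨rfl, -, hZ, -, m, hm⟩ | ⟨-, -, hι, -⟩
  · refine ⟨m, main m 1 ?_ (by rw [hZ, pow_one]) hm⟩
    rw [hexp, hZ, Nat.Coprime.gcd_eq_one (Nat.coprime_two_left.mpr hodd), mul_one]
  · refine ⟨m, main m 2 ?_ hZ hm⟩
    rw [hexp, hZ]; rfl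
  · omega

end Cfsg.Agent.MaxSub
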