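import Mathlib
import Cfsg.Prelude.Def_GeometricClasses
import Cfsg.Agent.MaxSub.Proper
import Cfsg.Agent.MaxSub.SymplecticType
import Cfsg.Agent.ClassicalMax.LinearExceptions

/-!
From the dichotomy "contained in a member of a geometric class or residual" to the list of
maximal subgroups of the special linear group.
-/

set_option autoImplicit false

namespace Cfsg.Agent.MaxSub

open Matrix Cfsg.Geo Cfsg.Agent.GeoClasses
open scoped MatrixGroups Matrix Kronecker commutatorElement

variable {F : Type*} [Field F] [Fintype F]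

section
variable {ι : Type} [Fintype ι] [DecidableEq ι]

omit [Fintype F] in
/-- A maximal subgroup below a group not containing the special linear group is the intersection. -/
theorem eq_inf_of_le {H M : Subgroup (GL ι F)} (hH : IsMaximalIn (specialLinear ι F) H) (hle : H ≤ M)
    (hM : ¬ specialLinear ι F ≤ M) : H = M ⊓ specialLinear ι F :=
  ((hH.2 (M ⊓ specialLinear ι F) (le_inf hle hH.1.le) inf_le_right).resolve_right
    fun h => hM (inf_eq_right.mp h)).symm

omit [Fintype F] in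
/-- A maximal subgroup does not cover the projective group. -/
theorem sup_scalars_ne {H : Subgroup (GL ι F)} (h3 : 3 ≤ Fintype.card ι)
    (hH : IsMaximalIn (specialLinear ι F) H) :
    H ⊔ (scalars ι F ⊓ specialLinear ι F) ≠ specialLinear ι F := by
  intro h
  set Z := scalars ι F ⊓ specialLinear ι F
  apply hH.1.not_ge
  rw [← specialLinear_commutator (F := F) h3]
  have hcen : ∀ z ∈ Z, ∀ g : GL ι F, z * g = g * z := by
    intro z hz g
    obtain ⟨c, hc⟩ := (mem_scalars_iff z).mp hz.1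
    apply Units.ext
    simp [hc]
  rw [Subgroup.commutator_le]
  intro a ha b hb
  have hN : H ≤ Subgroup.normalizer (Z : Set (GL ι F)) := fun x _ =>
    Subgroup.mem_normalizer_iff.mpr fun y => by
      constructor
      · intro hy
        rw [← hcen y hy x, mul_assoc, mul_inv_cancel, mul_one]
        exact hy
      · intro hy
        have e := hcen _ hy x
        rw [show x * y * x⁻¹ * x = x * y by group] at e
        rwa [← mul_left_cancel e] at hy
  rw [← h, ← SetLike.mem_coe, Subgroup.coe_mul_of_left_le_normalizer_right H Z hN] at ha hb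
  obtain ⟨a', ha', z, hz, rfl⟩ := ha
  obtain ⟨b', hb', w, hw, rfl⟩ := hb
  have : ⁅a' * z, b' * w⁆ = ⁅a', b'⁆ := by
    simp only [commutatorElement_def]
    calc a' * z * (b' * w) * (a' * z)⁻¹ * (b' * w)⁻¹
        = a' * (z * (b' * w)) * z⁻¹ * a'⁻¹ * (w⁻¹ * b'⁻¹) := by group
      _ = a' * ((b' * w) * z) * z⁻¹ * a'⁻¹ * (w⁻¹ * b'⁻¹) := by rw [hcen z hz]
      _ = a' * b' * (w * a'⁻¹) * (w⁻¹ * b'⁻¹) := by group
      _ = a' * b' * (a'⁻¹ * w) * (w⁻¹ * b'⁻¹) := by rw [hcen w hw]
      _ = a' * b' * a'⁻¹ * b'⁻¹ := by group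
  rw [this, commutatorElement_def]
  exact mul_mem (mul_mem (mul_mem ha' hb') (inv_mem ha')) (inv_mem hb')

omit [Fintype F] in
theorem mul_eq_card_of_isMDecomposition {t m : ℕ} {D : Fin t → Submodule F (ι → F)}
    (hD : IsMDecomposition m D) : t * m = Fintype.card ι := by
  classical
  have hint : DirectSum.IsInternal D :=
    (DirectSum.isInternal_submodule_iff_iSupIndep_and_iSup_eq_top _).mpr ⟨hD.indep, hD.iSup_eq_top⟩
  let b : ∀ i, Module.Basis (Fin m) F (D i) := fun i => Module.finBasisOfFinrankEq F (D i) (hD.finrank_eq i)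
  have := Module.finrank_eq_card_basis (hint.collectedBasis b)
  simp [Fintype.card_sigma] at this
  exact this.symm

omit [Fintype F] in
theorem degree_dvd_card_aux {E : Type*} [Field E] [Algebra F E] (ψ : E →ₐ[F] Matrix ι ι F) :
    Module.finrank F E ∣ Fintype.card ι := by
  let act : E →+* Module.End F (ι → F) :=
    (Matrix.toLinAlgEquiv' : Matrix ι ι F ≃ₐ[F] _).toAlgHom.toRingHom.comp ψ.toRingHom
  letI : Module E (ι → F) := Module.compHom _ act
  haveI : IsScalarTower F E (ι → F) :=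
    ⟨fun c l v => by
      show ψ (c • l) *ᵥ v = c • (ψ l *ᵥ v)
      rw [map_smul]; exact Matrix.smul_mulVec c (ψ l) v⟩
  have := Module.finrank_mul_finrank F E (ι → F)
  rw [Module.finrank_fintype_fun_eq_card] at this
  exact ⟨_, this.symm⟩

omit [Fintype F] in
theorem degree_dvd_card [Nonempty ι] {r : ℕ} {K : Subalgebra F (Matrix ι ι F)}
    (hK : IsFieldSubalgebra r K) : r ∣ Fintype.card ι := by
  letI : Field K := (isField_of_isFieldSubalgebra hK).toField
  have h := degree_dvd_card_aux (E := K) K.val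
  exact hK.finrank_eq ▸ h

theorem subfield_ne_top {F₀ : Subfield F} {r : ℕ} (hr : r.Prime) (h : Fintype.card F = Nat.card F₀ ^ r) :
    F₀ ≠ ⊤ := by
  rintro rfl
  have hc : Nat.card (⊤ : Subfield F) = Fintype.card F := by
    rw [Nat.card_congr Subfield.topEquiv.toEquiv, Nat.card_eq_fintype_card]
  rw [hc] at h
  have := Nat.pow_lt_pow_right (Fintype.one_lt_card (α := F)) hr.one_lt
  rw [← h, pow_one] at this
  exact lt_irrefl _ this

end

/-- The possible shapes of a maximal subgroup of `SL_n`, given the dichotomy. -/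
theorem maximal_cases {n : ℕ} (hn : 3 ≤ n)
    (hdich : ∀ H : Subgroup (GL (Fin n) F), H ≤ specialLinear (Fin n) F →
      H ⊔ (scalars (Fin n) F ⊓ specialLinear (Fin n) F) ≠ specialLinear (Fin n) F →
      (∃ M, InLinearClass n F M ∧ H ≤ M) ∨ InLinearResidualClass H)
    {H : Subgroup (GL (Fin n) F)} (hH : IsMaximalIn (specialLinear (Fin n) F) H) :
    (∃ W : Submodule F (Fin n → F), W ≠ ⊥ ∧ W ≠ ⊤ ∧ H = subspaceStabilizer W ⊓ specialLinear (Fin n) F) ∨
    (∃ (t m : ℕ) (D : Fin t → Submodule F (Fin n → F)), IsMDecomposition m D ∧ t * m = n ∧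
      H = decompositionStabilizer D ⊓ specialLinear (Fin n) F) ∨
    (∃ (r : ℕ) (K : Subalgebra F (Matrix (Fin n) (Fin n) F)), r.Prime ∧ r ∣ n ∧ IsFieldSubalgebra r K ∧
      H = subalgebraNormalizer K ⊓ specialLinear (Fin n) F) ∨
    (∃ (n₁ n₂ : ℕ) (e : Fin n ≃ Fin n₁ × Fin n₂) (P : GL (Fin n) F), 2 ≤ n₁ ∧ n₁ < n₂ ∧ n = n₁ * n₂ ∧
      H = tensorProductSubgroup n₁ n₂ e P ⊓ specialLinear (Fin n) F) ∨
    (∃ (F₀ : Subfield F) (r : ℕ) (P : GL (Fin n) F), r.Prime ∧ Fintype.card F = Nat.card F₀ ^ r ∧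
      H = subfieldSubgroup F₀ P ⊓ specialLinear (Fin n) F) ∨
    (∃ (r m : ℕ) (R : Subgroup (GL (Fin n) F)), r.Prime ∧ n = r ^ m ∧ r ∣ n ∧ IsLinearSymplecticTypeData r R ∧
      H = subgroupNormalizer R ⊓ specialLinear (Fin n) F) ∨
    (∃ (m t : ℕ) (e : Fin n ≃ (Fin t → Fin m)) (P : GL (Fin n) F), 3 ≤ m ∧ 2 ≤ t ∧ n = m ^ t ∧
      H = tensorWreathSubgroup m t e P ⊓ specialLinear (Fin n) F) ∨
    (∃ f : (Fin n → F) → (Fin n → F) → F, IsSymplecticForm f ∧ Even n ∧
      H = similarityGroup f ⊓ specialLinear (Fin n) F) ∨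
    (∃ (σ : F ≃+* F) (f : (Fin n → F) → (Fin n → F) → F), IsUnitaryForm σ f ∧
      H = similarityGroup f ⊓ specialLinear (Fin n) F) ∨
    (∃ Q : (Fin n → F) → F, IsNondegenerateQuadraticForm Q ∧ Odd (Fintype.card F) ∧
      H = quadSimilarityGroup Q ⊓ specialLinear (Fin n) F) ∨
    InLinearResidualClass H := by
  have h3 : 3 ≤ Fintype.card (Fin n) := by rwa [Fintype.card_fin]
  haveI : Nonempty (Fin n) := ⟨⟨0, by omega⟩⟩
  haveI : Nontrivial (Fin n) := Fin.nontrivial_iff_two_le.mpr (by omega)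
  rcases hdich H hH.1.le (sup_scalars_ne h3 hH) with ⟨M, hM, hle⟩ | hres
  swap
  · iterate 10 right
    exact hres
  rcases hM with ⟨W, hb, ht, rfl⟩ | ⟨W, U, hb, hWU, -, rfl⟩ | ⟨W, U, hb, hWU, -, hd, rfl⟩ | ⟨t, m, D, hD, rfl⟩ |
    ⟨r, K, hr, hK, rfl⟩ | ⟨n₁, n₂, e, P, h1, h2, rfl⟩ | ⟨F₀, r, P, hr, hc, rfl⟩ | ⟨r, R, hR, rfl⟩ |
    ⟨m, t, e, P, hm, ht, rfl⟩ | ⟨f, hf, hev, -, rfl⟩ | ⟨σ, f, hf, -, rfl⟩ | ⟨Q, hQ, hodd, -, rfl⟩
  · exact Or.inl ⟨W, hb, ht, eq_inf_of_le hH hle (specialLinear_not_le_stabilizer hb ht)⟩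
  · have ht : W ≠ ⊤ := fun h => not_top_lt (h ▸ hWU)
    exact Or.inl ⟨W, hb, ht, eq_inf_of_le hH (hle.trans inf_le_left) (specialLinear_not_le_stabilizer hb ht)⟩
  · have ht : W ≠ ⊤ := fun h => by
      have := Submodule.finrank_le U
      rw [h, finrank_top] at hd
      omega
    exact Or.inl ⟨W, hb, ht, eq_inf_of_le hH (hle.trans inf_le_left) (specialLinear_not_le_stabilizer hb ht)⟩
  · refine Or.inr (Or.inl ⟨t, m, D, hD, ?_, eq_inf_of_le hH hle (not_le_decompositionStabilizer hD)⟩)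
    rw [mul_eq_card_of_isMDecomposition hD, Fintype.card_fin]
  · iterate 2 right
    refine Or.inl ⟨r, K, hr, ?_, hK, eq_inf_of_le hH hle (not_specialLinear_le_normalizer hr.one_lt h3 hK)⟩
    simpa using degree_dvd_card hK
  · iterate 3 right
    refine Or.inl ⟨n₁, n₂, e, P, h1, h2, ?_, eq_inf_of_le hH hle (not_le_tensorProductSubgroup h1 (by omega) e P)⟩
    simpa using Fintype.card_congr e
  · iterate 4 right
    exact Or.inl ⟨F₀, r, P, hr, hc, eq_inf_of_le hH hle (not_le_subfieldSubgroup (subfield_ne_top hr hc) P)⟩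
  · iterate 5 right
    obtain ⟨m, hm⟩ := card_eq_pow_of_data h3 hR
    rw [Fintype.card_fin] at hm
    haveI : Fact r.Prime := ⟨hR.symplecticType.prime⟩
    refine Or.inl ⟨r, m, R, Fact.out, hm, ?_, hR,
      eq_inf_of_le hH hle (not_le_subgroupNormalizer h3 hR.symplecticType.pGroup hR.absIrred)⟩
    rw [hm]
    exact dvd_pow_self r fun h => by rw [h, pow_zero] at hm; omega
  · iterate 6 right
    refine Or.inl ⟨m, t, e, P, hm, ht, ?_, eq_inf_of_le hH hle (not_le_tensorWreathSubgroup (by omega) ht e P)⟩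
    simpa using Fintype.card_congr e
  · iterate 7 right
    exact Or.inl ⟨f, hf, hev, eq_inf_of_le hH hle (not_le_similarityGroup_symplectic h3 hf)⟩
  · iterate 8 right
    exact Or.inl ⟨σ, f, hf, eq_inf_of_le hH hle (not_le_similarityGroup_unitary h3 hf)⟩
  · iterate 9 right
    exact Or.inl ⟨Q, hQ, hodd, eq_inf_of_le hH hle (not_le_quadSimilarityGroup h3 hQ)⟩

/-- Decompositions into lines: over small fields the stabiliser is inside another member. -/
theorem lines_cases {n : ℕ} (hn : 3 ≤ n) {t : ℕ} {D : Fin t → Submodule F (Fin n → F)}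
    (hD : IsMDecomposition 1 D) {H : Subgroup (GL (Fin n) F)}
    (hH : IsMaximalIn (specialLinear (Fin n) F) H) (he : H = decompositionStabilizer D ⊓ specialLinear (Fin n) F)
    (hq : Fintype.card F < 5) :
    (∃ W : Submodule F (Fin n → F), W ≠ ⊥ ∧ W ≠ ⊤ ∧ H = subspaceStabilizer W ⊓ specialLinear (Fin n) F) ∨
    (∃ Q : (Fin n → F) → F, Odd (Fintype.card F) ∧ IsNondegenerateQuadraticForm Q ∧
      H = quadSimilarityGroup Q ⊓ specialLinear (Fin n) F) ∨
    (∃ (σ : F ≃+* F) (f : (Fin n → F) → (Fin n → F) → F), IsUnitaryForm σ f ∧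
      H = similarityGroup f ⊓ specialLinear (Fin n) F) := by
  have h3 : 3 ≤ Fintype.card (Fin n) := by rwa [Fintype.card_fin]
  have h1 := Fintype.one_lt_card (α := F)
  have hle : H ≤ decompositionStabilizer D := he ▸ inf_le_left
  obtain h | h | h : Fintype.card F = 2 ∨ Fintype.card F = 3 ∨ Fintype.card F = 4 := by omega
  · obtain ⟨W, hb, ht, hW⟩ := Cfsg.Agent.ClassicalMax.decomposition_le_subspaceStabilizer_of_two hD h
    exact Or.inl ⟨W, hb, ht, eq_inf_of_le hH (hle.trans hW) (specialLinear_not_le_stabilizer hb ht)⟩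
  · obtain ⟨Q, hQ, hQle⟩ := Cfsg.Agent.ClassicalMax.decomposition_le_quadSimilarityGroup_of_three hD h
    exact Or.inr (Or.inl ⟨Q, by rw [h]; decide, hQ,
      eq_inf_of_le hH (hle.trans hQle) (not_le_quadSimilarityGroup h3 hQ)⟩)
  · obtain ⟨σ, f, hf, hfle⟩ := Cfsg.Agent.ClassicalMax.decomposition_le_similarityGroup_unitary_of_four hD h
    exact Or.inr (Or.inr ⟨σ, f, hf, eq_inf_of_le hH (hle.trans hfle) (not_le_similarityGroup_unitary h3 hf)⟩)

/-- Decompositions into planes over the field of two elements. -/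
theorem planes_case {n : ℕ} (hn : 3 ≤ n) {t : ℕ} {D : Fin t → Submodule F (Fin n → F)}
    (hD : IsMDecomposition 2 D) {H : Subgroup (GL (Fin n) F)}
    (hH : IsMaximalIn (specialLinear (Fin n) F) H) (he : H = decompositionStabilizer D ⊓ specialLinear (Fin n) F)
    (hq : Fintype.card F < 3) :
    ∃ f : (Fin n → F) → (Fin n → F) → F, IsSymplecticForm f ∧ H = similarityGroup f ⊓ specialLinear (Fin n) F := by
  have h1 := Fintype.one_lt_card (α := F)
  obtain ⟨f, hf, hfle⟩ := Cfsg.Agent.ClassicalMax.decomposition_le_similarityGroup_symplectic hD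
    (Or.inl (by omega))
  exact ⟨f, hf, eq_inf_of_le hH (he.le.trans hfle)
    (not_le_similarityGroup_symplectic (by rwa [Fintype.card_fin]) hf)⟩

/-- Over the field of two elements a tensor decomposition with a plane factor normalises an
extension field of degree two. -/
theorem tensor_two_le_normalizer {n b : ℕ} (hb : 0 < b) (hF : Fintype.card F = 2)
    (e : Fin n ≃ Fin 2 × Fin b) (P : GL (Fin n) F) :
    ∃ K : Subalgebra F (Matrix (Fin n) (Fin n) F), IsFieldSubalgebra 2 K ∧
      tensorProductSubgroup 2 b e P ≤ subalgebraNormalizer K := by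
  classical
  have h01 : ∀ x : F, x = 0 ∨ x = 1 := by
    intro x
    by_contra hc
    push Not at hc
    have : ({0, 1, x} : Finset F).card ≤ 2 := hF ▸ Finset.card_le_univ _
    rw [Finset.card_insert_of_notMem (by simp [Ne.symm hc.1]), Finset.card_pair (Ne.symm hc.2)] at this
    omega
  have h2 : (2 : F) = 0 := by
    have := Nat.cast_card_eq_zero F
    rw [hF] at this
    simpa using this
  set W : Matrix (Fin 2) (Fin 2) F := !![0, 1; 1, 1] with hW
  have hWW : W * W = W + 1 := by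
    ext i j
    fin_cases i <;> fin_cases j <;> simp [W, Matrix.mul_apply, Fin.sum_univ_two] <;>
      first | linear_combination h2 | linear_combination (0 : F) * h2
  -- the embedding M₂ → M_n
  set φ : Matrix (Fin 2) (Fin 2) F → Matrix (Fin n) (Fin n) F := fun A =>
    (P : Matrix (Fin n) (Fin n) F) * (Matrix.reindexAlgEquiv F F e.symm (A ⊗ₖ (1 : Matrix (Fin b) (Fin b) F))) *
      ((P⁻¹ : GL (Fin n) F) : Matrix (Fin n) (Fin n) F) with hφ
  have hadd : ∀ A B, φ (A + B) = φ A + φ B := fun A B => by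
    simp only [hφ, Matrix.add_kronecker, map_add, mul_add, add_mul]
  have hsmul : ∀ (c : F) A, φ (c • A) = c • φ A := fun c A => by
    simp only [hφ, Matrix.smul_kronecker, map_smul, Matrix.mul_smul, Matrix.smul_mul]
  have hone : φ 1 = 1 := by
    simp only [hφ, Matrix.one_kronecker_one, map_one, mul_one, ← Units.val_mul, mul_inv_cancel, Units.val_one]
  have hmul : ∀ A B, φ (A * B) = φ A * φ B := fun A B => by
    simp only [hφ]
    rw [← Matrix.mul_one (1 : Matrix (Fin b) (Fin b) F), Matrix.mul_kronecker_mul, map_mul]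
    simp only [Matrix.mul_one, mul_assoc]
    rw [← mul_assoc ((P⁻¹ : GL (Fin n) F) : Matrix (Fin n) (Fin n) F), ← Units.val_mul, inv_mul_cancel,
      Units.val_one, one_mul]
  have hinj : ∀ A, φ A = 0 → A = 0 := by
    intro A hA
    have h' : Matrix.reindexAlgEquiv F F e.symm (A ⊗ₖ (1 : Matrix (Fin b) (Fin b) F)) = 0 := by
      have := congrArg (fun M => ((P⁻¹ : GL (Fin n) F) : Matrix (Fin n) (Fin n) F) * M * (P : Matrix (Fin n) (Fin n) F)) hA
      simpa [hφ, mul_assoc, ← Units.val_mul] using this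
    have h'' := (Matrix.reindexAlgEquiv F F e.symm).injective (h'.trans (map_zero _).symm)
    ext i j
    have := congrFun (congrFun h'' (i, ⟨0, hb⟩)) (j, ⟨0, hb⟩)
    simpa using this
  -- the field {a + b W}
  let K : Subalgebra F (Matrix (Fin n) (Fin n) F) :=
    { carrier := {X | ∃ a c : F, X = φ (a • 1 + c • W)}
      mul_mem' := by
        rintro _ _ ⟨a, c, rfl⟩ ⟨a', c', rfl⟩
        refine ⟨a * a' + c * c', a * c' + c * a' + c * c', ?_⟩
        rw [← hmul]
        congr 1
        simp only [add_mul, mul_add, Matrix.smul_mul, Matrix.mul_smul, hWW, smul_smul, smul_add,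
          Matrix.one_mul, Matrix.mul_one, add_smul, mul_comm a' c, mul_comm c' c, mul_comm a' a, mul_comm c' a]
        abel
      one_mem' := ⟨1, 0, by simp [hone]⟩
      add_mem' := by
        rintro _ _ ⟨a, c, rfl⟩ ⟨a', c', rfl⟩
        refine ⟨a + a', c + c', ?_⟩
        rw [← hadd]; congr 1; rw [add_smul, add_smul]; abel
      zero_mem' := ⟨0, 0, by rw [zero_smul, zero_smul, add_zero, ← zero_smul F (1 : Matrix (Fin 2) (Fin 2) F), hsmul, zero_smul]⟩
      algebraMap_mem' := fun a => ⟨a, 0, by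
        rw [zero_smul, add_zero, hsmul, hone, Algebra.algebraMap_eq_smul_one]⟩ }
  have hKmem : ∀ X, X ∈ K ↔ ∃ a c : F, X = φ (a • 1 + c • W) := fun X => Iff.rfl
  refine ⟨K, ⟨?_, ?_, ?_⟩, ?_⟩
  · rintro _ ⟨a, c, rfl⟩ _ ⟨a', c', rfl⟩
    rw [← hmul, ← hmul]
    congr 1
    simp only [add_mul, mul_add, Matrix.smul_mul, Matrix.mul_smul, smul_smul, smul_add,
      Matrix.one_mul, Matrix.mul_one, mul_comm a' c, mul_comm c' c, mul_comm a' a, mul_comm c' a]
    abel
  · rintro _ ⟨a, c, rfl⟩ hne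
    rcases h01 a with rfl | rfl <;> rcases h01 c with rfl | rfl
    · exact absurd (by rw [zero_smul, zero_smul, add_zero, ← zero_smul F (1 : Matrix (Fin 2) (Fin 2) F), hsmul, zero_smul]) hne
    · refine ⟨φ ((1 : F) • 1 + (1 : F) • W), ⟨1, 1, rfl⟩, ?_⟩
      rw [← hmul, ← hone]; congr 1
      ext i j
      fin_cases i <;> fin_cases j <;> simp [W, Matrix.mul_apply, Fin.sum_univ_two] <;> linear_combination h2
    · exact ⟨1, ⟨1, 0, by simp [hone]⟩, by simp [hone]⟩
    · refine ⟨φ ((0 : F) • 1 + (1 : F) • W), ⟨0, 1, rfl⟩, ?_⟩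
      rw [← hmul, ← hone]; congr 1
      ext i j
      fin_cases i <;> fin_cases j <;> simp [W, Matrix.mul_apply, Fin.sum_univ_two] <;> linear_combination h2
  · let b2 : (Fin 2 → F) →ₗ[F] Matrix (Fin n) (Fin n) F :=
      { toFun := fun v => φ (v 0 • 1 + v 1 • W)
        map_add' := fun u v => by rw [← hadd]; congr 1; simp [add_smul]; abel
        map_smul' := fun c v => by rw [RingHom.id_apply, ← hsmul]; congr 1; simp [mul_smul] }
    have hb2 : Function.Injective b2 := by
      rw [← LinearMap.ker_eq_bot, LinearMap.ker_eq_bot']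
      intro v hv
      have := hinj _ hv
      have e00 := congrFun (congrFun this 0) 0
      have e01 := congrFun (congrFun this 0) 1
      simp [W] at e00 e01
      funext i; fin_cases i <;> assumption
    have hr : Subalgebra.toSubmodule K = LinearMap.range b2 := by
      ext X
      constructor
      · rintro ⟨a, c, rfl⟩; exact ⟨![a, c], by simp [b2]⟩
      · rintro ⟨v, rfl⟩; exact ⟨v 0, v 1, rfl⟩
    rw [← Subalgebra.finrank_toSubmodule, hr, LinearMap.finrank_range_of_inj hb2,
      Module.finrank_fintype_fun_eq_card, Fintype.card_fin]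
  · rintro g ⟨_, ⟨k, ⟨A, B, hk⟩, rfl⟩, rfl⟩
    rw [mem_normalizer_iff_map_le]
    rintro _ ⟨a, c, rfl⟩
    -- conjugation acts through A on the first factor
    have hconj : ∀ X, ((MulAut.conj P).toMonoidHom ((glReindex e.symm).toMonoidHom k) : Matrix (Fin n) (Fin n) F) * φ X *
        ((((MulAut.conj P).toMonoidHom ((glReindex e.symm).toMonoidHom k))⁻¹ : GL (Fin n) F) : Matrix (Fin n) (Fin n) F) =
        φ ((A : Matrix (Fin 2) (Fin 2) F) * X * ((A⁻¹ : GL (Fin 2) F) : Matrix (Fin 2) (Fin 2) F)) := by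
      intro X
      have hki : ((k⁻¹ : GL (Fin 2 × Fin b) F) : Matrix (Fin 2 × Fin b) (Fin 2 × Fin b) F) =
          ((A⁻¹ : GL (Fin 2) F) : Matrix (Fin 2) (Fin 2) F) ⊗ₖ ((B⁻¹ : GL (Fin b) F) : Matrix (Fin b) (Fin b) F) := by
        refine (Units.eq_inv_of_mul_eq_one_left (u := k) ?_).symm
        rw [hk, ← Matrix.mul_kronecker_mul, ← Units.val_mul, ← Units.val_mul, mul_inv_cancel, mul_inv_cancel,
          Units.val_one, Units.val_one, Matrix.one_kronecker_one]
      simp only [MulEquiv.toMonoidHom_eq_coe, MonoidHom.coe_coe, MulAut.conj_apply, _root_.mul_inv_rev, inv_inv,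
        Units.val_mul, hφ, ← map_inv (glReindex e.symm)]
      have hG : ∀ g : GL (Fin 2 × Fin b) F, ((glReindex e.symm g : GL (Fin n) F) : Matrix (Fin n) (Fin n) F) =
          Matrix.reindexAlgEquiv F F e.symm (g : Matrix (Fin 2 × Fin b) (Fin 2 × Fin b) F) := fun g => rfl
      rw [hG, hG, hki, hk]
      set P' := (P : Matrix (Fin n) (Fin n) F)
      set Pi := ((P⁻¹ : GL (Fin n) F) : Matrix (Fin n) (Fin n) F)
      have hPP : Pi * P' = 1 := by simp [Pi, P', ← Units.val_mul]
      simp only [mul_assoc]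
      rw [← mul_assoc Pi P', hPP, one_mul, ← mul_assoc Pi P', hPP, one_mul]
      simp only [← mul_assoc]
      rw [mul_assoc P' _ _, mul_assoc P' _ _, ← map_mul, ← map_mul]
      congr 3
      rw [← Matrix.mul_kronecker_mul, ← Matrix.mul_kronecker_mul, mul_one, ← Units.val_mul, mul_inv_cancel, Units.val_one]
    rw [hconj, mul_add, add_mul, Matrix.mul_smul, Matrix.smul_mul, Matrix.mul_smul, Matrix.smul_mul, Matrix.mul_one,
      ← Units.val_mul, mul_inv_cancel, Units.val_one]
    -- A W A⁻¹ has trace one and determinant one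
    set X := (A : Matrix (Fin 2) (Fin 2) F) * W * ((A⁻¹ : GL (Fin 2) F) : Matrix (Fin 2) (Fin 2) F) with hX
    have htr : X.trace = 1 := by
      rw [hX, Matrix.trace_mul_comm, ← mul_assoc, ← Units.val_mul, inv_mul_cancel, Units.val_one, one_mul]
      simp [W, Matrix.trace_fin_two]
    have hdet : X.det = 1 := by
      rw [hX, Matrix.det_units_conj]
      simp [W, Matrix.det_fin_two]
      linear_combination -h2
    rw [Matrix.trace_fin_two] at htr
    rw [Matrix.det_fin_two] at hdet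
    have h11 : X 1 1 = 1 - X 0 0 := by linear_combination htr
    have hoff : X 0 1 * X 1 0 = 1 := by
      rcases h01 (X 0 0) with h | h <;> rw [h11, h] at hdet <;> linear_combination -hdet + (0 - X 0 1 * X 1 0) * (0 : F) + (-1 : F) * h2
    have h01' : X 0 1 = 1 := (h01 _).resolve_left fun h => by rw [h, zero_mul] at hoff; exact zero_ne_one hoff
    have h10' : X 1 0 = 1 := (h01 _).resolve_left fun h => by rw [h, mul_zero] at hoff; exact zero_ne_one hoff
    rw [hKmem]
    refine ⟨a + c * X 0 0, c, ?_⟩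
    congr 1
    ext i j
    fin_cases i <;> fin_cases j <;> simp [W, h11, h01', h10'] <;> first | linear_combination (-(c * X 0 0)) * h2 | linear_combination (0 : F) * h2

/-- Arithmetic of the field of a symplectic-type group with centre of order four. -/
theorem data_two {n : ℕ} (hn : 3 ≤ n) {R : Subgroup (GL (Fin n) F)} (hR : IsLinearSymplecticTypeData 2 R) :
    ∃ p : ℕ, p.Prime ∧ Fintype.card F = p ∧ p % 4 = 1 := by
  obtain ⟨p, e, -, ⟨hp, -, hc, hdiv, -⟩, hcase⟩ := hR.field
  rcases hcase with ⟨hodd, -⟩ | ⟨-, rfl, hZ, -⟩ | ⟨-, -, hι, -⟩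
  · exact absurd hodd (by decide)
  · refine ⟨p, hp, by simpa using hc, ?_⟩
    rw [hZ, pow_one] at hdiv
    have := hp.two_le
    omega
  · rw [Fintype.card_fin] at hι; omega

/-- Arithmetic of the field of an extraspecial group of odd order: `q = p ^ e` with `e` the odd order of `p` mod `r`. -/
theorem data_odd {n r : ℕ} {R : Subgroup (GL (Fin n) F)} (hr2 : r ≠ 2) (hR : IsLinearSymplecticTypeData r R) :
    ∃ p e : ℕ, p.Prime ∧ CharP F p ∧ Fintype.card F = p ^ e ∧ Odd e ∧ (p : ZMod r) ^ e = 1 ∧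
      e ∣ r - 1 ∧ ∀ d, 0 < d → d < e → (p : ZMod r) ^ d ≠ 1 := by
  haveI hr : Fact r.Prime := ⟨hR.symplecticType.prime⟩
  obtain ⟨p, e, hrp, ⟨hp, hch, hc, hdiv, hmin⟩, hcase⟩ := hR.field
  rcases hcase with ⟨-, hodd, hZ, -⟩ | ⟨h, -⟩ | ⟨h, -⟩
  · rw [hZ] at hdiv hmin
    have cast_iff : ∀ d, r ∣ p ^ d - 1 ↔ (p : ZMod r) ^ d = 1 := by
      intro d
      rw [← Nat.modEq_iff_dvd' (Nat.one_le_pow _ _ hp.pos), ← ZMod.natCast_eq_natCast_iff, Nat.cast_one,
        Nat.cast_pow]
      exact eq_comm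
    have he : (p : ZMod r) ^ e = 1 := (cast_iff e).mp hdiv
    have hmin' : ∀ d, 0 < d → d < e → (p : ZMod r) ^ d ≠ 1 := fun d h0 h1 h => hmin d h0 h1 ((cast_iff d).mpr h)
    have hepos : 0 < e := hodd.pos
    have hord : orderOf (p : ZMod r) = e := by
      rw [orderOf_eq_iff hepos]
      exact ⟨he, fun m hm h0 => hmin' m h0 hm⟩
    have hp0 : (p : ZMod r) ≠ 0 := fun h => by
      rw [CharP.cast_eq_zero_iff (ZMod r) r] at h
      exact hrp ((Nat.prime_dvd_prime_iff_eq hr.out hp).mp h)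
    refine ⟨p, e, hp, hch, hc, hodd, he, ?_, hmin'⟩
    rw [← hord]
    exact orderOf_dvd_of_pow_eq_one (ZMod.pow_card_sub_one_eq_one hp0)
  · exact absurd h hr2
  · exact absurd h hr2

end Cfsg.Agent.MaxSub
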