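import Cfsg.Agent.ClassicalMax.SympCases
import Cfsg.Agent.ClassicalMax.UnitaryCases
import Cfsg.Agent.GeoClasses.Tensor

/-!
Properness of the normalisers of symplectic-type groups and of the tensor-power members in
dimension at least five.
-/

set_option autoImplicit false
set_option linter.style.haveILetI false

namespace Cfsg.Agent.MaxSub

open Matrix Cfsg.Geo Cfsg.Agent.ClassicalMax
open scoped MatrixGroups Matrix Kronecker commutatorElement

section Normalizer

variable {F : Type*} [Field F] {ι : Type} [Fintype ι] [DecidableEq ι]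

/-- In dimension at least five no transvection normalises an absolutely irreducible group of class
two: the commutator with an element fixes a subspace of codimension two, so it is central. -/
theorem transvec_not_mem_normalizer_of_five_le (h5 : 5 ≤ Fintype.card ι) {R : Subgroup (GL ι F)}
    (hirr : ActsAbsolutelyIrreducibly (matrixSet R)) (hcl : commutator R ≤ Subgroup.center R)
    (hscal : ∀ z ∈ Subgroup.center R, ∃ c : F, ((z : GL ι F) : Matrix ι ι F) = c • (1 : Matrix ι ι F))
    {g : GL ι F} {φ : (ι → F) →ₗ[F] F} {v : ι → F} (hg : IsTransvec g φ v) (hφ : φ ≠ 0) (hv : v ≠ 0) :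
    g ∉ subgroupNormalizer R := by
  classical
  intro hgN
  have happ : ∀ (a b : GL ι F) (u : ι → F), ((a * b : GL ι F) : Matrix ι ι F) *ᵥ u =
      (a : Matrix ι ι F) *ᵥ ((b : Matrix ι ι F) *ᵥ u) := fun a b u => by
    rw [Units.val_mul, Matrix.mulVec_mulVec]
  have hback : ∀ (a : GL ι F) (u : ι → F), ((a⁻¹ : GL ι F) : Matrix ι ι F) *ᵥ ((a : Matrix ι ι F) *ᵥ u) = u :=
    fun a u => by rw [← happ, inv_mul_cancel, Units.val_one, Matrix.one_mulVec]
  have hfwd : ∀ (a : GL ι F) (u : ι → F), (a : Matrix ι ι F) *ᵥ (((a⁻¹ : GL ι F) : Matrix ι ι F) *ᵥ u) = u :=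
    fun a u => by rw [← happ, mul_inv_cancel, Units.val_one, Matrix.one_mulVec]
  have hcomm : ∀ x ∈ R, g * x = x * g := by
    intro x hx
    set y := g * x * g⁻¹ * x⁻¹ with hy
    have hyR : y ∈ R := R.mul_mem ((Subgroup.mem_normalizer_iff.mp hgN x).mp hx) (R.inv_mem hx)
    set ψ := φ.comp (Matrix.toLin' ((x⁻¹ : GL ι F) : Matrix ι ι F))
    set W : Submodule F (ι → F) := LinearMap.ker φ ⊓ LinearMap.ker ψ
    have hfix : ∀ u ∈ W, (y : Matrix ι ι F) *ᵥ u = u := by
      rintro u ⟨h1, h2⟩
      rw [SetLike.mem_coe, LinearMap.mem_ker] at h1 h2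
      simp only [ψ, LinearMap.comp_apply, Matrix.toLin'_apply] at h2
      set w := ((x⁻¹ : GL ι F) : Matrix ι ι F) *ᵥ u with hw
      have hgw : ((g⁻¹ : GL ι F) : Matrix ι ι F) *ᵥ w = w := by
        conv_lhs => rw [← show (g : Matrix ι ι F) *ᵥ w = w by rw [hg.apply_eq, h2, zero_smul, add_zero]]
        rw [hback]
      rw [hy, happ, happ, happ, ← hw, hgw, hw, hfwd, hg.apply_eq, h1, zero_smul, add_zero]
    have hdim : Fintype.card ι ≤ Module.finrank F W + 2 := by
      have h := LinearMap.finrank_range_add_finrank_ker (φ.prod ψ)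
      rw [LinearMap.ker_prod, Module.finrank_fintype_fun_eq_card] at h
      have h' := Submodule.finrank_le (LinearMap.range (φ.prod ψ))
      rw [Module.finrank_prod, Module.finrank_self] at h'
      change Fintype.card ι ≤ Module.finrank F (LinearMap.ker φ ⊓ LinearMap.ker ψ : Submodule F (ι → F)) + 2
      omega
    have hy1 : y = 1 := by
      by_cases hyc : (⟨y, hyR⟩ : R) ∈ Subgroup.center R
      · obtain ⟨μ, hμ⟩ := hscal _ hyc
        obtain ⟨u, hu, hu0⟩ := Submodule.exists_mem_ne_zero_of_ne_bot (p := W) fun h => by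
          rw [h, finrank_bot] at hdim; omega
        have hμ1 : μ = 1 := by
          have := hfix u hu
          simp only at hμ
          rw [hμ, Matrix.smul_mulVec, Matrix.one_mulVec] at this
          by_contra hne
          have h0 : (μ - 1) • u = 0 := by rw [sub_smul, one_smul, this, sub_self]
          exact hu0 ((smul_eq_zero.mp h0).resolve_left (sub_ne_zero.mpr hne))
        refine Units.ext ?_
        simpa [hμ1] using hμ
      · exfalso
        rw [Subgroup.mem_center_iff] at hyc
        push Not at hyc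
        obtain ⟨z, hz⟩ := hyc
        obtain ⟨l, hl⟩ := hscal _ (hcl (Subgroup.commutator_mem_commutator (Subgroup.mem_top z)
          (Subgroup.mem_top ⟨y, hyR⟩)))
        have hl1 : l ≠ 1 := by
          rintro rfl
          apply hz
          have h1 : ⁅z, (⟨y, hyR⟩ : R)⁆ = 1 := Subtype.ext (Units.ext (by simpa using hl))
          exact (commutatorElement_eq_one_iff_commute.mp h1).eq
        set Z : GL ι F := (z : GL ι F) with hZ
        have hlG : ((Z * y * Z⁻¹ * y⁻¹ : GL ι F) : Matrix ι ι F) = l • 1 := by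
          have : ((⁅z, (⟨y, hyR⟩ : R)⁆ : R) : GL ι F) = Z * y * Z⁻¹ * y⁻¹ := by
            simp [commutatorElement_def, hZ]
          rw [← this, hl]
        have e : ∀ u : ι → F, (Z : Matrix ι ι F) *ᵥ ((y : Matrix ι ι F) *ᵥ u) =
            l • ((y : Matrix ι ι F) *ᵥ ((Z : Matrix ι ι F) *ᵥ u)) := by
          intro u
          have h1 : Z * y = (Z * y * Z⁻¹ * y⁻¹) * (y * Z) := by group
          rw [← happ, h1, happ, hlG, Matrix.smul_mulVec, Matrix.one_mulVec, happ]
        have hZinj : Function.Injective (Matrix.toLin' (Z : Matrix ι ι F)) := fun a b hab => by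
          simp only [Matrix.toLin'_apply] at hab
          rw [← hback Z a, hab, hback]
        set W' := W.map (Matrix.toLin' (Z : Matrix ι ι F))
        have hdisj : W ⊓ W' = ⊥ := by
          rw [Submodule.eq_bot_iff]
          rintro _ ⟨hw, u, hu, rfl⟩
          simp only [Matrix.toLin'_apply] at hw ⊢
          have h1 := e u
          rw [hfix u hu, hfix _ hw] at h1
          have h0 : (1 - l) • ((Z : Matrix ι ι F) *ᵥ u) = 0 := by
            rw [sub_smul, one_smul, ← h1, sub_self]
          exact (smul_eq_zero.mp h0).resolve_left (sub_ne_zero.mpr hl1.symm)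
        have hW' : Module.finrank F W' = Module.finrank F W :=
          (LinearEquiv.finrank_eq (Submodule.equivMapOfInjective _ hZinj W)).symm
        have h := Submodule.finrank_sup_add_finrank_inf_eq W W'
        rw [hdisj, finrank_bot, hW'] at h
        have hle := Submodule.finrank_le (W ⊔ W')
        rw [Module.finrank_fintype_fun_eq_card] at hle
        omega
    calc g * x = (g * x * g⁻¹ * x⁻¹) * (x * g) := by group
      _ = x * g := by rw [← hy, hy1, one_mul]
  obtain ⟨l, hl⟩ := hirr.2 (g : Matrix ι ι F) (by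
    rintro _ ⟨x, hx, rfl⟩
    exact congrArg (fun a : GL ι F => (a : Matrix ι ι F)) (hcomm x hx))
  obtain ⟨w, hw0, hw1, -⟩ := exists_ne_zero_ker_inf (by omega : 3 ≤ Fintype.card ι) φ φ
  have hl1 : l = 1 := by
    have := hg.apply_eq w
    rw [hl, hw1, zero_smul, add_zero, Matrix.smul_mulVec, Matrix.one_mulVec] at this
    by_contra hne
    have h0 : (l - 1) • w = 0 := by rw [sub_smul, one_smul, this, sub_self]
    exact hw0 ((smul_eq_zero.mp h0).resolve_left (sub_ne_zero.mpr hne))
  apply hφ
  refine LinearMap.ext fun u => ?_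
  have := hg.apply_eq u
  rw [hl, hl1, one_smul, Matrix.one_mulVec, left_eq_add, smul_eq_zero] at this
  simpa using this.resolve_right hv

end Normalizer

section Classical

variable {F : Type*} [Field F]

theorem spGL_not_le_normalizer_of_three_le {m : ℕ} (hm : 3 ≤ m) {R : Subgroup (GL (Fin m ⊕ Fin m) F)}
    (hirr : ActsAbsolutelyIrreducibly (matrixSet R)) (hcl : commutator R ≤ Subgroup.center R)
    (hscal : ∀ z ∈ Subgroup.center R, ∃ c : F,
      ((z : GL (Fin m ⊕ Fin m) F) : Matrix (Fin m ⊕ Fin m) (Fin m ⊕ Fin m) F) = c • 1) :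
    ¬ Cfsg.spGL m F ≤ subgroupNormalizer R := by
  intro hle
  obtain ⟨v, hv⟩ := exists_ne_zero_vec (F := F) (m := m) (by omega)
  exact transvec_not_mem_normalizer_of_five_le (by rw [Fintype.card_sum, Fintype.card_fin]; omega) hirr hcl
    hscal (spTau_isTransvec v 1) (by rw [one_smul]; exact sympDual_ne_zero hv) hv (hle (spTau_mem v 1))

theorem suGL_not_le_normalizer_of_five_le {n q : ℕ} (hF : Classical.U.SqField F q) (hn : 5 ≤ n)
    {R : Subgroup (GL (Fin n) F)} (hirr : ActsAbsolutelyIrreducibly (matrixSet R))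
    (hcl : commutator R ≤ Subgroup.center R)
    (hscal : ∀ z ∈ Subgroup.center R, ∃ c : F, ((z : GL (Fin n) F) : Matrix (Fin n) (Fin n) F) = c • 1) :
    ¬ suGL n F q ≤ subgroupNormalizer R := by
  intro hle
  obtain ⟨δ, hδ0, hδ⟩ := hF.exists_skew
  obtain ⟨ε, hε, -, -⟩ := exists_eps hF (0 : F) 0
  have hij : (⟨0, by omega⟩ : Fin n) ≠ ⟨1, by omega⟩ := by simp
  have hv := isotropic_pair hF hij hε
  exact transvec_not_mem_normalizer_of_five_le (by rw [Fintype.card_fin]; exact hn) hirr hcl hscal
    (uTau_isTransvec hv δ) (smul_ne_zero hδ0 (hermDual_ne_zero hF (pair_ne_zero hij ε)))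
    (pair_ne_zero hij ε) (hle (uTau_mem hF hv hδ))

/-- An element of odd prime exponent prime to `q - 1` in the similarity group of the hermitian form
is an isometry. -/
theorem mem_GU_of_pow_eq_one [Finite F] {n q r : ℕ} (hF : Classical.U.SqField F q) (hn : 0 < n)
    (hrq : r.Coprime (q - 1)) {g : GL (Fin n) F} (hg : g ∈ similarityGroup (Cfsg.hermForm n F q))
    (hpow : g ^ r = 1) : g ∈ Cfsg.GU n F q := by
  obtain ⟨c, hc⟩ := hg
  set e : Fin n → F := Pi.single ⟨0, hn⟩ 1 with he
  have hee : Cfsg.hermForm n F q e e = 1 := by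
    show Classical.U.herm q _ _ = 1
    rw [he, Classical.U.herm_single_one _ hF.q_ne_zero]
    simp
  have hk : ∀ (k : ℕ) u v, Cfsg.hermForm n F q ((((g ^ k : GL (Fin n) F)) : Matrix (Fin n) (Fin n) F) *ᵥ u)
      ((((g ^ k : GL (Fin n) F)) : Matrix (Fin n) (Fin n) F) *ᵥ v) = (c : F) ^ k * Cfsg.hermForm n F q u v := by
    intro k
    induction k with
    | zero => intro u v; simp
    | succ k ih =>
      intro u v
      rw [pow_succ', Units.val_mul, ← Matrix.mulVec_mulVec, ← Matrix.mulVec_mulVec, hc, ih, pow_succ']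
      ring
  have hcr : (c : F) ^ r = 1 := by
    have := hk r e e
    rw [hpow, Units.val_one, Matrix.one_mulVec, hee, mul_one] at this
    exact this.symm
  have hcq : (c : F) ^ q = c := by
    have h1 := hc e e
    rw [hee, mul_one] at h1
    rw [← h1]
    exact hF.herm_symm _ _
  have hc1 : (c : F) = 1 := by
    have h2 := (hF.fixed_iff c.ne_zero).1 hcq
    have h3 : orderOf (c : F) ∣ Nat.gcd r (q - 1) :=
      Nat.dvd_gcd (orderOf_dvd_of_pow_eq_one hcr) (orderOf_dvd_of_pow_eq_one h2)
    rw [hrq.gcd_eq_one, Nat.dvd_one, orderOf_eq_one_iff] at h3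
    exact h3
  intro u v
  simp only [Units.coeHom_apply]
  rw [hc, hc1, one_mul]

end Classical

section Wreath

variable {F : Type*} [Field F] {ι : Type} [Fintype ι] [DecidableEq ι]

/-- The pure tensors. -/
def pureSubgroup (m t : ℕ) (F : Type*) [Field F] : Subgroup (GL (Fin t → Fin m) F) :=
  Subgroup.closure {g | IsPureTensor m t g}

/-- A perfect subgroup of a tensor-wreath member with two or three factors fixes a decomposition
into two tensor factors. -/
theorem exists_tensorProduct_of_perfect [Finite F] {m t : ℕ} (ht : t = 2 ∨ t = 3)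
    (e : ι ≃ (Fin t → Fin m)) (P : GL ι F) {S : Subgroup (GL ι F)} (hS : ⁅S, S⁆ = S)
    (hle : S ≤ tensorWreathSubgroup m t e P) :
    ∃ e' : ι ≃ Fin m × Fin (m ^ (t - 1)), S ≤ tensorProductSubgroup m (m ^ (t - 1)) e' P := by
  classical
  set Pu := pureSubgroup m t F
  set W := tensorWreathStandard m t F
  have hperm : ∀ π : Equiv.Perm (Fin t), IsFactorPermutation m t (GeoClasses.glFactorPerm (F := F) m π) :=
    fun π => ⟨π, fun x y => rfl⟩
  have hPuW : Pu ≤ W := Subgroup.closure_mono fun x hx => Or.inl hx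
  have hPf : ∀ π : Equiv.Perm (Fin t), GeoClasses.glFactorPerm (F := F) m π ∈ W := fun π =>
    Subgroup.subset_closure (Or.inr (hperm π))
  have happly : ∀ (π : Equiv.Perm (Fin t)) (x y : Fin t → Fin m),
      ((GeoClasses.glFactorPerm (F := F) m π : GL (Fin t → Fin m) F) :
        Matrix (Fin t → Fin m) (Fin t → Fin m) F) x y = if y = x ∘ π then 1 else 0 := fun π x y => rfl
  -- permutations normalise the pure tensors
  have hconj : ∀ (π : Equiv.Perm (Fin t)) (g : GL (Fin t → Fin m) F), IsPureTensor m t g →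
      IsPureTensor m t (GeoClasses.glFactorPerm (F := F) m π * g * (GeoClasses.glFactorPerm (F := F) m π)⁻¹) := by
    rintro π g ⟨gs, hgs⟩
    have hinv : (GeoClasses.glFactorPerm (F := F) m π)⁻¹ = GeoClasses.glFactorPerm (F := F) m π⁻¹ :=
      Units.ext rfl
    refine ⟨fun i => gs (π.symm i), fun x y => ?_⟩
    rw [hinv, Units.val_mul, Units.val_mul, Matrix.mul_apply]
    simp only [Matrix.mul_apply, happly, ite_mul, one_mul, zero_mul, Finset.sum_ite_eq', Finset.mem_univ,
      if_true, mul_ite, mul_one, mul_zero]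
    rw [Finset.sum_eq_single (y ∘ π)]
    · rw [if_pos (funext fun i => by simp), hgs]
      rw [← Equiv.prod_comp π (fun i => (gs (π.symm i) : Matrix (Fin m) (Fin m) F) (x i) (y i))]
      simp
    · intro b _ hb
      rw [if_neg fun h => hb (funext fun i => by rw [h]; simp)]
    · simp
  have hnorm : W ≤ Subgroup.normalizer (Pu : Set (GL (Fin t → Fin m) F)) := by
    rw [show W = Subgroup.closure _ from rfl, Subgroup.closure_le]
    rintro g (hg | ⟨σ, hσ⟩)
    · exact Subgroup.le_normalizer (Subgroup.subset_closure hg)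
    · obtain rfl : g = GeoClasses.glFactorPerm (F := F) m σ :=
        Units.ext (Matrix.ext fun x y => (hσ x y).trans (happly σ x y).symm)
      have hmap : ∀ π : Equiv.Perm (Fin t),
          Pu.map (MulAut.conj (GeoClasses.glFactorPerm (F := F) m π)).toMonoidHom ≤ Pu := fun π => by
        rw [show Pu = Subgroup.closure _ from rfl, MonoidHom.map_closure, Subgroup.closure_le]
        rintro _ ⟨x, hx, rfl⟩
        exact Subgroup.subset_closure (hconj π x hx)
      rw [SetLike.mem_coe, Subgroup.mem_normalizer_iff]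
      intro x
      refine ⟨fun hx => hmap σ ⟨x, hx, rfl⟩, fun hx => ?_⟩
      have := hmap σ⁻¹ ⟨_, hx, rfl⟩
      rw [show GeoClasses.glFactorPerm (F := F) m σ⁻¹ = (GeoClasses.glFactorPerm (F := F) m σ)⁻¹ from
        (Units.ext rfl)] at this
      simpa [mul_assoc] using this
  set Pu' := Pu.subgroupOf W
  haveI : Pu'.Normal := (Subgroup.normal_subgroupOf_iff_le_normalizer hPuW).2 hnorm
  let q : W →* W ⧸ Pu' := QuotientGroup.mk' Pu'
  let f₀ : Equiv.Perm (Fin t) →* W :=
    MonoidHom.mk' (fun π => ⟨GeoClasses.glFactorPerm (F := F) m π, hPf π⟩) fun a b =>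
      Subtype.ext (Units.ext (GeoClasses.factorPerm_mul (F := F) a b).symm)
  let f := q.comp f₀
  have hsurj : ∀ w : W, ∃ π, q w = f π := by
    rintro ⟨w, hw⟩
    induction hw using Subgroup.closure_induction with
    | mem x hx =>
      rcases hx with hx | ⟨σ, hσ⟩
      · refine ⟨1, ?_⟩
        rw [map_one]
        exact (QuotientGroup.eq_one_iff _).2 (Subgroup.subset_closure hx)
      · refine ⟨σ, ?_⟩
        refine congrArg q (Subtype.ext (Units.ext (Matrix.ext fun x y => ?_)))
        exact (hσ x y).trans (happly σ x y).symm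
    | one => exact ⟨1, by rw [map_one]; exact map_one q⟩
    | mul a b ha hb iha ihb =>
      obtain ⟨π, hπ⟩ := iha
      obtain ⟨π', hπ'⟩ := ihb
      exact ⟨π * π', by rw [map_mul, ← hπ, ← hπ', ← map_mul]; rfl⟩
    | inv a ha iha =>
      obtain ⟨π, hπ⟩ := iha
      exact ⟨π⁻¹, by rw [map_inv, ← hπ, ← map_inv]; rfl⟩
  have hsolv : ∀ a b c d : W ⧸ Pu', ⁅⁅a, b⁆, ⁅c, d⁆⁆ = 1 := by
    intro a b c d
    obtain ⟨a, rfl⟩ := QuotientGroup.mk'_surjective Pu' a
    obtain ⟨b, rfl⟩ := QuotientGroup.mk'_surjective Pu' b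
    obtain ⟨c, rfl⟩ := QuotientGroup.mk'_surjective Pu' c
    obtain ⟨d, rfl⟩ := QuotientGroup.mk'_surjective Pu' d
    obtain ⟨a', ha⟩ := hsurj a
    obtain ⟨b', hb⟩ := hsurj b
    obtain ⟨c', hc⟩ := hsurj c
    obtain ⟨d', hd⟩ := hsurj d
    show ⁅⁅q a, q b⁆, ⁅q c, q d⁆⁆ = 1
    rw [ha, hb, hc, hd, ← map_commutatorElement, ← map_commutatorElement, ← map_commutatorElement]
    have key : ∀ a b c d : Equiv.Perm (Fin t), ⁅⁅a, b⁆, ⁅c, d⁆⁆ = 1 := by
      rcases ht with rfl | rfl
      · intro a b c d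
        have hc2 : ∀ a b : Equiv.Perm (Fin 2), ⁅a, b⁆ = 1 := by decide +kernel
        rw [hc2 a b]
        simp
      · intro a b c d
        have hc3 : ∀ a b : Equiv.Perm (Fin 3), ⁅a, b⁆ ^ 3 = 1 ∧ Equiv.Perm.sign ⁅a, b⁆ = 1 := by
          decide +kernel
        have hA : ∀ x y : Equiv.Perm (Fin 3), Equiv.Perm.sign x = 1 → Equiv.Perm.sign y = 1 → ⁅x, y⁆ = 1 := by
          decide +kernel
        exact hA _ _ (hc3 a b).2 (hc3 c d).2
    rw [key, map_one]
  -- transport `S` into the standard group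
  let T : GL (Fin t → Fin m) F →* GL ι F :=
    (MulAut.conj P).toMonoidHom.comp (glReindex e.symm).toMonoidHom
  have hT : Function.Injective T := (MulAut.conj P).injective.comp (glReindex e.symm).injective
  have hSle : S ≤ W.map T := hle.trans (le_of_eq (Subgroup.map_map _ _ _))
  have hcl : ∀ s ∈ ⁅⁅S, S⁆, ⁅S, S⁆⁆, s ∈ Pu.map T := by
    let ρ : Subgroup (GL ι F) := (Pu.map T)
    have hW4 : ⁅⁅W, W⁆, ⁅W, W⁆⁆ ≤ Pu := by
      have : ⁅⁅(⊤ : Subgroup W), (⊤ : Subgroup W)⁆, ⁅(⊤ : Subgroup W), (⊤ : Subgroup W)⁆⁆ ≤ Pu' := by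
        rw [show Pu' = q.ker from (QuotientGroup.ker_mk' Pu').symm, ← Subgroup.map_eq_bot_iff,
          Subgroup.map_commutator, Subgroup.map_commutator, eq_bot_iff, Subgroup.commutator_le]
        intro x hx y hy
        rw [Subgroup.mem_bot]
        have hclo : ∀ z ∈ ⁅Subgroup.map q (⊤ : Subgroup W), Subgroup.map q (⊤ : Subgroup W)⁆, ∀ c d : W ⧸ Pu', ⁅⁅c, d⁆, z⁆ = 1 := by
          intro z hz c d
          have hle' : ⁅Subgroup.map q (⊤ : Subgroup W), Subgroup.map q (⊤ : Subgroup W)⁆ ≤ Subgroup.centralizer {⁅c, d⁆} := by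
            rw [Subgroup.commutator_le]
            intro a _ b _
            rw [Subgroup.mem_centralizer_singleton_iff]
            exact ((commutatorElement_eq_one_iff_commute.mp (hsolv c d a b)).eq).symm
          exact commutatorElement_eq_one_iff_commute.mpr
            (Subgroup.mem_centralizer_singleton_iff.mp (hle' hz)).symm
        have hle2 : ⁅Subgroup.map q (⊤ : Subgroup W), Subgroup.map q (⊤ : Subgroup W)⁆ ≤ Subgroup.centralizer {y} := by
          rw [Subgroup.commutator_le]
          intro a _ b _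
          rw [Subgroup.mem_centralizer_singleton_iff]
          exact (commutatorElement_eq_one_iff_commute.mp (hclo y hy a b)).eq
        exact commutatorElement_eq_one_iff_commute.mpr (Subgroup.mem_centralizer_singleton_iff.mp (hle2 hx))
      have h2 := Subgroup.map_mono (f := W.subtype) this
      rw [Subgroup.map_commutator, Subgroup.map_commutator, ← MonoidHom.range_eq_map,
        Subgroup.range_subtype, Subgroup.map_subgroupOf_eq_of_le hPuW] at h2
      exact h2
    intro s hs
    have h1 : ⁅⁅S, S⁆, ⁅S, S⁆⁆ ≤ ⁅⁅W.map T, W.map T⁆, ⁅W.map T, W.map T⁆⁆ :=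
      Subgroup.commutator_mono (Subgroup.commutator_mono hSle hSle) (Subgroup.commutator_mono hSle hSle)
    rw [← Subgroup.map_commutator, ← Subgroup.map_commutator] at h1
    exact Subgroup.map_mono hW4 (h1 hs)
  rw [hS, hS] at hcl
  -- regroup the factors
  obtain ⟨t', rfl⟩ : ∃ t', t = t' + 1 := ⟨t - 1, by omega⟩
  let s : (Fin (t' + 1) → Fin m) ≃ Fin m × Fin (m ^ t') :=
    (Fin.consEquiv fun _ => Fin m).symm.trans ((Equiv.refl _).prodCongr finFunctionFinEquiv)
  refine ⟨e.trans s, fun x hx => ?_⟩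
  obtain ⟨w, hw, rfl⟩ := hcl x hx
  refine ⟨glReindex (e.trans s).symm (glReindex s w), ⟨glReindex s w, ?_, rfl⟩, ?_⟩
  · clear hx
    have hle' : Pu.map (glReindex s).toMonoidHom ≤ kroneckerSubgroup m (m ^ t') F := by
      rw [show Pu = Subgroup.closure _ from rfl, MonoidHom.map_closure, Subgroup.closure_le]
      rintro _ ⟨g, ⟨gs, hgs⟩, rfl⟩
      let B : GL (Fin (m ^ t')) F := glReindex finFunctionFinEquiv (GeoClasses.glPure fun i => gs i.succ)
      refine ⟨gs 0, B, ?_⟩
      ext ⟨i, j⟩ ⟨k, l⟩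
      simp [Matrix.kroneckerMap_apply, glReindex, B, s, hgs, GeoClasses.glPure, GeoClasses.pureMat,
        Fin.prod_univ_succ]
    exact hle' ⟨w, hw, rfl⟩
  · show (MulAut.conj P) _ = (MulAut.conj P) (glReindex e.symm w)
    congr 1
    apply Units.ext
    ext i j
    simp [glReindex]

end Wreath

section WreathClassical

variable {F : Type*} [Field F] [Fintype F]

theorem spGL_not_le_tensorWreath {m k t : ℕ} (hm : 3 ≤ m) (hk : 2 ≤ k) (ht : t = 2 ∨ t = 3)
    (e : (Fin m ⊕ Fin m) ≃ (Fin t → Fin k)) (P : GL (Fin m ⊕ Fin m) F) :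
    ¬ Cfsg.spGL m F ≤ tensorWreathSubgroup k t e P := by
  intro hle
  obtain ⟨e', he'⟩ := exists_tensorProduct_of_perfect ht e P (spGL_commutator (Or.inl hm)) hle
  exact spGL_not_le_tensorProductSubgroup (by omega) hk
    (le_trans hk (Nat.le_self_pow (by omega) k)) e' P he'

theorem suGL_not_le_tensorWreath {n q k t : ℕ} (hF : Classical.U.SqField F q) (hn : 4 ≤ n) (hk : 2 ≤ k)
    (ht : t = 2 ∨ t = 3) (e : Fin n ≃ (Fin t → Fin k)) (P : GL (Fin n) F) :
    ¬ suGL n F q ≤ tensorWreathSubgroup k t e P := by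
  intro hle
  obtain ⟨e', he'⟩ := exists_tensorProduct_of_perfect ht e P
    (suGL_commutator hF (by omega) (by omega)) hle
  exact suGL_not_le_tensorProductSubgroup hF (by omega) hk
    (le_trans hk (Nat.le_self_pow (by omega) k)) e' P he'

end WreathClassical

end Cfsg.Agent.MaxSub
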