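import Mathlib

/-!
An element of prime order normalising a group of class two.
-/

set_option autoImplicit false

namespace Cfsg.Agent.MaxSub.ClassTwoAut

open scoped commutatorElement

variable {G : Type*} [Group G] {N : Subgroup G} {g : G}

/-- `y` commutes with all of `N`. -/
def Cen (N : Subgroup G) (y : G) : Prop := ∀ z ∈ N, ⁅y, z⁆ = 1

/-- The displacement of `x` under `g`. -/
def disp (g x : G) : G := g * x * g⁻¹ * x⁻¹

theorem disp_mem (hg : ∀ x ∈ N, g * x * g⁻¹ ∈ N) {x : G} (hx : x ∈ N) : disp g x ∈ N :=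
  N.mul_mem (hg x hx) (N.inv_mem hx)

theorem conj_eq (g x : G) : g * x * g⁻¹ = disp g x * x := by simp [disp]

/-- Commutators of `N` are central. -/
def CentralComm (N : Subgroup G) : Prop := ∀ y ∈ N, ∀ z ∈ N, ∀ w, Commute ⁅y, z⁆ w

theorem comm_mul_left (hc : CentralComm N) {a b z : G} (_ha : a ∈ N) (hb : b ∈ N) (hz : z ∈ N) :
    ⁅a * b, z⁆ = ⁅a, z⁆ * ⁅b, z⁆ := by
  have h : a * ⁅b, z⁆ = ⁅b, z⁆ * a := (hc b hb z hz a).symm.eq
  calc ⁅a * b, z⁆ = a * ⁅b, z⁆ * a⁻¹ * ⁅a, z⁆ := by simp only [commutatorElement_def]; group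
    _ = ⁅b, z⁆ * ⁅a, z⁆ := by rw [h]; group
    _ = _ := (hc b hb z hz _).eq

theorem comm_mul_right (hc : CentralComm N) {a b z : G} (ha : a ∈ N) (hb : b ∈ N) (hz : z ∈ N) :
    ⁅z, a * b⁆ = ⁅z, a⁆ * ⁅z, b⁆ := by
  rw [← commutatorElement_inv, comm_mul_left hc ha hb hz, mul_inv_rev, commutatorElement_inv,
    commutatorElement_inv, (hc z hz b hb _).eq]

theorem comm_pow_left (hc : CentralComm N) {a z : G} (ha : a ∈ N) (hz : z ∈ N) (k : ℕ) :
    ⁅a ^ k, z⁆ = ⁅a, z⁆ ^ k := by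
  induction k with
  | zero => simp [commutatorElement_one_left]
  | succ k ih => rw [pow_succ, comm_mul_left hc (N.pow_mem ha k) ha hz, ih, pow_succ]

theorem comm_conj {g : G} (hc : CentralComm N) {a z : G} (ha : a ∈ N) (hz : z ∈ N) :
    ⁅g * a * g⁻¹, g * z * g⁻¹⁆ = ⁅a, z⁆ := by
  calc ⁅g * a * g⁻¹, g * z * g⁻¹⁆ = g * ⁅a, z⁆ * g⁻¹ := by simp only [commutatorElement_def]; group
    _ = _ := by rw [← (hc a ha z hz g).eq]; group

theorem conj_pow_succ (g x : G) (k : ℕ) : g ^ (k + 1) * x * (g ^ (k + 1))⁻¹ = g * (g ^ k * x * (g ^ k)⁻¹) * g⁻¹ := by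
  rw [pow_succ']; group

/-- If `h` fixes `a = disp h x` modulo the centre, the orbit of `x` is the ladder `a ^ k x`. -/
theorem ladder (hc : CentralComm N) {h x : G} (hh : ∀ x ∈ N, h * x * h⁻¹ ∈ N)
    (hh' : ∀ x ∈ N, h⁻¹ * x * h ∈ N) (hx : x ∈ N)
    (hfix : Cen N (disp h (disp h x))) : ∀ (k : ℕ) (z : G), z ∈ N →
    ⁅h ^ k * x * (h ^ k)⁻¹, z⁆ = ⁅disp h x, z⁆ ^ k * ⁅x, z⁆ := by
  have ha := disp_mem hh hx
  have hmem : ∀ k, h ^ k * x * (h ^ k)⁻¹ ∈ N := by
    intro k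
    induction k with
    | zero => simpa using hx
    | succ k ih => rw [conj_pow_succ]; exact hh _ ih
  intro k
  induction k with
  | zero => simp
  | succ k ih =>
    intro z hz
    have hz' := hh' z hz
    have hzz : z = h * (h⁻¹ * z * h) * h⁻¹ := by group
    have e1 : ⁅disp h x, h⁻¹ * z * h⁆ = ⁅disp h x, z⁆ := by
      rw [← comm_conj (g := h) hc ha hz', ← hzz, conj_eq h (disp h x),
        comm_mul_left hc (disp_mem hh ha) ha hz, hfix z hz, one_mul]
    rw [conj_pow_succ]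
    conv_lhs => rw [hzz]
    rw [comm_conj hc (hmem k) hz', ih _ hz', e1]
    have e2 : ⁅x, h⁻¹ * z * h⁆ = ⁅disp h x, z⁆ * ⁅x, z⁆ := by
      rw [← comm_conj (g := h) hc hx hz', ← hzz, conj_eq h x, comm_mul_left hc ha hx hz]
    rw [e2, pow_succ, mul_assoc]

theorem cen_disp_of_ladder (hc : CentralComm N) {h x : G} (hh : ∀ x ∈ N, h * x * h⁻¹ ∈ N)
    (hh' : ∀ x ∈ N, h⁻¹ * x * h ∈ N) (hx : x ∈ N) {k r : ℕ} (hk : h ^ k = 1) (hkr : Nat.Coprime k r)
    (hexp : ∀ y ∈ N, ∀ z ∈ N, ⁅y, z⁆ ^ r = 1) (hfix : Cen N (disp h (disp h x))) : Cen N (disp h x) := by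
  intro z hz
  have h1 := ladder hc hh hh' hx hfix k z hz
  rw [hk, one_mul, inv_one, mul_one] at h1
  have h2 : ⁅disp h x, z⁆ ^ k = 1 := by simpa using h1.symm
  have h3 := hexp _ (disp_mem hh hx) z hz
  simpa [hkr] using (pow_gcd_eq_one (m := k) (n := r)).mpr ⟨h2, h3⟩

theorem conj_mem_pow (hg : ∀ x ∈ N, g * x * g⁻¹ ∈ N) (k : ℕ) : ∀ x ∈ N, g ^ k * x * (g ^ k)⁻¹ ∈ N := by
  induction k with
  | zero => simp
  | succ k ih => intro x hx; rw [conj_pow_succ]; exact hg _ (ih x hx)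

/-- Polarisation: if every displacement commutes with its image, `g` is unipotent on `N` modulo the centre. -/
theorem eq_and_exists_fixed (hc : CentralComm N) {ϖ r : ℕ} (hϖ : ϖ.Prime) (hodd : Odd ϖ) (hr : r.Prime)
    (hg : ∀ x ∈ N, g * x * g⁻¹ ∈ N) (hg' : ∀ x ∈ N, g⁻¹ * x * g ∈ N) (hord : g ^ ϖ = 1)
    (hexp : ∀ y ∈ N, ∀ z ∈ N, ⁅y, z⁆ ^ r = 1)
    (hiso : ∀ x ∈ N, ⁅disp g x, g * disp g x * g⁻¹⁆ = 1) {x₀ : G} (hx₀ : x₀ ∈ N)
    (hne : ¬ Cen N (disp g x₀)) :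
    ϖ = r ∧ ∃ x ∈ N, ¬ Cen N (disp g x) ∧ Cen N (disp g (disp g x)) := by
  have hd : ∀ x ∈ N, disp g x ∈ N := fun x hx => disp_mem hg hx
  -- polarised
  have hpol : ∀ x ∈ N, ∀ y ∈ N,
      ⁅disp g x, g * disp g y * g⁻¹⁆ = ⁅g * disp g x * g⁻¹, disp g y⁆ := by
    intro x hx y hy
    have ha := hd x hx
    have hb := hd y hy
    set a := disp g x with hadef
    set b := disp g y with hbdef
    set k := ⁅b⁻¹, x⁆ with hkdef
    have hk : k ∈ N := N.mul_mem (N.mul_mem (N.mul_mem (N.inv_mem hb) hx) (N.inv_mem (N.inv_mem hb))) (N.inv_mem hx)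
    have hkc : ∀ w : G, ⁅k, w⁆ = 1 := fun w => commutatorElement_eq_one_iff_commute.mpr (hc _ (N.inv_mem hb) x hx w)
    have hkc' : ∀ w : G, ⁅w, k⁆ = 1 := fun w => by rw [← commutatorElement_inv, hkc, inv_one]
    have hab : disp g (x * y) = a * b * k := by
      simp only [hadef, hbdef, hkdef, disp, commutatorElement_def]
      group
    have h := hiso (x * y) (N.mul_mem hx hy)
    have hgk : g * k * g⁻¹ = k := by
      rw [show g * k = k * g from (hc _ (N.inv_mem hb) x hx g).symm.eq, mul_inv_cancel_right]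
    have e : g * (a * b * k) * g⁻¹ = (g * a * g⁻¹) * (g * b * g⁻¹) * k := by
      conv_rhs => rw [← hgk]
      group
    rw [hab, e] at h
    have hga := hg a ha
    have hgb := hg b hb
    rw [comm_mul_left hc (N.mul_mem ha hb) hk (N.mul_mem (N.mul_mem hga hgb) hk), hkc, mul_one,
      comm_mul_right hc (N.mul_mem hga hgb) hk (N.mul_mem ha hb), hkc', mul_one,
      comm_mul_left hc ha hb (N.mul_mem hga hgb), comm_mul_right hc hga hgb ha, comm_mul_right hc hga hgb hb,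
      hiso x hx, hiso y hy, one_mul, mul_one] at h
    rw [eq_inv_of_mul_eq_one_left h, commutatorElement_inv]
  -- `t = g² a / a` is fixed
  set h2 := g ^ 2 with hh2def
  have hh2 : ∀ x ∈ N, h2 * x * h2⁻¹ ∈ N := conj_mem_pow hg 2
  have hh2' : ∀ x ∈ N, h2⁻¹ * x * h2 ∈ N := fun x hx => by
    have : h2⁻¹ * x * h2 = g⁻¹ * (g⁻¹ * x * g) * g := by rw [hh2def, pow_two]; group
    rw [this]; exact hg' _ (hg' x hx)
  have ht : ∀ x ∈ N, Cen N (disp g (disp h2 (disp g x))) := by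
    intro x hx
    set a := disp g x
    have ha : a ∈ N := hd x hx
    set t := disp h2 a with htdef
    have htN : t ∈ N := disp_mem hh2 ha
    have h1 : ∀ y ∈ N, ⁅t, g * disp g y * g⁻¹⁆ = 1 := by
      intro y hy
      have hb := hg _ (hd y hy)
      have e : h2 * a * h2⁻¹ = g * (g * a * g⁻¹) * g⁻¹ := by rw [hh2def, pow_two]; group
      have e1 : ⁅h2 * a * h2⁻¹, g * disp g y * g⁻¹⁆ = ⁅a, g * disp g y * g⁻¹⁆ := by
        rw [e, comm_conj hc (hg a ha) (hd y hy), hpol x hx y hy]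
      rw [conj_eq h2 a, ← htdef, comm_mul_left hc htN ha hb] at e1
      exact mul_right_cancel (e1.trans (one_mul _).symm)
    have h2' : ∀ y ∈ N, ⁅t, disp g y⁆ = 1 := by
      intro y hy
      have := h1 (g⁻¹ * y * g) (hg' y hy)
      rwa [show g * disp g (g⁻¹ * y * g) * g⁻¹ = disp g y by simp only [disp]; group] at this
    intro z hz
    have hz' := hg' z hz
    have hzz : z = g * (g⁻¹ * z * g) * g⁻¹ := by group
    have e2 : ⁅g * t * g⁻¹, z⁆ = ⁅t, z⁆ := by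
      conv_lhs => rw [hzz]
      rw [comm_conj hc htN hz']
      conv_rhs => rw [hzz, conj_eq g (g⁻¹ * z * g), comm_mul_right hc (hd _ hz') hz' htN,
        h2' _ hz', one_mul]
    rw [conj_eq g t, comm_mul_left hc (hd t htN) htN hz] at e2
    exact mul_right_cancel (e2.trans (one_mul _).symm)
  have hfix2 : ∀ t ∈ N, Cen N (disp g t) → Cen N (disp h2 t) := by
    intro t htN htc z hz
    have hz' := hg' z hz
    have e : disp h2 t = (g * disp g t * g⁻¹) * disp g t := by simp only [disp, hh2def, pow_two]; group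
    rw [e, comm_mul_left hc (hg _ (hd t htN)) (hd t htN) hz, htc z hz, mul_one]
    conv_lhs => rw [show z = g * (g⁻¹ * z * g) * g⁻¹ by group]
    rw [comm_conj hc (hd t htN) hz']
    exact htc _ hz'
  have hord2 : h2 ^ ϖ = 1 := by rw [hh2def, ← pow_mul, mul_comm, pow_mul, hord, one_pow]
  -- `g² a ≡ a` forces `g a ≡ a`
  have hroot : ∀ a ∈ N, Cen N (disp h2 a) → Cen N (disp g a) := by
    intro a ha hac
    obtain ⟨j, hj⟩ := hodd
    have hl : ∀ z ∈ N, ⁅h2 ^ j * a * (h2 ^ j)⁻¹, z⁆ = ⁅a, z⁆ := by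
      intro z hz
      have hcc : Cen N (disp h2 (disp h2 a)) := by
        intro w hw
        have hw' := hh2' w hw
        rw [disp, comm_mul_left hc (hh2 _ (disp_mem hh2 ha)) (N.inv_mem (disp_mem hh2 ha)) hw]
        have e3 : ⁅(disp h2 a)⁻¹, w⁆ = 1 := by
          have := comm_mul_left hc (N.inv_mem (disp_mem hh2 ha)) (disp_mem hh2 ha) hw
          rwa [inv_mul_cancel, commutatorElement_one_left, hac w hw, mul_one, eq_comm] at this
        rw [e3, mul_one]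
        conv_lhs => rw [show w = h2 * (h2⁻¹ * w * h2) * h2⁻¹ by group]
        rw [comm_conj hc (disp_mem hh2 ha) hw']
        exact hac _ hw'
      rw [ladder hc hh2 hh2' ha hcc j z hz, hac z hz, one_pow, one_mul]
    intro z hz
    have hz' := hg' z hz
    have e : g * (h2 ^ j * a * (h2 ^ j)⁻¹) * g⁻¹ = a := by
      rw [hh2def, ← pow_mul, ← conj_pow_succ, ← hj, hord]; group
    have hw : h2 ^ j * a * (h2 ^ j)⁻¹ ∈ N := conj_mem_pow hh2 j a ha
    have e1 : ⁅g * a * g⁻¹, z⁆ = ⁅a, z⁆ := by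
      conv_rhs => rw [← e]
      conv_lhs => rw [show z = g * (g⁻¹ * z * g) * g⁻¹ by group]
      conv_rhs => rw [show z = g * (g⁻¹ * z * g) * g⁻¹ by group]
      rw [comm_conj hc ha hz', comm_conj hc hw hz', hl _ hz']
    rw [conj_eq g a, comm_mul_left hc (hd a ha) ha hz] at e1
    exact mul_right_cancel (e1.trans (one_mul _).symm)
  have heq : ϖ = r := by
    by_contra hne'
    have hcop : Nat.Coprime ϖ r := (Nat.coprime_primes hϖ hr).mpr hne'
    apply hne
    have ha := hd x₀ hx₀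
    have h1 : Cen N (disp h2 (disp g x₀)) :=
      cen_disp_of_ladder hc hh2 hh2' ha hord2 hcop hexp (hfix2 _ (disp_mem hh2 ha) (ht x₀ hx₀))
    exact cen_disp_of_ladder hc hg hg' hx₀ hord hcop hexp (hroot _ ha h1)
  refine ⟨heq, ?_⟩
  have ha := hd x₀ hx₀
  by_cases h : Cen N (disp h2 (disp g x₀))
  · exact ⟨x₀, hx₀, hne, hroot _ ha h⟩
  · set a := disp g x₀
    -- `t` is the displacement of `g a · a` up to a central factor
    have hga := hg a ha
    refine ⟨g * a * g⁻¹ * a, N.mul_mem hga ha, ?_⟩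
    have hcm : Commute (g * a * g⁻¹) a := (commutatorElement_eq_one_iff_commute.mp (hiso x₀ hx₀)).symm
    have hdt' : disp g (g * a * g⁻¹ * a) = disp h2 a := by
      have e1 : (g * a * g⁻¹) * a⁻¹ * (g * a * g⁻¹)⁻¹ = a⁻¹ := by rw [hcm.inv_right.eq, mul_inv_cancel_right]
      calc disp g (g * a * g⁻¹ * a) = g * (g * a * g⁻¹) * g⁻¹ * ((g * a * g⁻¹) * a⁻¹ * (g * a * g⁻¹)⁻¹) := by
            simp only [disp]; group
        _ = disp h2 a := by rw [e1, disp, hh2def, pow_two]; group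
    rw [hdt']
    exact ⟨h, ht x₀ hx₀⟩

end Cfsg.Agent.MaxSub.ClassTwoAut
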