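import Cfsg.Prelude.Def_GeometricClasses

/-!
Dimensions of eigenspaces shifted by other operators.
-/

set_option autoImplicit false

namespace Cfsg.Agent.MaxSub.EigenTools

open Module
open scoped Matrix MatrixGroups

variable {F : Type*} [Field F] {n : ℕ}

/-- The eigenspace of an invertible matrix. -/
noncomputable abbrev eig (g : GL (Fin n) F) (c : F) : Submodule F (Fin n → F) :=
  Module.End.eigenspace (Matrix.toLin' (g : Matrix (Fin n) (Fin n) F)) c

theorem mem_eig {g : GL (Fin n) F} {c : F} {v : Fin n → F} :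
    v ∈ eig g c ↔ (g : Matrix (Fin n) (Fin n) F) *ᵥ v = c • v := by
  rw [eig, Module.End.mem_eigenspace_iff, Matrix.toLin'_apply]

theorem mulVec_inj (g : GL (Fin n) F) {v w : Fin n → F}
    (h : (g : Matrix (Fin n) (Fin n) F) *ᵥ v = (g : Matrix (Fin n) (Fin n) F) *ᵥ w) : v = w := by
  simpa [Matrix.mulVec_mulVec, ← Units.val_mul] using
    congrArg (fun x => ((g⁻¹ : GL (Fin n) F) : Matrix (Fin n) (Fin n) F) *ᵥ x) h

theorem eig_zero (g : GL (Fin n) F) : eig g 0 = ⊥ :=
  (Submodule.eq_bot_iff _).mpr fun v hv => mulVec_inj g (by rw [mem_eig.mp hv]; simp)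

/-- Distinct eigenspaces inside a subspace. -/
theorem sum_finrank_inf_eig_le (g : GL (Fin n) F) (E : Submodule F (Fin n → F)) (s : Finset F) :
    ∑ c ∈ s, finrank F (E ⊓ eig g c : Submodule F (Fin n → F)) ≤ finrank F E := by
  classical
  have hind := Module.End.eigenspaces_iSupIndep (Matrix.toLin' (g : Matrix (Fin n) (Fin n) F))
  suffices h : ∀ t : Finset F, ∑ c ∈ t, finrank F (E ⊓ eig g c : Submodule F (Fin n → F)) =
      finrank F (t.sup fun c => E ⊓ eig g c : Submodule F (Fin n → F)) by
    rw [h s]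
    exact Submodule.finrank_mono (Finset.sup_le fun c _ => inf_le_left)
  intro t
  induction t using Finset.induction_on with
  | empty => rw [Finset.sum_empty, Finset.sup_empty, finrank_bot]
  | @insert a t hat ih =>
    have hdis : Disjoint (E ⊓ eig g a) (t.sup fun c => E ⊓ eig g c) := by
      refine (hind a).mono inf_le_right (Finset.sup_le fun c hc => inf_le_right.trans ?_)
      exact le_iSup₂_of_le c (fun h => hat (h ▸ hc)) le_rfl
    rw [Finset.sum_insert hat, ih, Finset.sup_insert,
      ← Submodule.finrank_sup_add_finrank_inf_eq, hdis.eq_bot, finrank_bot, add_zero]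

theorem sum_finrank_eig_le (g : GL (Fin n) F) (s : Finset F) :
    ∑ c ∈ s, finrank F (eig g c) ≤ n := by
  have h := sum_finrank_inf_eig_le g ⊤ s
  simp only [finrank_top, Module.finrank_fintype_fun_eq_card, Fintype.card_fin] at h
  exact (Finset.sum_le_sum fun c _ => Submodule.finrank_mono (le_inf le_top le_rfl)).trans h

theorem finrank_le_of_map {z : GL (Fin n) F} {A B : Submodule F (Fin n → F)}
    (h : ∀ v ∈ A, (z : Matrix (Fin n) (Fin n) F) *ᵥ v ∈ B) : finrank F A ≤ finrank F B := by
  have hinj : Function.Injective (Matrix.toLin' (z : Matrix (Fin n) (Fin n) F)) :=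
    fun v w hvw => mulVec_inj z (by simpa using hvw)
  rw [LinearEquiv.finrank_eq (Submodule.equivMapOfInjective _ hinj A)]
  refine Submodule.finrank_mono ?_
  rintro _ ⟨v, hv, rfl⟩
  simpa using h v hv

/-- An operator shifting the eigenvalues by `μ`. -/
theorem shift_mem {g z : GL (Fin n) F} {μ c : F}
    (h : (g : Matrix (Fin n) (Fin n) F) * z = μ • ((z : Matrix (Fin n) (Fin n) F) * g)) {v : Fin n → F}
    (hv : v ∈ eig g c) : (z : Matrix (Fin n) (Fin n) F) *ᵥ v ∈ eig g (μ * c) := by
  rw [mem_eig, Matrix.mulVec_mulVec, h, Matrix.smul_mulVec, ← Matrix.mulVec_mulVec, mem_eig.mp hv,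
    Matrix.mulVec_smul, smul_smul]

theorem le_shift_pow {g z : GL (Fin n) F} {μ : F}
    (h : (g : Matrix (Fin n) (Fin n) F) * z = μ • ((z : Matrix (Fin n) (Fin n) F) * g)) (c : F) (i : ℕ) :
    finrank F (eig g c) ≤ finrank F (eig g (μ ^ i * c)) := by
  induction i with
  | zero => rw [pow_zero, one_mul]
  | succ i ih =>
    refine ih.trans (finrank_le_of_map (z := z) fun v hv => ?_)
    rw [pow_succ', mul_assoc]
    exact shift_mem h hv

/-- An operator shifting the eigenvalues cyclically. -/
theorem finrank_mul_le {g z : GL (Fin n) F} {μ : F} {k : ℕ} (hμ : IsPrimitiveRoot μ k)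
    (h : (g : Matrix (Fin n) (Fin n) F) * z = μ • ((z : Matrix (Fin n) (Fin n) F) * g)) (c : F) :
    k * finrank F (eig g c) ≤ n := by
  classical
  by_cases hc : c = 0
  · rw [hc, eig_zero g, finrank_bot, mul_zero]
    exact Nat.zero_le n
  have hinj : Set.InjOn (fun i => μ ^ i * c) (Finset.range k : Finset ℕ) := fun i hi j hj hij =>
    hμ.pow_inj (Finset.mem_range.mp hi) (Finset.mem_range.mp hj) (mul_right_cancel₀ hc hij)
  refine le_trans ?_ (sum_finrank_eig_le g ((Finset.range k).image fun i => μ ^ i * c))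
  rw [Finset.sum_image hinj]
  have := Finset.card_nsmul_le_sum (Finset.range k) (fun i => finrank F (eig g (μ ^ i * c)))
    (finrank F (eig g c)) fun i _ => le_shift_pow h c i
  simpa using this

end Cfsg.Agent.MaxSub.EigenTools
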