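import Cfsg.Agent.MaxSub.EigenTools
import Cfsg.Agent.MaxSub.ClassTwoAut
import Cfsg.Agent.MaxSub.SymplecticType

/-!
Eigenspaces of elements normalising an absolutely irreducible extraspecial group.
-/

set_option autoImplicit false
set_option linter.style.haveILetI false

namespace Cfsg.Agent.MaxSub.ExtraEig

open Matrix Module Cfsg.Geo EigenTools ClassTwoAut
open scoped MatrixGroups Matrix commutatorElement

variable {F : Type*} [Field F] {n : ℕ}

local notation "Mat" => Matrix (Fin n) (Fin n) F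

theorem commute_of_mem_scalars {s : GL (Fin n) F} (hs : s ∈ scalars (Fin n) F) (w : GL (Fin n) F) :
    Commute s w := by
  obtain ⟨c, hc⟩ := (mem_scalars_iff s).mp hs
  exact Units.ext (by rw [Units.val_mul, Units.val_mul, hc, smul_mul_assoc, one_mul, mul_smul_comm, mul_one])

/-- The relation coming from a displacement by a scalar. -/
theorem exists_shift_of_scalar {g y : GL (Fin n) F} {ϖ : ℕ} (hn : 0 < n) (hord : g ^ ϖ = 1)
    (h : disp g y ∈ scalars (Fin n) F) :
    ∃ l : F, l ^ ϖ = 1 ∧ (g : Mat) * y = l • ((y : Mat) * g) ∧ (l = 1 → disp g y = 1) := by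
  obtain ⟨c, hc⟩ := (mem_scalars_iff _).mp h
  have hk : ∀ k : ℕ, g ^ k * y * (g ^ k)⁻¹ = disp g y ^ k * y := by
    intro k
    induction k with
    | zero => simp
    | succ k ih =>
      rw [conj_pow_succ, ih]
      have h1 : g * disp g y ^ k = disp g y ^ k * g :=
        ((commute_of_mem_scalars h g).pow_left k).symm.eq
      calc g * (disp g y ^ k * y) * g⁻¹ = g * disp g y ^ k * (y * g⁻¹) := by simp only [mul_assoc]
        _ = disp g y ^ k * (g * y * g⁻¹) := by rw [h1]; simp only [mul_assoc]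
        _ = disp g y ^ (k + 1) * y := by rw [conj_eq g y, pow_succ, mul_assoc]
  have h1 := hk ϖ
  rw [hord, one_mul, inv_one, mul_one] at h1
  have hpow : disp g y ^ ϖ = 1 := mul_right_cancel (h1.symm.trans (one_mul y).symm)
  refine ⟨c, ?_, ?_, fun hl => Units.ext (by rw [hc, hl, one_smul, Units.val_one])⟩
  · have h2 := congrArg (fun x : GL (Fin n) F => (x : Mat) ⟨0, hn⟩ ⟨0, hn⟩) hpow
    simp only [Units.val_pow_eq_pow_val, hc, smul_pow, one_pow, Units.val_one, Matrix.smul_apply,
      Matrix.one_apply_eq, smul_eq_mul, mul_one] at h2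
    exact h2
  · rw [← Units.val_mul, show g * y = disp g y * (y * g) by simp [disp], Units.val_mul, hc,
      smul_mul_assoc, one_mul, Units.val_mul]

theorem finrank_sup_le_sum {α : Type*} (p : α → Submodule F (Fin n → F)) (s : Finset α) :
    finrank F (s.sup p : Submodule F (Fin n → F)) ≤ ∑ i ∈ s, finrank F (p i) := by
  classical
  induction s using Finset.induction_on with
  | empty => rw [Finset.sum_empty, Finset.sup_empty, finrank_bot]
  | @insert a t hat ih =>
    rw [Finset.sum_insert hat, Finset.sup_insert]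
    exact (Submodule.finrank_add_le_finrank_add_finrank _ _).trans (by omega)

/-- An eigenspace of `g` splits along the eigenspaces of a commuting `u` of order `r`. -/
theorem finrank_eig_le_sum {g u : GL (Fin n) F} (hcomm : Commute g u) {r : ℕ} {z : F} (hr : 0 < r)
    (hz : IsPrimitiveRoot z r) (hu : u ^ r = 1) (c : F) :
    finrank F (eig g c) ≤ ∑ i ∈ Finset.range r, finrank F (eig u (z ^ i) ⊓ eig g c : Submodule F (Fin n → F)) := by
  haveI : NeZero r := ⟨hr.ne'⟩
  refine le_trans (Submodule.finrank_mono ?_) (finrank_sup_le_sum _ _)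
  intro v hv
  let P : ℕ → (Fin n → F) := fun i =>
    ∑ j ∈ Finset.range r, z⁻¹ ^ (i * j) • (((u ^ j : GL (Fin n) F) : Mat) *ᵥ v)
  have hz0 : z ≠ 0 := hz.ne_zero hr.ne'
  have hzi : IsPrimitiveRoot z⁻¹ r := hz.inv
  have hP : ∀ i ∈ Finset.range r, P i ∈ eig u (z ^ i) ⊓ eig g c := by
    intro i _
    refine ⟨mem_eig.mpr ?_, mem_eig.mpr ?_⟩
    · simp only [P, Matrix.mulVec_sum, Matrix.mulVec_smul, Finset.smul_sum, Matrix.mulVec_mulVec, ← Units.val_mul,
        ← pow_succ']
      let f : ℕ → (Fin n → F) := fun j => z ^ i • z⁻¹ ^ (i * j) • (((u ^ j : GL (Fin n) F) : Mat) *ᵥ v)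
      have hf : ∀ j, z⁻¹ ^ (i * j) • (((u ^ (j + 1) : GL (Fin n) F) : Mat) *ᵥ v) = f (j + 1) := fun j => by
        simp only [f, smul_smul]
        congr 1
        rw [mul_add, mul_one, pow_add, mul_comm (z ^ i), mul_assoc, ← mul_pow, inv_mul_cancel₀ hz0, one_pow, mul_one]
      simp only [hf]
      have hper : f r = f 0 := by
        simp only [f, hu, mul_zero, pow_zero]
        rw [mul_comm i r, pow_mul, hzi.pow_eq_one, one_pow]
      have h1 := Finset.sum_range_succ' f r
      rw [Finset.sum_range_succ, hper] at h1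
      exact (add_right_cancel h1).symm
    · simp only [P, Matrix.mulVec_sum, Matrix.mulVec_smul, Finset.smul_sum]
      refine Finset.sum_congr rfl fun j _ => ?_
      rw [Matrix.mulVec_mulVec, ← Units.val_mul, (hcomm.pow_right j).eq, Units.val_mul, ← Matrix.mulVec_mulVec,
        mem_eig.mp hv, Matrix.mulVec_smul, smul_comm]
  have hsum : ∑ i ∈ Finset.range r, P i = (r : F) • v := by
    simp only [P]
    rw [Finset.sum_comm, Finset.sum_eq_single 0]
    · simp [← Nat.cast_smul_eq_nsmul F]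
    · intro j hj hj0
      rw [← Finset.sum_smul]
      have hne : z⁻¹ ^ j ≠ 1 := hzi.pow_ne_one_of_pos_of_lt hj0 (Finset.mem_range.mp hj)
      have hg0 : ∑ i ∈ Finset.range r, (z⁻¹ ^ j) ^ i = 0 := by
        refine (mul_eq_zero.mp ?_).resolve_right (sub_ne_zero.mpr hne)
        rw [geom_sum_mul, ← pow_mul, mul_comm, pow_mul, hzi.pow_eq_one, one_pow, sub_self]
      rw [Finset.sum_congr rfl fun i _ => show z⁻¹ ^ (i * j) = (z⁻¹ ^ j) ^ i by rw [← pow_mul, mul_comm],
        hg0, zero_smul]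
    · simp [hr.ne']
  have hr0 : (r : F) ≠ 0 := (hz.neZero').out
  have : v = ∑ i ∈ Finset.range r, (r : F)⁻¹ • P i := by
    rw [← Finset.smul_sum, hsum, smul_smul, inv_mul_cancel₀ hr0, one_smul]
  rw [this]
  exact Submodule.sum_mem _ fun i hi => Submodule.smul_mem _ _ (Finset.le_sup (f := fun i => eig u (z ^ i) ⊓ eig g c) hi (hP i hi))

/-- A step of the chain. -/
theorem chain_step {g u x : GL (Fin n) F} {ν : F} (hgx : disp g x = u)
    (hux : (u : Mat) * x = ν • ((x : Mat) * u)) (θ c : F) :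
    finrank F (eig u θ ⊓ eig g c : Submodule F (Fin n → F)) ≤
      finrank F (eig u (ν * θ) ⊓ eig g (c * (ν * θ)) : Submodule F (Fin n → F)) := by
  refine finrank_le_of_map (z := x) fun v hv => ?_
  obtain ⟨h1, h2⟩ := Submodule.mem_inf.mp hv
  have h3 := shift_mem hux h1
  refine ⟨h3, mem_eig.mpr ?_⟩
  rw [Matrix.mulVec_mulVec, ← Units.val_mul, show g * x = u * (x * g) by rw [← hgx]; simp [disp],
    Units.val_mul, Units.val_mul, ← Matrix.mulVec_mulVec, ← Matrix.mulVec_mulVec, mem_eig.mp h2,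
    Matrix.mulVec_smul, Matrix.mulVec_smul, mem_eig.mp h3, smul_smul]

theorem chain_iter {g u x : GL (Fin n) F} {ν : F} (hgx : disp g x = u)
    (hux : (u : Mat) * x = ν • ((x : Mat) * u)) (k : ℕ) (c : F) (j : ℕ) :
    ∃ s : ℕ, 2 * s = j * (2 * k + j + 1) ∧
      finrank F (eig u (ν ^ k) ⊓ eig g c : Submodule F (Fin n → F)) ≤
        finrank F (eig u (ν ^ (k + j)) ⊓ eig g (c * ν ^ s) : Submodule F (Fin n → F)) := by
  induction j with
  | zero => exact ⟨0, by simp, by rw [pow_zero, mul_one, add_zero]⟩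
  | succ j ih =>
    obtain ⟨s, hs, hle⟩ := ih
    refine ⟨s + (k + j + 1), by rw [mul_add, hs]; ring, hle.trans ?_⟩
    have h := chain_step hgx hux (ν ^ (k + j)) (c * ν ^ s)
    have e1 : ν * ν ^ (k + j) = ν ^ (k + (j + 1)) := by rw [← pow_succ']; rfl
    have e2 : c * ν ^ s * (ν * ν ^ (k + j)) = c * ν ^ (s + (k + j + 1)) := by
      rw [← pow_succ', mul_assoc, ← pow_add]
    rwa [e2, e1] at h

/-- The chain `x ↦ u x`, `u` fixed: eigenspaces have dimension at most `2 n / r`. -/
theorem chain_bound {g u x z : GL (Fin n) F} {r : ℕ} {ν μ : F} (hr : r.Prime) (hr2 : r ≠ 2)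
    (hgx : disp g x = u) (hcomm : Commute g u) (hord : g ^ r = 1) (hν : ν ^ r = 1)
    (hux : (u : Mat) * x = ν • ((x : Mat) * u)) (hμ : IsPrimitiveRoot μ r)
    (huz : (u : Mat) * z = μ • ((z : Mat) * u)) (c : F) :
    r * finrank F (eig g c) ≤ 2 * n := by
  classical
  haveI : Fact r.Prime := ⟨hr⟩
  haveI : NeZero r := ⟨hr.ne_zero⟩
  have hu : u ^ r = 1 := by
    have hk : ∀ k : ℕ, g ^ k * x * (g ^ k)⁻¹ = u ^ k * x := by
      intro k
      induction k with
      | zero => simp
      | succ k ih =>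
        rw [conj_pow_succ, ih]
        calc g * (u ^ k * x) * g⁻¹ = g * u ^ k * (x * g⁻¹) := by simp only [mul_assoc]
          _ = u ^ k * (g * x * g⁻¹) := by rw [(hcomm.pow_right k).eq]; simp only [mul_assoc]
          _ = u ^ (k + 1) * x := by rw [conj_eq g x, hgx, pow_succ, mul_assoc]
    have h1 := hk r
    rw [hord, one_mul, inv_one, mul_one] at h1
    exact mul_right_cancel (h1.symm.trans (one_mul x).symm)
  by_cases hc : c = 0
  · rw [hc, eig_zero g, finrank_bot, mul_zero]; exact Nat.zero_le _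
  have hD : ∀ θ : F, r * finrank F (eig u θ) ≤ n := fun θ => finrank_mul_le hμ huz θ
  let f : F → F → ℕ := fun θ c => finrank F (eig u θ ⊓ eig g c : Submodule F (Fin n → F))
  by_cases hν1 : ν = 1
  · have hle := finrank_eig_le_sum hcomm hr.pos hμ hu c
    have hstep : ∀ i ∈ Finset.range r, i ≠ 0 → r * f (μ ^ i) c ≤ finrank F (eig u (μ ^ i)) := by
      intro i hi hi0
      have hθ : IsPrimitiveRoot (μ ^ i) r := hμ.pow_of_coprime i
        (Nat.coprime_of_lt_prime hi0 (Finset.mem_range.mp hi) hr).symm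
      have hit : ∀ j, f (μ ^ i) c ≤ f (μ ^ i) (c * (μ ^ i) ^ j) := by
        intro j
        induction j with
        | zero => rw [pow_zero, mul_one]
        | succ j ih =>
          have h := chain_step hgx hux (μ ^ i) (c * (μ ^ i) ^ j)
          rw [hν1, one_mul, mul_assoc, ← pow_succ] at h
          exact ih.trans h
      have hinj : Set.InjOn (fun j => c * (μ ^ i) ^ j) (Finset.range r : Finset ℕ) := fun a ha b hb hab =>
        hθ.pow_inj (Finset.mem_range.mp ha) (Finset.mem_range.mp hb) (mul_left_cancel₀ hc hab)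
      refine le_trans ?_ (sum_finrank_inf_eig_le g (eig u (μ ^ i)) ((Finset.range r).image fun j => c * (μ ^ i) ^ j))
      rw [Finset.sum_image hinj]
      have h3 := Finset.card_nsmul_le_sum (Finset.range r) (fun j => f (μ ^ i) (c * (μ ^ i) ^ j))
        (f (μ ^ i) c) fun j _ => hit j
      simpa [f] using h3
    have hsum : ∑ i ∈ Finset.range r, finrank F (eig u (μ ^ i)) ≤ n := by
      refine le_trans ?_ (sum_finrank_eig_le u ((Finset.range r).image fun i => μ ^ i))
      rw [Finset.sum_image fun a ha b hb hab => hμ.pow_inj (Finset.mem_range.mp ha) (Finset.mem_range.mp hb) hab]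
    calc r * finrank F (eig g c) ≤ r * ∑ i ∈ Finset.range r, f (μ ^ i) c := Nat.mul_le_mul_left r hle
      _ = ∑ i ∈ Finset.range r, r * f (μ ^ i) c := Finset.mul_sum _ _ _
      _ ≤ ∑ i ∈ Finset.range r, ((if i = 0 then n else 0) + finrank F (eig u (μ ^ i))) := by
        refine Finset.sum_le_sum fun i hi => ?_
        by_cases hi0 : i = 0
        · rw [if_pos hi0]
          have := Nat.mul_le_mul_left r (Submodule.finrank_mono
            (inf_le_left : eig u (μ ^ i) ⊓ eig g c ≤ eig u (μ ^ i)))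
          have := hD (μ ^ i)
          show r * finrank F _ ≤ _
          omega
        · rw [if_neg hi0, zero_add]; exact hstep i hi hi0
      _ ≤ 2 * n := by
        rw [Finset.sum_add_distrib, Finset.sum_ite_eq' (Finset.range r) 0 (fun _ => n),
          if_pos (Finset.mem_range.mpr hr.pos)]
        omega
  · have hνp : IsPrimitiveRoot ν r := IsPrimitiveRoot.iff_orderOf.mpr (orderOf_eq_prime hν hν1)
    have hle := finrank_eig_le_sum hcomm hr.pos hνp hu c
    choose S hS2 hSle using fun k => chain_iter hgx hux k c (r - k)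
    let val : ℕ → F := fun k => c * ν ^ S k
    have hk : ∀ k ∈ Finset.range r, f (ν ^ k) c ≤ f 1 (val k) := fun k hk => by
      have h := hSle k
      rwa [Nat.add_sub_cancel' (Finset.mem_range.mp hk).le, hνp.pow_eq_one] at h
    have hfib : ∀ b, ((Finset.range r).filter fun k => val k = b).card ≤ 2 := by
      intro b
      rcases ((Finset.range r).filter fun k => val k = b).eq_empty_or_nonempty with h | ⟨k₀, hk₀⟩
      · simp [h]
      obtain ⟨hk₀r, hk₀b⟩ := Finset.mem_filter.mp hk₀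
      refine le_trans (Finset.card_le_card (t := {k₀, r - 1 - k₀}) fun k hk' => ?_) Finset.card_le_two
      obtain ⟨hkr, hkb⟩ := Finset.mem_filter.mp hk'
      rw [Finset.mem_range] at hkr hk₀r
      have he : ν ^ S k = ν ^ S k₀ := mul_left_cancel₀ hc (hkb.trans hk₀b.symm)
      have hmod : (S k : ZMod r) = S k₀ := by
        rw [ZMod.natCast_eq_natCast_iff]
        have := (hνp.isOfFinOrder hr.ne_zero).pow_eq_pow_iff_modEq.mp he
        rwa [← hνp.eq_orderOf] at this
      have hS : ∀ a ≤ r, (2 : ZMod r) * S a = -(a : ZMod r) * (a + 1) := fun a ha => by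
        have := congrArg (Nat.cast : ℕ → ZMod r) (hS2 a)
        push_cast [Nat.cast_sub ha, ZMod.natCast_self] at this
        rw [this]; ring
      have hz : ((k : ZMod r) - k₀) * (k + k₀ + 1) = 0 := by
        linear_combination hS k hkr.le - hS k₀ hk₀r.le - 2 * hmod
      rcases mul_eq_zero.mp hz with h | h
      · rw [sub_eq_zero, ZMod.natCast_eq_natCast_iff] at h
        have := Nat.ModEq.eq_of_lt_of_lt h hkr hk₀r
        simp [this]
      · have h' : ((k + k₀ + 1 : ℕ) : ZMod r) = 0 := by push_cast; exact h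
        rw [ZMod.natCast_eq_zero_iff] at h'
        obtain ⟨t, ht⟩ := h'
        have : t = 1 := by
          have h1 : t ≠ 0 := fun h0 => by simp [h0] at ht
          have h2 : r * t < r * 2 := by omega
          have := Nat.lt_of_mul_lt_mul_left h2
          omega
        subst this
        simp only [Finset.mem_insert, Finset.mem_singleton]
        omega
    have h1 : ∑ k ∈ Finset.range r, f 1 (val k) ≤ 2 * finrank F (eig u 1) := by
      rw [Finset.sum_comp]
      refine le_trans (Finset.sum_le_sum fun b _ => (smul_eq_mul _ _).le.trans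
        (Nat.mul_le_mul_right _ (hfib b))) ?_
      rw [← Finset.mul_sum]
      exact Nat.mul_le_mul_left 2 (sum_finrank_inf_eig_le g (eig u 1) _)
    calc r * finrank F (eig g c) ≤ r * (2 * finrank F (eig u 1)) :=
          Nat.mul_le_mul_left r (hle.trans ((Finset.sum_le_sum hk).trans h1))
      _ = 2 * (r * finrank F (eig u 1)) := by ring
      _ ≤ 2 * n := Nat.mul_le_mul_left 2 (hD 1)

theorem eigenspace_bounds [Finite F] {r ϖ : ℕ} (R : Subgroup (GL (Fin n) F)) (hr : r.Prime) (hR : IsPGroup r R)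
    (hZ : Nat.card (Subgroup.center R) = r) (hext : commutator R = Subgroup.center R)
    (hirr : ActsAbsolutelyIrreducibly (matrixSet R)) (g : GL (Fin n) F)
    (hg : g ∈ subgroupNormalizer (R ⊔ scalars (Fin n) F)) (hϖ : ϖ.Prime) (hord : g ^ ϖ = 1)
    (hns : g ∉ scalars (Fin n) F) (c : F) :
    2 * finrank F (eig g c) ≤ n ∨ (ϖ = 2 ∧ 4 * finrank F (eig g c) ≤ 3 * n) ∨
      (ϖ = r ∧ r ≠ 2 ∧ r ∣ n ∧ r * finrank F (eig g c) ≤ 2 * n) := by
  classical
  haveI : Fact r.Prime := ⟨hr⟩
  rcases Nat.eq_zero_or_pos n with rfl | hn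
  · left
    have := Submodule.finrank_le (eig g c)
    simp at this ⊢
    omega
  haveI : Nonempty (Fin n) := ⟨⟨0, hn⟩⟩
  by_cases hc0 : c = 0
  · left; rw [hc0, eig_zero g, finrank_bot, mul_zero]; exact Nat.zero_le n
  set S := scalars (Fin n) F with hSdef
  haveI : S.Normal := ⟨fun s hs w => by
    rwa [← (commute_of_mem_scalars hs w).eq, mul_inv_cancel_right]⟩
  set N := R ⊔ S with hNdef
  have hRN : R ≤ N := le_sup_left
  have hdec : ∀ y ∈ N, ∃ x ∈ R, ∃ s ∈ S, y = x * s := fun y hy => by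
    obtain ⟨x, hx, s, hs, rfl⟩ := Subgroup.mem_sup_of_normal_right.mp hy
    exact ⟨x, hx, s, hs, rfl⟩
  have hcomm : ∀ y ∈ N, ∀ z ∈ N, ⁅y, z⁆ ∈ S ∧ ⁅y, z⁆ ^ r = 1 := by
    intro y hy z hz
    obtain ⟨a, ha, s, hs, rfl⟩ := hdec y hy
    obtain ⟨b, hb, t, ht, rfl⟩ := hdec z hz
    have e : ∀ (a s w : GL (Fin n) F), s ∈ S → ⁅a * s, w⁆ = ⁅a, w⁆ ∧ ⁅w, a * s⁆ = ⁅w, a⁆ := by
      intro a s w hs
      have hsw := (commute_of_mem_scalars hs w).eq
      have h1 : ⁅a * s, w⁆ = ⁅a, w⁆ := by
        calc ⁅a * s, w⁆ = a * (s * w * s⁻¹) * a⁻¹ * w⁻¹ := by simp only [commutatorElement_def]; group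
          _ = _ := by rw [hsw, mul_inv_cancel_right, commutatorElement_def]
      exact ⟨h1, by rw [← commutatorElement_inv, h1, commutatorElement_inv]⟩
    rw [(e a s _ hs).1, (e b t _ ht).2]
    have hc : (⁅(⟨a, ha⟩ : R), (⟨b, hb⟩ : R)⁆) ∈ Subgroup.center R :=
      hext ▸ Subgroup.commutator_mem_commutator (Subgroup.mem_top _) (Subgroup.mem_top _)
    refine ⟨?_, ?_⟩
    · obtain ⟨k, hk⟩ := exists_scalar_of_mem_center hirr hc
      have hk0 : k ≠ 0 := fun h0 => by
        have := congrArg Matrix.det hk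
        rw [h0, zero_smul, Matrix.det_zero] at this
        exact (Matrix.GeneralLinearGroup.det (⁅a, b⁆)).ne_zero this
      exact (mem_scalars_iff _).mpr ⟨Units.mk0 k hk0, hk⟩
    · have := pow_card_eq_one' (x := (⟨_, hc⟩ : Subgroup.center R))
      rw [hZ] at this
      exact congrArg (fun x : Subgroup.center R => ((x : R) : GL (Fin n) F)) this
  have hcen : CentralComm N := fun y hy z hz w => commute_of_mem_scalars (hcomm y hy z hz).1 w
  have hexp : ∀ y ∈ N, ∀ z ∈ N, ⁅y, z⁆ ^ r = 1 := fun y hy z hz => (hcomm y hy z hz).2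
  -- a commutation relation
  have hrel : ∀ y ∈ N, ∀ z ∈ N, ∃ μ : F, μ ^ r = 1 ∧ (y : Mat) * z = μ • ((z : Mat) * y) ∧
      (μ = 1 → ⁅y, z⁆ = 1) := by
    intro y hy z hz
    obtain ⟨k, hk⟩ := (mem_scalars_iff _).mp (hcomm y hy z hz).1
    refine ⟨k, ?_, ?_, fun h1 => Units.ext (by rw [hk, h1, one_smul, Units.val_one])⟩
    · have h2 := congrArg (fun x : GL (Fin n) F => (x : Mat) ⟨0, hn⟩ ⟨0, hn⟩) (hexp y hy z hz)
      simp only [Units.val_pow_eq_pow_val, hk, smul_pow, one_pow, Units.val_one, Matrix.smul_apply,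
        Matrix.one_apply_eq, smul_eq_mul, mul_one] at h2
      exact h2
    · rw [← Units.val_mul, show y * z = ⁅y, z⁆ * (z * y) by simp only [commutatorElement_def]; group,
        Units.val_mul, hk, smul_mul_assoc, one_mul, Units.val_mul]
  have hnscal : ∀ y, (∀ x ∈ R, Commute y x) → y ∈ S := by
    intro y hy
    obtain ⟨k, hk⟩ := hirr.2 (y : Mat) (by
      rintro _ ⟨x, hx, rfl⟩
      exact congrArg Units.val (hy x hx).eq)
    have hk0 : k ≠ 0 := fun h0 => by
      have := congrArg Matrix.det hk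
      rw [h0, zero_smul, Matrix.det_zero] at this
      exact (Matrix.GeneralLinearGroup.det y).ne_zero this
    exact (mem_scalars_iff _).mpr ⟨Units.mk0 k hk0, hk⟩
  have hnc : ∀ y ∈ N, ¬ Cen N y → ∃ z : GL (Fin n) F, ∃ μ : F, IsPrimitiveRoot μ r ∧ (y : Mat) * z = μ • ((z : Mat) * y) := by
    intro y hy hyc
    simp only [Cen, not_forall] at hyc
    obtain ⟨z, hz, hne⟩ := hyc
    obtain ⟨μ, hμ, hrel', h1⟩ := hrel y hy z hz
    exact ⟨z, μ, IsPrimitiveRoot.iff_orderOf.mpr (orderOf_eq_prime hμ fun h => hne (h1 h)), hrel'⟩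
  have hcs : ∀ y ∈ N, Cen N y → y ∈ S := fun y _ hc => hnscal y fun x hx =>
    commutatorElement_eq_one_iff_commute.mp (hc x (hRN hx))
  rw [subgroupNormalizer, Subgroup.mem_normalizer_iff] at hg
  have hg1 : ∀ x ∈ N, g * x * g⁻¹ ∈ N := fun x hx => (hg x).mp hx
  have hg2 : ∀ x ∈ N, g⁻¹ * x * g ∈ N := fun x hx => (hg _).mpr (by
    rwa [show g * (g⁻¹ * x * g) * g⁻¹ = x by group])
  by_cases hall : ∀ x ∈ N, Cen N (disp g x)
  · left
    obtain ⟨x, hx, hne⟩ : ∃ x ∈ R, disp g x ≠ 1 := by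
      by_contra hcon
      push Not at hcon
      exact hns (hnscal g fun x hx => by
        have := conj_eq g x
        rw [hcon x hx, one_mul, mul_inv_eq_iff_eq_mul] at this
        exact this)
    obtain ⟨l, hl, hrel', hl1⟩ := exists_shift_of_scalar hn hord
      (hcs _ (disp_mem hg1 (hRN hx)) (hall x (hRN hx)))
    haveI : Fact ϖ.Prime := ⟨hϖ⟩
    have := finrank_mul_le (IsPrimitiveRoot.iff_orderOf.mpr (orderOf_eq_prime hl fun h => hne (hl1 h))) hrel' c
    exact le_trans (Nat.mul_le_mul_right _ hϖ.two_le) this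
  push Not at hall
  obtain ⟨x₀, hx₀, hx₀c⟩ := hall
  -- vectors in the intersection of `W` and `x W`
  have hfix : ∀ (x : GL (Fin n) F) (v : Fin n → F), v ∈ eig g c → (x : Mat) *ᵥ v ∈ eig g c →
      ((disp g x : GL (Fin n) F) : Mat) *ᵥ ((x : Mat) *ᵥ v) = (x : Mat) *ᵥ v := by
    intro x v hv hxv
    rw [Matrix.mulVec_mulVec, ← Units.val_mul, show disp g x * x = g * x * g⁻¹ from (conj_eq g x).symm]
    refine mulVec_inj (1 : GL (Fin n) F) ?_
    have hgi : ((g⁻¹ : GL (Fin n) F) : Mat) *ᵥ v = c⁻¹ • v := mulVec_inj g (by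
      rw [Matrix.mulVec_mulVec, ← Units.val_mul, mul_inv_cancel, Units.val_one, Matrix.one_mulVec,
        Matrix.mulVec_smul, mem_eig.mp hv, smul_smul, inv_mul_cancel₀ hc0, one_smul])
    rw [Units.val_mul, Units.val_mul, ← Matrix.mulVec_mulVec, ← Matrix.mulVec_mulVec, hgi, Matrix.mulVec_smul,
      Matrix.mulVec_smul, mem_eig.mp hxv, smul_smul, inv_mul_cancel₀ hc0, one_smul]
  have hmap : ∀ x : GL (Fin n) F, finrank F ((eig g c).map (Matrix.toLin' (x : Mat))) = finrank F (eig g c) :=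
    fun x => (LinearEquiv.finrank_eq (Submodule.equivMapOfInjective _
      (fun v w hvw => mulVec_inj x (by simpa using hvw)) (eig g c))).symm
  have hinf : ∀ (x : GL (Fin n) F) (b : ℕ),
      finrank F (eig g c ⊓ (eig g c).map (Matrix.toLin' (x : Mat)) : Submodule F (Fin n → F)) ≤ b →
      2 * finrank F (eig g c) ≤ n + b := by
    intro x b hb
    have h1 := Submodule.finrank_sup_add_finrank_inf_eq (eig g c) ((eig g c).map (Matrix.toLin' (x : Mat)))
    have h2 := Submodule.finrank_le (eig g c ⊔ (eig g c).map (Matrix.toLin' (x : Mat)))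
    rw [Module.finrank_fintype_fun_eq_card, Fintype.card_fin] at h2
    rw [hmap] at h1
    omega
  rcases hϖ.eq_two_or_odd' with rfl | hodd
  · right; left
    refine ⟨rfl, ?_⟩
    obtain ⟨z, μ, hμ, hrel'⟩ := hnc _ (disp_mem hg1 hx₀) hx₀c
    have h1 := hinf x₀ (finrank F (eig (disp g x₀) 1)) (Submodule.finrank_mono fun y hy => by
      obtain ⟨hyW, v, hv, rfl⟩ := hy
      rw [mem_eig, one_smul, Matrix.toLin'_apply]
      exact hfix x₀ v hv (by simpa using hyW))
    have h2 := le_trans (Nat.mul_le_mul_right _ hr.two_le) (finrank_mul_le hμ hrel' 1)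
    omega
  by_cases hiso : ∀ x ∈ N, ⁅disp g x, g * disp g x * g⁻¹⁆ = 1
  swap
  · left
    push Not at hiso
    obtain ⟨x, hx, hne⟩ := hiso
    refine (hinf x 0 (Nat.le_zero.mpr (Submodule.finrank_eq_zero.mpr ((Submodule.eq_bot_iff _).mpr ?_)))).trans
      (add_zero n).le
    rintro _ ⟨hyW, v, hv, rfl⟩
    rw [Matrix.toLin'_apply] at hyW ⊢
    set y := (x : Mat) *ᵥ v with hy
    set a := disp g x
    set b := g * a * g⁻¹
    have ha : (a : Mat) *ᵥ y = y := hfix x v hv hyW
    have hb : (b : Mat) *ᵥ y = y := by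
      have e : ((b * g : GL (Fin n) F) : Mat) *ᵥ y = c • y := by
        rw [show b * g = g * a by simp [b], Units.val_mul, ← Matrix.mulVec_mulVec, ha, mem_eig.mp hyW]
      rw [Units.val_mul, ← Matrix.mulVec_mulVec, mem_eig.mp hyW, Matrix.mulVec_smul] at e
      exact smul_right_injective _ hc0 e
    obtain ⟨μ, hμ, hrel', h1⟩ := hrel a (disp_mem hg1 hx) b (hg1 _ (disp_mem hg1 hx))
    have h2 := congrArg (fun M : Mat => M *ᵥ y) hrel'
    simp only [Matrix.smul_mulVec, ← Matrix.mulVec_mulVec, ha, hb] at h2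
    by_contra hy0
    apply hne (h1 ?_)
    have h3 : (1 - μ) • y = 0 := by rw [sub_smul, one_smul, ← h2, sub_self]
    exact (sub_eq_zero.mp ((smul_eq_zero.mp h3).resolve_right hy0)).symm
  obtain ⟨heq, x, hx, hxu, hxfix⟩ := eq_and_exists_fixed hcen hϖ hodd hr hg1 hg2 hord hexp hiso hx₀ hx₀c
  subst heq
  have hr2 : ϖ ≠ 2 := fun h => by rw [h] at hodd; exact absurd hodd (by decide)
  refine Or.inr (Or.inr ⟨rfl, hr2, ?_, ?_⟩)
  · have hsq := sq_card_eq_index_center hirr hext.le
    rw [Fintype.card_fin] at hsq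
    obtain ⟨k, hk⟩ := hR.exists_card_eq
    obtain ⟨j, -, hj⟩ := (Nat.dvd_prime_pow hr).mp (hk ▸ Subgroup.index_dvd_card (Subgroup.center R))
    refine hr.dvd_of_dvd_pow (n := 2) ?_
    rw [hsq, hj]
    refine dvd_pow_self ϖ fun hj0 => ?_
    apply hns
    rw [hj0, pow_zero] at hj
    have : n = 1 := by nlinarith
    subst this
    exact hnscal g fun x _ => Units.ext (by
      ext i k; fin_cases i; fin_cases k; simp [Matrix.mul_apply, mul_comm])
  · set u := disp g x
    have huN : u ∈ N := disp_mem hg1 hx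
    obtain ⟨z, μ, hμ, huz⟩ := hnc u huN hxu
    obtain ⟨l, hl, hgu, hl1⟩ := exists_shift_of_scalar hn hord (hcs _ (disp_mem hg1 huN) hxfix)
    by_cases h1 : l = 1
    · have hgc : Commute g u := by
        have := conj_eq g u
        rw [hl1 h1, one_mul, mul_inv_eq_iff_eq_mul] at this
        exact this
      obtain ⟨ν, hν, hux, -⟩ := hrel u huN x hx
      exact chain_bound hr hr2 rfl hgc hord hν hux hμ huz c
    · have := finrank_mul_le (IsPrimitiveRoot.iff_orderOf.mpr (orderOf_eq_prime hl h1)) hgu c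
      exact this.trans (by omega)

end Cfsg.Agent.MaxSub.ExtraEig
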