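import Cfsg.Agent.MaxSub.FormTools

/-!
The possible shapes of a maximal subgroup of `SU_n`, `5 ≤ n ≤ 12`, and of `Sp_2m`, `3 ≤ m ≤ 6`,
given the dichotomy "inside a member of a geometric class, or residual".
-/

set_option autoImplicit false
set_option linter.style.haveILetI false

namespace Cfsg.Agent.MaxSub

open Matrix Cfsg.Geo Cfsg.Agent.ClassicalMax
open Cfsg.Agent.Classical.U (SqField sqField_of_fintype)
open scoped MatrixGroups Matrix commutatorElement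

section Unitary

variable {F : Type*} [Field F] {n q : ℕ}

/-- The possible shapes of a maximal subgroup of `SU_n`, `5 ≤ n ≤ 12`, given the dichotomy. -/
theorem su_shapes [Fintype F] (hn5 : 5 ≤ n) (hn12 : n ≤ 12)
    (hc : Fintype.card F = q ^ 2) (hdich : UnitaryDichotomy n F q)
    {H : Subgroup (GL (Fin n) F)} (hH : IsMaximalIn (suGL n F q) H) :
    (∃ W : Submodule F (Fin n → F), W ≠ ⊥ ∧ IsTotallySingularFor (Cfsg.hermForm n F q) W ∧
      H = subspaceStabilizer W ⊓ suGL n F q) ∨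
    (∃ W : Submodule F (Fin n → F), W ≠ ⊥ ∧ IsNondegenerateOn (Cfsg.hermForm n F q) W ∧
      2 * Module.finrank F W < n ∧ H = subspaceStabilizer W ⊓ suGL n F q) ∨
    (∃ (t k : ℕ) (D : Fin t → Submodule F (Fin n → F)),
      IsNondegenerateMDecomposition (Cfsg.hermForm n F q) k D ∧ t * k = n ∧ 2 ≤ t ∧ 1 ≤ k ∧
      H = decompositionStabilizer D ⊓ suGL n F q) ∨
    (∃ (k : ℕ) (D : Fin 2 → Submodule F (Fin n → F)), 2 * k = n ∧ IsMDecomposition k D ∧
      (∀ i, IsTotallySingularFor (Cfsg.hermForm n F q) (D i)) ∧ H = decompositionStabilizer D ⊓ suGL n F q) ∨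
    (∃ (F₀ : Subfield F) (r : ℕ) (P : GL (Fin n) F), r.Prime ∧ Odd r ∧ Fintype.card F = Nat.card F₀ ^ r ∧
      IsFormRationalStructure (Cfsg.hermForm n F q) F₀ 1 P ∧ H = subfieldSubgroup F₀ P ⊓ suGL n F q) ∨
    (Odd q ∧ ∃ (F₀ : Subfield F) (P : GL (Fin n) F), Fintype.card F = Nat.card F₀ ^ 2 ∧
      IsFormRationalStructure (Cfsg.hermForm n F q) F₀ 1 P ∧ H = subfieldSubgroup F₀ P ⊓ suGL n F q) ∨
    (∃ (F₀ : Subfield F) (P : GL (Fin n) F) (ζ : F), Even n ∧ Fintype.card F = Nat.card F₀ ^ 2 ∧ ζ ≠ 0 ∧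
      ζ + ζ ^ q = 0 ∧ IsFormRationalStructure (Cfsg.hermForm n F q) F₀ ζ P ∧
      (∀ u : Fin n → F, (∀ i, u i ∈ F₀) →
        Cfsg.hermForm n F q ((P : Matrix (Fin n) (Fin n) F) *ᵥ u) ((P : Matrix (Fin n) (Fin n) F) *ᵥ u) = 0) ∧
      H = subfieldSubgroup F₀ P ⊓ suGL n F q) ∨
    (∃ (r : ℕ) (R : Subgroup (GL (Fin n) F)), UnitaryTypeData n q r R ∧
      H = subgroupNormalizer R ⊓ suGL n F q) ∨
    (∃ (r : ℕ) (K : Subalgebra F (Matrix (Fin n) (Fin n) F)), r.Prime ∧ Odd r ∧ r ∣ n ∧ IsFieldSubalgebra r K ∧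
      IsAdjointClosedFor (Cfsg.hermForm n F q) K ∧ H = subalgebraNormalizer K ⊓ suGL n F q) ∨
    (∃ (n₁ n₂ : ℕ) (e : Fin n ≃ Fin n₁ × Fin n₂) (P : GL (Fin n) F)
      (f₁ : (Fin n₁ → F) → (Fin n₁ → F) → F) (f₂ : (Fin n₂ → F) → (Fin n₂ → F) → F),
      2 ≤ n₁ ∧ n₁ < n₂ ∧ n₁ * n₂ = n ∧ IsUnitaryFormPow q f₁ ∧ IsUnitaryFormPow q f₂ ∧
      IsTensorFormStructure (fun x : F => x ^ q) (Cfsg.hermForm n F q) f₁ f₂ e P ∧
      H = tensorProductSubgroup n₁ n₂ e P ⊓ suGL n F q) ∨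
    (n = 9 ∧ 3 ≤ q ∧ ∃ (e : Fin n ≃ (Fin 2 → Fin 3)) (P : GL (Fin n) F)
      (f₁ : (Fin 3 → F) → (Fin 3 → F) → F), IsUnitaryFormPow q f₁ ∧
      IsTensorPowerFormStructure (fun x : F => x ^ q) (Cfsg.hermForm n F q) f₁ e P ∧
      H = tensorWreathSubgroup 3 2 e P ⊓ suGL n F q) ∨
    InUnitaryResidualClass H := by
  have hn : 3 ≤ n := by omega
  have hex : ¬ (n = 3 ∧ q = 2) := by omega
  have hF : SqField F q := sqField_of_fintype hc
  have hperf := suGL_commutator hF hn hex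
  haveI : Nonempty (Fin n) := ⟨⟨0, by omega⟩⟩
  rcases hdich H hH.1.le (sup_scalars_ne_of_perfect hperf hH) with ⟨M, hM, hle⟩ | hres
  swap
  · iterate 11 right
    exact hres
  rcases hM with hM | ⟨r, K, hr, hodd, hK, hac, rfl⟩ | ⟨n₁, n₂, e, P, f₁, f₂, h1, h2, hf₁, hf₂, hs, rfl⟩ |
    ⟨k, t, e, P, f₁, hk, ht, hqk, hf₁, hs, rfl⟩
  · rcases hM with ⟨W, hb, hts, rfl⟩ | ⟨W, hb, hnd, hdim, rfl⟩ | ⟨t, k, D, hD, rfl⟩ | ⟨k, D, hk, hD, hts, rfl⟩ |
      ⟨F₀, r, P, hr, hodd, hcard, hrat, rfl⟩ | ⟨F₀, P, hodd, hcard, hrat, rfl⟩ |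
      ⟨F₀, P, ζ, hev, hcard, hζ, hζq, hrat, hiso, rfl⟩ | ⟨r, R, p, e, k, hR, hirr, hsim, hrp, hmin, hcase, rfl⟩
    · left
      refine ⟨W, hb, hts, eq_inf_max hH (hle.trans inf_le_left) (suGL_not_le_stabilizer hF (by omega) hb fun h => ?_)⟩
      have h1 : Cfsg.hermForm n F q (Pi.single ⟨0, by omega⟩ 1) (Pi.single ⟨0, by omega⟩ 1) = 1 := by
        show Classical.U.herm q _ _ = 1
        rw [Classical.U.herm_single_one _ hF.q_ne_zero]
        simp
      rw [hts _ (h ▸ Submodule.mem_top) _ (h ▸ Submodule.mem_top)] at h1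
      exact zero_ne_one h1
    · iterate 1 right
      refine Or.inl ⟨W, hb, hnd, hdim,
        eq_inf_max hH (hle.trans inf_le_left) (suGL_not_le_stabilizer hF (by omega) hb fun h => ?_)⟩
      rw [h, finrank_top, Module.finrank_fintype_fun_eq_card, Fintype.card_fin] at hdim
      omega
    · iterate 2 right
      have htk : t * k = n := by rw [MaxSub.mul_eq_card_of_isMDecomposition hD.decomp, Fintype.card_fin]
      refine Or.inl ⟨t, k, D, hD, htk, hD.decomp.two_le, hD.decomp.pos, eq_inf_max hH (hle.trans inf_le_left) ?_⟩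
      rcases Nat.lt_or_ge k 2 with hk | hk
      · have hk1 : k = 1 := by have := hD.decomp.pos; omega
        subst hk1
        exact suGL_not_le_frameStabilizer hF hn hex hD (by omega)
      · exact suGL_not_le_decompositionStabilizer hF hD.decomp hk
    · iterate 3 right
      exact Or.inl ⟨k, D, hk, hD, hts,
        eq_inf_max hH (hle.trans inf_le_left) (suGL_not_le_decompositionStabilizer hF hD (by omega))⟩
    · iterate 4 right
      exact Or.inl ⟨F₀, r, P, hr, hodd, hcard, hrat, eq_inf_max hH (hle.trans inf_le_left)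
        (suGL_not_le_subfieldSubgroup hF hn hperf (MaxSub.subfield_ne_top hr hcard) P)⟩
    · iterate 5 right
      exact Or.inl ⟨hodd, F₀, P, hcard, hrat, eq_inf_max hH (hle.trans inf_le_left)
        (suGL_not_le_subfieldSubgroup hF hn hperf (MaxSub.subfield_ne_top Nat.prime_two hcard) P)⟩
    · iterate 6 right
      exact Or.inl ⟨F₀, P, ζ, hev, hcard, hζ, hζq, hrat, hiso, eq_inf_max hH (hle.trans inf_le_left)
        (suGL_not_le_subfieldSubgroup hF hn hperf (MaxSub.subfield_ne_top Nat.prime_two hcard) P)⟩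
    · iterate 7 right
      obtain ⟨hdata, hnF, hcl, hscal⟩ := unitaryTypeData_of_class (by omega) hc hR hirr hsim hrp hmin hcase
      exact Or.inl ⟨r, R, hdata, eq_inf_max hH (hle.trans inf_le_left)
        (suGL_not_le_normalizer_of_five_le hF hn5 hirr hcl hscal)⟩
  · iterate 8 right
    refine Or.inl ⟨r, K, hr, hodd, ?_, hK, hac,
      eq_inf_max hH (hle.trans inf_le_left) (suGL_not_le_subalgebraNormalizer hF hn hr.one_lt hK)⟩
    simpa using MaxSub.degree_dvd_card hK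
  · iterate 9 right
    have hnn : n₁ * n₂ = n := by simpa using (Fintype.card_congr e).symm
    exact Or.inl ⟨n₁, n₂, e, P, f₁, f₂, h1, h2, hnn, hf₁, hf₂, hs,
      eq_inf_max hH (hle.trans inf_le_left) (suGL_not_le_tensorProductSubgroup hF (by omega) h1 (by omega) e P)⟩
  · iterate 10 right
    have hkt : n = k ^ t := by simpa using Fintype.card_congr e
    have h9 : 3 ^ 2 ≤ k ^ t := (Nat.pow_le_pow_left hk 2).trans (Nat.pow_le_pow_right (by omega) ht)
    obtain rfl : t = 2 := by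
      by_contra hne
      have : 3 ^ 3 ≤ k ^ t := (Nat.pow_le_pow_left hk 3).trans (Nat.pow_le_pow_right (by omega) (by omega))
      omega
    obtain rfl : k = 3 := by
      by_contra hne
      have : 4 ^ 2 ≤ k ^ 2 := Nat.pow_le_pow_left (by omega) 2
      omega
    have hq2 := hF.one_lt
    exact Or.inl ⟨by omega, by omega, e, P, f₁, hf₁, hs, eq_inf_max hH (hle.trans inf_le_left)
      (suGL_not_le_tensorWreath hF (by omega) (by norm_num) (Or.inl rfl) e P)⟩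

end Unitary

section Symplectic

variable {F : Type*} [Field F] {m : ℕ}

/-- The possible shapes of a maximal subgroup of `Sp_2m`, given the dichotomy. -/
theorem sp_shapes [Fintype F] (hm3 : 3 ≤ m) (hm6 : m ≤ 6) (hdich : SymplecticDichotomy m F)
    {H : Subgroup (GL (Fin m ⊕ Fin m) F)} (hH : IsMaximalIn (Cfsg.spGL m F) H) :
    (∃ W : Submodule F (Fin m ⊕ Fin m → F), W ≠ ⊥ ∧ IsTotallySingularFor (Cfsg.sympForm m F) W ∧
      H = subspaceStabilizer W ⊓ Cfsg.spGL m F) ∨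
    (∃ W : Submodule F (Fin m ⊕ Fin m → F), W ≠ ⊥ ∧ IsNondegenerateOn (Cfsg.sympForm m F) W ∧
      Module.finrank F W < m ∧ 2 ≤ Module.finrank F W ∧ H = subspaceStabilizer W ⊓ Cfsg.spGL m F) ∨
    (∃ (t k : ℕ) (D : Fin t → Submodule F (Fin m ⊕ Fin m → F)),
      IsNondegenerateMDecomposition (Cfsg.sympForm m F) k D ∧ t * k = 2 * m ∧ Even k ∧ 2 ≤ t ∧ 2 ≤ k ∧
      H = decompositionStabilizer D ⊓ Cfsg.spGL m F) ∨
    (Odd (Fintype.card F) ∧ ∃ D : Fin 2 → Submodule F (Fin m ⊕ Fin m → F), IsMDecomposition m D ∧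
      (∀ i, IsTotallySingularFor (Cfsg.sympForm m F) (D i)) ∧ H = decompositionStabilizer D ⊓ Cfsg.spGL m F) ∨
    (∃ (F₀ : Subfield F) (r : ℕ) (P : GL (Fin m ⊕ Fin m) F) (ζ : F), r.Prime ∧
      Fintype.card F = Nat.card F₀ ^ r ∧ ζ ≠ 0 ∧ IsFormRationalStructure (Cfsg.sympForm m F) F₀ ζ P ∧
      H = subfieldSubgroup F₀ P ⊓ Cfsg.spGL m F) ∨
    (∃ (R : Subgroup (GL (Fin m ⊕ Fin m) F)) (p k : ℕ), IsSymplecticTypeGroup 2 R ∧
      ActsAbsolutelyIrreducibly (matrixSet R) ∧ R ≤ similarityGroup (Cfsg.sympForm m F) ∧ p.Prime ∧ Odd p ∧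
      Fintype.card F = p ∧ Nat.card R = 2 ^ (1 + 2 * k) ∧ Nat.card (Subgroup.center R) = 2 ∧
      IsOfMinusType k R ∧ 2 * m = 2 ^ k ∧ H = subgroupNormalizer R ⊓ Cfsg.spGL m F) ∨
    (¬ Odd (Fintype.card F) ∧ ∃ Q : (Fin m ⊕ Fin m → F) → F, IsNondegenerateQuadraticForm Q ∧
      (∀ u v, QuadraticMap.polar Q u v = Cfsg.sympForm m F u v) ∧ H = quadSimilarityGroup Q ⊓ Cfsg.spGL m F) ∨
    (∃ (r : ℕ) (K : Subalgebra F (Matrix (Fin m ⊕ Fin m) (Fin m ⊕ Fin m) F)), r.Prime ∧ r ∣ 2 * m ∧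
      IsFieldSubalgebra r K ∧ IsSelfAdjointFor (Cfsg.sympForm m F) K ∧
      (∀ k ∈ K, ∀ v, Cfsg.sympForm m F (k *ᵥ v) v = 0) ∧ H = subalgebraNormalizer K ⊓ Cfsg.spGL m F) ∨
    (Odd (Fintype.card F) ∧ ∃ K : Subalgebra F (Matrix (Fin m ⊕ Fin m) (Fin m ⊕ Fin m) F),
      IsFieldSubalgebra 2 K ∧ IsAdjointClosedFor (Cfsg.sympForm m F) K ∧
      ¬ IsSelfAdjointFor (Cfsg.sympForm m F) K ∧ H = subalgebraNormalizer K ⊓ Cfsg.spGL m F) ∨
    (∃ (n₁ n₂ : ℕ) (e : (Fin m ⊕ Fin m) ≃ Fin n₁ × Fin n₂) (P : GL (Fin m ⊕ Fin m) F)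
      (f₁ : (Fin n₁ → F) → (Fin n₁ → F) → F) (f₂ : (Fin n₂ → F) → (Fin n₂ → F) → F),
      Odd (Fintype.card F) ∧ 2 ≤ n₁ ∧ 3 ≤ n₂ ∧ n₁ * n₂ = 2 * m ∧ IsSymplecticForm f₁ ∧ IsSymmetricForm f₂ ∧
      IsTensorFormStructure id (Cfsg.sympForm m F) f₁ f₂ e P ∧
      H = tensorProductSubgroup n₁ n₂ e P ⊓ Cfsg.spGL m F) ∨
    (m = 4 ∧ Odd (Fintype.card F) ∧ 5 ≤ Fintype.card F ∧ ∃ (e : (Fin m ⊕ Fin m) ≃ (Fin 3 → Fin 2))
      (P : GL (Fin m ⊕ Fin m) F) (f₁ : (Fin 2 → F) → (Fin 2 → F) → F), IsSymplecticForm f₁ ∧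
      IsTensorPowerFormStructure id (Cfsg.sympForm m F) f₁ e P ∧
      H = tensorWreathSubgroup 2 3 e P ⊓ Cfsg.spGL m F) ∨
    InSymplecticResidualClass H := by
  have hm : 2 ≤ m := by omega
  have hperf := spGL_commutator (F := F) (m := m) (Or.inl hm3)
  haveI : Nonempty (Fin m ⊕ Fin m) := ⟨.inl ⟨0, by omega⟩⟩
  rcases hdich H hH.1.le (sup_scalars_ne_of_perfect hperf hH) with ⟨M, hM, hle⟩ | hres
  swap
  · iterate 11 right
    exact hres
  rcases hM with hM | ⟨r, K, hr, hK, hsa, halt, rfl⟩ | ⟨K, hodd, hK, hac, hns, rfl⟩ |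
    ⟨n₁, n₂, e, P, f₁, f₂, hodd, h2, hf₁, hf₂, hs, rfl⟩ | ⟨k, t, e, P, f₁, hodd, hto, ht, hqk, hf₁, hs, rfl⟩
  · rcases hM with ⟨W, hb, hts, rfl⟩ | ⟨W, hb, hnd, hdim, rfl⟩ | ⟨t, k, D, hD, rfl⟩ | ⟨D, hodd, hD, hts, rfl⟩ |
      ⟨F₀, r, P, ζ, hr, hc, hζ, hrat, rfl⟩ | ⟨R, p, k, hR, hirr, hsim, hp, hpodd, hc, hcard, hZ, hminus, rfl⟩ |
      ⟨Q, hev, hQ, hpol, rfl⟩
    · left
      refine ⟨W, hb, hts, eq_inf_max hH (hle.trans inf_le_left) (spGL_not_le_stabilizer hb fun h => ?_)⟩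
      obtain ⟨x, hx⟩ := exists_sympForm_ne_zero (F := F) (m := m)
        (v := Pi.single (Sum.inl ⟨0, by omega⟩) 1) (by simp)
      exact hx (hts _ (h ▸ Submodule.mem_top) _ (h ▸ Submodule.mem_top))
    · iterate 1 right
      have hev := even_finrank_of_nondegenerateOn hnd
      have hpos : Module.finrank F W ≠ 0 := fun h => hb (Submodule.finrank_eq_zero.mp h)
      refine Or.inl ⟨W, hb, hnd, hdim, by obtain ⟨j, hj⟩ := hev; omega,
        eq_inf_max hH (hle.trans inf_le_left) (spGL_not_le_stabilizer hb fun h => ?_)⟩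
      rw [h, finrank_top, Module.finrank_fintype_fun_eq_card, card_fin_sum] at hdim
      omega
    · iterate 2 right
      have hev : Even k := by
        have := even_finrank_of_nondegenerateOn (hD.nondegenerate ⟨0, by have := hD.decomp.two_le; omega⟩)
        rwa [hD.decomp.finrank_eq] at this
      have hk : 2 ≤ k := by obtain ⟨j, hj⟩ := hev; have := hD.decomp.pos; omega
      exact Or.inl ⟨t, k, D, hD, by rw [MaxSub.mul_eq_card_of_isMDecomposition hD.decomp, card_fin_sum], hev,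
        hD.decomp.two_le, hk, eq_inf_max hH (hle.trans inf_le_left) (spGL_not_le_decompositionStabilizer hD.decomp hk)⟩
    · iterate 3 right
      exact Or.inl ⟨hodd, D, hD, hts, eq_inf_max hH (hle.trans inf_le_left) (spGL_not_le_decompositionStabilizer hD hm)⟩
    · iterate 4 right
      exact Or.inl ⟨F₀, r, P, ζ, hr, hc, hζ, hrat, eq_inf_max hH (hle.trans inf_le_left)
        (spGL_not_le_subfieldSubgroup (by omega) hperf (MaxSub.subfield_ne_top hr hc) P)⟩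
    · iterate 5 right
      exact Or.inl ⟨R, p, k, hR, hirr, hsim, hp, hpodd, hc, hcard, hZ, hminus,
        sympType_degree (by omega) hR hirr hcard hZ, eq_inf_max hH (hle.trans inf_le_left)
          (spGL_not_le_normalizer_of_three_le hm3 hirr (sympType_class_two hR hZ)
            (fun z hz => MaxSub.exists_scalar_of_mem_center hirr hz))⟩
    · iterate 6 right
      exact Or.inl ⟨hev, Q, hQ, hpol, eq_inf_max hH (hle.trans inf_le_left) (spGL_not_le_quadSimilarityGroup hm hpol)⟩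
  · iterate 7 right
    refine Or.inl ⟨r, K, hr, ?_, hK, hsa, halt,
      eq_inf_max hH (hle.trans inf_le_left) (spGL_not_le_subalgebraNormalizer hm hr.one_lt hK)⟩
    have h := MaxSub.degree_dvd_card hK
    rwa [card_fin_sum] at h
  · iterate 8 right
    exact Or.inl ⟨hodd, K, hK, hac, hns,
      eq_inf_max hH (hle.trans inf_le_left) (spGL_not_le_subalgebraNormalizer hm one_lt_two hK)⟩
  · iterate 9 right
    have hn : n₁ * n₂ = 2 * m := by
      rw [← card_fin_sum, Fintype.card_congr e, Fintype.card_prod, Fintype.card_fin, Fintype.card_fin]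
    have h1 : 2 ≤ n₁ := one_lt_of_symplecticForm (Nat.pos_of_ne_zero fun h => by rw [h, zero_mul] at hn; omega) hf₁
    exact Or.inl ⟨n₁, n₂, e, P, f₁, f₂, hodd, h1, h2, hn, hf₁, hf₂, hs,
      eq_inf_max hH (hle.trans inf_le_left) (spGL_not_le_tensorProductSubgroup (by omega) h1 (by omega) e P)⟩
  · iterate 10 right
    have hn : k ^ t = 2 * m := by rw [← card_fin_sum, Fintype.card_congr e]; simp
    have hk : 2 ≤ k := one_lt_of_symplecticForm
      (Nat.pos_of_ne_zero fun h => by rw [h, zero_pow (by omega)] at hn; omega) hf₁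
    obtain rfl : t = 3 := by
      by_contra hne
      have : 2 ^ 4 ≤ k ^ t := (Nat.pow_le_pow_left hk 4).trans (Nat.pow_le_pow_right (by omega) (by omega))
      omega
    obtain rfl : k = 2 := by
      by_contra hne
      have : 3 ^ 3 ≤ k ^ 3 := Nat.pow_le_pow_left (by omega) 3
      omega
    have h5 : 5 ≤ Fintype.card F := by
      have h1 := Fintype.one_lt_card (α := F)
      have h2 : Fintype.card F ≠ 3 := fun h => hqk ⟨h, rfl⟩
      rw [Nat.odd_iff] at hodd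
      omega
    exact Or.inl ⟨by omega, hodd, h5, e, P, f₁, hf₁, hs, eq_inf_max hH (hle.trans inf_le_left)
      (spGL_not_le_tensorWreath hm3 le_rfl (Or.inr rfl) e P)⟩

end Symplectic

end Cfsg.Agent.MaxSub
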