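import Cfsg.Agent.GeoClasses.OrthNondegOdd
import Cfsg.Agent.GeoClasses.OrthParabolic
import Cfsg.Agent.GeoClasses.OrthSubfield
import Cfsg.Agent.DecompMax.FrameMax
import Cfsg.Agent.NotMax.OrthSingular
import Cfsg.Agent.DecompMax.OrthMat
import Cfsg.Agent.MaxSub.OrthExtNine.Matrices

/-!
The geometric list in `Ω₉(q)`, given the tensor square clause.
-/

set_option autoImplicit false

namespace Cfsg.Agent.MaxSub

theorem omega9_geometric_of_tensor {F : Type*} [Field F] [Fintype F] (hodd : Odd (Fintype.card F))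
    (h7 : (5 ≤ Fintype.card F → ∀ (e : (Unit ⊕ (Fin 4 ⊕ Fin 4)) ≃ (Fin 2 → Fin 3)) (P : Matrix.GeneralLinearGroup (Unit ⊕ (Fin 4 ⊕ Fin 4)) F) (f₁ : (Fin 3 → F) → (Fin 3 → F) → F), Cfsg.Geo.IsSymmetricForm f₁ → Cfsg.Geo.IsTensorPowerFormStructure id (QuadraticMap.polar (Cfsg.quadFormOdd 4 F)) f₁ e P → Cfsg.Geo.IsMaximalIn (Cfsg.Geo.omegaGL (Cfsg.quadFormOdd 4 F)) (Cfsg.Geo.tensorWreathSubgroup 3 2 e P ⊓ Cfsg.Geo.omegaGL (Cfsg.quadFormOdd 4 F)))) :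
    (∀ W : Submodule F (Unit ⊕ (Fin 4 ⊕ Fin 4) → F), W ≠ ⊥ → Cfsg.Geo.IsTotallySingularQuad (Cfsg.quadFormOdd 4 F) W → Cfsg.Geo.IsMaximalIn (Cfsg.Geo.omegaGL (Cfsg.quadFormOdd 4 F)) (Cfsg.Geo.subspaceStabilizer W ⊓ Cfsg.Geo.omegaGL (Cfsg.quadFormOdd 4 F))) ∧
    (∀ W : Submodule F (Unit ⊕ (Fin 4 ⊕ Fin 4) → F), W ≠ ⊥ → Even (Module.finrank F W) → Cfsg.Geo.IsNondegenerateOn (QuadraticMap.polar (Cfsg.quadFormOdd 4 F)) W → ¬ (Fintype.card F = 3 ∧ Module.finrank F W = 2 ∧ Cfsg.Geo.IsPlusTypeOn (Cfsg.quadFormOdd 4 F) W) → Cfsg.Geo.IsMaximalIn (Cfsg.Geo.omegaGL (Cfsg.quadFormOdd 4 F)) (Cfsg.Geo.subspaceStabilizer W ⊓ Cfsg.Geo.omegaGL (Cfsg.quadFormOdd 4 F))) ∧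
    ((Fintype.card F).Prime → ∀ D : Fin 9 → Submodule F (Unit ⊕ (Fin 4 ⊕ Fin 4) → F), Cfsg.Geo.IsOrthogonalMDecomposition (Cfsg.quadFormOdd 4 F) 1 D → Cfsg.Geo.IsMaximalIn (Cfsg.Geo.omegaGL (Cfsg.quadFormOdd 4 F)) (Cfsg.Geo.decompositionStabilizer D ⊓ Cfsg.Geo.omegaGL (Cfsg.quadFormOdd 4 F))) ∧
    (5 ≤ Fintype.card F → ∀ D : Fin 3 → Submodule F (Unit ⊕ (Fin 4 ⊕ Fin 4) → F), Cfsg.Geo.IsOrthogonalMDecomposition (Cfsg.quadFormOdd 4 F) 3 D → Cfsg.Geo.IsMaximalIn (Cfsg.Geo.omegaGL (Cfsg.quadFormOdd 4 F)) (Cfsg.Geo.decompositionStabilizer D ⊓ Cfsg.Geo.omegaGL (Cfsg.quadFormOdd 4 F))) ∧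
    (∀ K : Subalgebra F (Matrix (Unit ⊕ (Fin 4 ⊕ Fin 4)) (Unit ⊕ (Fin 4 ⊕ Fin 4)) F), Cfsg.Geo.IsFieldSubalgebra 3 K → Cfsg.Geo.IsSelfAdjointFor (QuadraticMap.polar (Cfsg.quadFormOdd 4 F)) K → Cfsg.Geo.IsMaximalIn (Cfsg.Geo.omegaGL (Cfsg.quadFormOdd 4 F)) (Cfsg.Geo.subalgebraNormalizer K ⊓ Cfsg.Geo.omegaGL (Cfsg.quadFormOdd 4 F))) ∧
    (∀ (F₀ : Subfield F) (r : ℕ) (P : Matrix.GeneralLinearGroup (Unit ⊕ (Fin 4 ⊕ Fin 4)) F), r.Prime → Fintype.card F = Nat.card F₀ ^ r → Cfsg.Geo.IsQuadFormRationalStructure (Cfsg.quadFormOdd 4 F) F₀ P → Cfsg.Geo.IsMaximalIn (Cfsg.Geo.omegaGL (Cfsg.quadFormOdd 4 F)) (Cfsg.Geo.subfieldSubgroup F₀ P ⊓ Cfsg.Geo.omegaGL (Cfsg.quadFormOdd 4 F))) ∧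
    (5 ≤ Fintype.card F → ∀ (e : (Unit ⊕ (Fin 4 ⊕ Fin 4)) ≃ (Fin 2 → Fin 3)) (P : Matrix.GeneralLinearGroup (Unit ⊕ (Fin 4 ⊕ Fin 4)) F) (f₁ : (Fin 3 → F) → (Fin 3 → F) → F), Cfsg.Geo.IsSymmetricForm f₁ → Cfsg.Geo.IsTensorPowerFormStructure id (QuadraticMap.polar (Cfsg.quadFormOdd 4 F)) f₁ e P → Cfsg.Geo.IsMaximalIn (Cfsg.Geo.omegaGL (Cfsg.quadFormOdd 4 F)) (Cfsg.Geo.tensorWreathSubgroup 3 2 e P ⊓ Cfsg.Geo.omegaGL (Cfsg.quadFormOdd 4 F)))  := by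
  have h2 : (2 : F) ≠ 0 := Cfsg.Agent.Classical.two_ne_zero_of_odd
    (by rwa [Nat.card_eq_fintype_card])
  have hQ := Cfsg.Agent.NotMax.nondegenerate_quadFormOdd (m := 4) h2
  have hc : Fintype.card (Unit ⊕ (Fin 4 ⊕ Fin 4)) = 9 := by
    simp only [Fintype.card_sum, Fintype.card_unit, Fintype.card_fin]
  refine ⟨fun W hW0 hW => ?_, fun W hW0 hev hW hex => ?_, fun hp D hD => ?_,
    fun hq D hD => ?_, fun K hK hsa => ?_, fun F₀ r P hr hcard hP => ?_,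
    fun hq e P f₁ hf₁ hT => ?_⟩
  · exact GeoClasses.omegaGL_parabolic_maximal hQ (by rw [hc]; norm_num) hW0 hW
      (Or.inl (by rw [hc]; omega))
  · refine GeoClasses.OddNondeg.omegaGL_nondeg_maximal hQ hodd (by rw [hc]; norm_num) hW0 ?_ hW
      (Or.inl (by rw [hc]; omega)) ?_
    · rintro rfl
      rw [finrank_top, Module.finrank_pi, hc] at hev
      exact absurd hev (by decide)
    · rintro ⟨hq, U, hU, -, hplus, rfl | ⟨-, hUW⟩⟩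
      · obtain ⟨r, hr⟩ := hodd
        exact hex ⟨by have := Fintype.one_lt_card (α := F); omega, hU, hplus⟩
      · obtain ⟨k, hk⟩ := hev
        omega
  · exact DecompMax.OF.frame_maximal h2 (by rwa [Nat.card_eq_fintype_card]) hQ
      (by rw [hc]; norm_num) (fun h => absurd h (by rw [hc]; decide)) hD
  · exact DecompMax.omegaGL_decomposition_maximal_nine hQ (by rw [hc]) hD le_rfl
      (fun h => by omega) (fun h => absurd h (by decide))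
  · exact OrthExtNine.omega_extField_nine_maximal hc hodd hQ K hK hsa
  · exact GeoClasses.omegaGL_subfield_maximal hQ (by rw [hc]; norm_num) hr hcard P hP
  · exact h7 hq e P f₁ hf₁ hT

end Cfsg.Agent.MaxSub
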