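import Cfsg.Agent.MaxSub.FormShapes
import Cfsg.Agent.ClassicalMax.SympExceptions

/-!
A tensor member `Sp_2 ⊗ O_4^+` of `Sp_8` lies in the tensor-power member `Sp_2 ⊗ Sp_2 ⊗ Sp_2`,
so it is not maximal.
-/

set_option autoImplicit false
set_option linter.style.haveILetI false

namespace Cfsg.Agent.MaxSub

open Matrix Cfsg.Geo Cfsg.Agent.ClassicalMax Cfsg.Agent.Forms
open scoped MatrixGroups Matrix Kronecker

variable {F : Type*} [Field F]

theorem exists_first_col {u : Fin 2 → F} (hu : u ≠ 0) :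
    ∃ A : Matrix (Fin 2) (Fin 2) F, A.det ≠ 0 ∧ ∀ i, A i 0 = u i := by
  by_cases h : u 0 = 0
  · refine ⟨!![u 0, 1; u 1, 0], ?_, fun i => by fin_cases i <;> rfl⟩
    have h1 : u 1 ≠ 0 := fun h1 => hu (funext fun i => by fin_cases i <;> assumption)
    simp [Matrix.det_fin_two, h1]
  · exact ⟨!![u 0, 0; u 1, 1], by simp [Matrix.det_fin_two, h], fun i => by fin_cases i <;> rfl⟩

/-- A matrix of rank one is equivalent to the first unit. -/
theorem exists_rank_one {Y : Matrix (Fin 2) (Fin 2) F} (hY : Y ≠ 0) (hd : Y.det = 0) :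
    ∃ A B : Matrix (Fin 2) (Fin 2) F, A.det ≠ 0 ∧ B.det ≠ 0 ∧ A * !![1, 0; 0, 0] * B = Y := by
  rw [Matrix.det_fin_two] at hd
  obtain ⟨u, v, huv⟩ : ∃ u v : Fin 2 → F, ∀ i j, Y i j = u i * v j := by
    by_cases h0 : Y 0 0 ≠ 0
    · refine ⟨![Y 0 0, Y 1 0], ![1, Y 0 1 / Y 0 0], fun i j => ?_⟩
      fin_cases i <;> fin_cases j <;> simp <;> field_simp
      linear_combination hd
    push Not at h0
    rw [h0, zero_mul, zero_sub, neg_eq_zero] at hd
    rcases mul_eq_zero.mp hd with h | h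
    · exact ⟨![0, 1], ![Y 1 0, Y 1 1], fun i j => by fin_cases i <;> fin_cases j <;> simp [h0, h]⟩
    · exact ⟨![Y 0 1, Y 1 1], ![0, 1], fun i j => by fin_cases i <;> fin_cases j <;> simp [h0, h]⟩
  have hu : u ≠ 0 := fun h => hY (Matrix.ext fun i j => by simp [huv, h])
  have hv : v ≠ 0 := fun h => hY (Matrix.ext fun i j => by simp [huv, h])
  obtain ⟨A, hA, hA0⟩ := exists_first_col hu
  obtain ⟨B, hB, hB0⟩ := exists_first_col hv
  refine ⟨A, Bᵀ, hA, by rwa [Matrix.det_transpose], ?_⟩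
  ext i j
  rw [huv, ← hA0, ← hB0]
  simp [Matrix.mul_apply]

/-- A linear map of the `2 × 2` matrices scaling the determinant is `X ↦ A X B` or `X ↦ A Xᵀ B`. -/
theorem det_similitude_cases (φ : Matrix (Fin 2) (Fin 2) F →ₗ[F] Matrix (Fin 2) (Fin 2) F)
    (hφ : Function.Injective φ) {μ : F} (hμ : μ ≠ 0) (h : ∀ X, (φ X).det = μ * X.det) :
    ∃ A B : Matrix (Fin 2) (Fin 2) F, A.det ≠ 0 ∧ B.det ≠ 0 ∧
      ((∀ X, φ X = A * X * B) ∨ (∀ X, φ X = A * Xᵀ * B)) := by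
  set E : Matrix (Fin 2) (Fin 2) F := !![1, 0; 0, 0] with hE
  have hE0 : φ E ≠ 0 := fun h0 => by
    have := congrFun (congrFun (hφ (h0.trans (map_zero φ).symm)) 0) 0
    simp [hE] at this
  obtain ⟨A₀, B₀, hA₀, hB₀, hAB⟩ := exists_rank_one hE0 (by rw [h]; simp [hE, Matrix.det_fin_two])
  have iA : A₀⁻¹ * A₀ = 1 := Matrix.nonsing_inv_mul _ (isUnit_iff_ne_zero.mpr hA₀)
  have iA' : A₀ * A₀⁻¹ = 1 := Matrix.mul_nonsing_inv _ (isUnit_iff_ne_zero.mpr hA₀)
  have iB : B₀ * B₀⁻¹ = 1 := Matrix.mul_nonsing_inv _ (isUnit_iff_ne_zero.mpr hB₀)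
  have iB' : B₀⁻¹ * B₀ = 1 := Matrix.nonsing_inv_mul _ (isUnit_iff_ne_zero.mpr hB₀)
  let ψ : Matrix (Fin 2) (Fin 2) F →ₗ[F] Matrix (Fin 2) (Fin 2) F :=
    (LinearMap.mulRight F B₀⁻¹).comp ((LinearMap.mulLeft F A₀⁻¹).comp φ)
  have hψ : ∀ X, ψ X = A₀⁻¹ * φ X * B₀⁻¹ := fun X => rfl
  have hback : ∀ X, φ X = A₀ * ψ X * B₀ := fun X => by
    rw [hψ]
    calc φ X = (A₀ * A₀⁻¹) * φ X * (B₀⁻¹ * B₀) := by rw [iA', iB', one_mul, mul_one]
      _ = _ := by simp only [mul_assoc]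
  have hψE : ψ E = E := by
    rw [hψ, ← hAB]
    calc A₀⁻¹ * (A₀ * E * B₀) * B₀⁻¹ = (A₀⁻¹ * A₀) * E * (B₀ * B₀⁻¹) := by simp only [mul_assoc]
      _ = E := by rw [iA, iB, one_mul, mul_one]
  set ν := (A₀⁻¹).det * μ * (B₀⁻¹).det with hν
  have hν0 : ν ≠ 0 := mul_ne_zero (mul_ne_zero (fun e => by
    have := congrArg Matrix.det iA; simp [Matrix.det_mul, e] at this) hμ) (fun e => by
    have := congrArg Matrix.det iB; simp [Matrix.det_mul, e] at this)
  have hd : ∀ X, (ψ X).det = ν * X.det := fun X => by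
    rw [hψ, Matrix.det_mul, Matrix.det_mul, h, hν]; ring
  set a := ψ !![0, 1; 0, 0] with ha
  set c := ψ !![0, 0; 1, 0] with hc
  set y := ψ !![0, 0; 0, 1] with hy
  have hexp : ∀ X : Matrix (Fin 2) (Fin 2) F, ψ X = X 0 0 • E + X 0 1 • a + X 1 0 • c + X 1 1 • y := by
    intro X
    have hX : X = X 0 0 • E + X 0 1 • !![0, 1; 0, 0] + X 1 0 • !![0, 0; 1, 0] + X 1 1 • !![0, 0; 0, 1] := by
      ext i j
      fin_cases i <;> fin_cases j <;> simp [hE]
    conv_lhs => rw [hX]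
    simp only [map_add, map_smul, hψE, ← ha, ← hc, ← hy]
  have hdd : ∀ x₀ x₁ x₂ x₃ : F,
      (x₀ + x₁ * a 0 0 + x₂ * c 0 0 + x₃ * y 0 0) * (x₁ * a 1 1 + x₂ * c 1 1 + x₃ * y 1 1) -
      (x₁ * a 0 1 + x₂ * c 0 1 + x₃ * y 0 1) * (x₁ * a 1 0 + x₂ * c 1 0 + x₃ * y 1 0) =
      ν * (x₀ * x₃ - x₁ * x₂) := by
    intro x₀ x₁ x₂ x₃
    have := hd !![x₀, x₁; x₂, x₃]
    rw [hexp, Matrix.det_fin_two, Matrix.det_fin_two] at this
    simpa [hE] using this
  have a11 : a 1 1 = 0 := by linear_combination hdd 1 1 0 0 - hdd 0 1 0 0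
  have c11 : c 1 1 = 0 := by linear_combination hdd 1 0 1 0 - hdd 0 0 1 0
  have y11 : y 1 1 = ν := by linear_combination hdd 1 0 0 1 - hdd 0 0 0 1
  have haa : a 0 1 * a 1 0 = 0 := by linear_combination a 0 0 * a11 - hdd 0 1 0 0
  have hcc : c 0 1 * c 1 0 = 0 := by linear_combination c 0 0 * c11 - hdd 0 0 1 0
  have hac : a 0 1 * c 1 0 + a 1 0 * c 0 1 = ν := by
    linear_combination (a 0 0 + c 0 0) * a11 + (a 0 0 + c 0 0) * c11 - hdd 0 1 1 0 - haa - hcc
  have hyy : y 0 0 * ν - y 0 1 * y 1 0 = 0 := by linear_combination hdd 0 0 0 1 - y 0 0 * y11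
  have hay : a 0 0 * ν - a 0 1 * y 1 0 - y 0 1 * a 1 0 = 0 := by
    linear_combination hdd 0 1 0 1 - (a 0 0 + y 0 0) * a11 - (a 0 0 + y 0 0) * y11 + haa - hyy
  have hcy : c 0 0 * ν - c 0 1 * y 1 0 - y 0 1 * c 1 0 = 0 := by
    linear_combination hdd 0 0 1 1 - (c 0 0 + y 0 0) * c11 - (c 0 0 + y 0 0) * y11 + hcc - hyy
  suffices hcore : ∃ A B : Matrix (Fin 2) (Fin 2) F, A.det ≠ 0 ∧ B.det ≠ 0 ∧
      ((∀ X, ψ X = A * X * B) ∨ (∀ X, ψ X = A * Xᵀ * B)) by
    obtain ⟨A, B, hA, hB, hAB'⟩ := hcore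
    refine ⟨A₀ * A, B * B₀, by rw [Matrix.det_mul]; exact mul_ne_zero hA₀ hA,
      by rw [Matrix.det_mul]; exact mul_ne_zero hB hB₀, ?_⟩
    rcases hAB' with h' | h'
    · exact Or.inl fun X => by rw [hback, h']; simp only [mul_assoc]
    · exact Or.inr fun X => by rw [hback, h']; simp only [mul_assoc]
  rcases mul_eq_zero.mp haa with a01 | a10
  · have hne : a 1 0 * c 0 1 ≠ 0 := by rw [a01, zero_mul, zero_add] at hac; rw [hac]; exact hν0
    have c10 : c 1 0 = 0 := (mul_eq_zero.mp hcc).resolve_left (right_ne_zero_of_mul hne)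
    have y01 : y 0 1 = a 0 0 * c 0 1 := mul_right_cancel₀ (left_ne_zero_of_mul hne) (by
      linear_combination -hay - a 0 0 * hac + a 0 0 * c 1 0 * a01 - y 1 0 * a01)
    have y10 : y 1 0 = a 1 0 * c 0 0 := mul_left_cancel₀ (right_ne_zero_of_mul hne) (by
      linear_combination -hcy - c 0 0 * hac + c 0 0 * c 1 0 * a01 - y 0 1 * c10)
    have y11' : y 1 1 = a 1 0 * c 0 1 := by rw [y11, ← hac, a01]; ring
    have y00 : y 0 0 = a 0 0 * c 0 0 := mul_right_cancel₀ hν0 (by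
      linear_combination hyy + a 0 0 * c 0 0 * hac - a 0 0 * c 0 0 * c 1 0 * a01 + y 1 0 * y01
        + a 0 0 * c 0 1 * y10)
    refine ⟨!![1, a 0 0; 0, a 1 0], !![1, 0; c 0 0, c 0 1],
      by simpa [Matrix.det_fin_two] using left_ne_zero_of_mul hne,
      by simpa [Matrix.det_fin_two] using right_ne_zero_of_mul hne, Or.inr fun X => ?_⟩
    rw [hexp]
    ext i j
    fin_cases i <;> fin_cases j <;>
      simp [hE, Matrix.mul_apply, Matrix.vecMul, dotProduct, Fin.sum_univ_two, a01, a11, c10, c11, y00, y01, y10, y11'] <;> ring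
  · have hne : a 0 1 * c 1 0 ≠ 0 := by rw [a10, zero_mul, add_zero] at hac; rw [hac]; exact hν0
    have c01 : c 0 1 = 0 := (mul_eq_zero.mp hcc).resolve_right (right_ne_zero_of_mul hne)
    have y10 : y 1 0 = a 0 0 * c 1 0 := mul_left_cancel₀ (left_ne_zero_of_mul hne) (by
      linear_combination -hay - a 0 0 * hac + a 0 0 * c 0 1 * a10 - y 0 1 * a10)
    have y01 : y 0 1 = a 0 1 * c 0 0 := mul_right_cancel₀ (right_ne_zero_of_mul hne) (by
      linear_combination -hcy - c 0 0 * hac + c 0 0 * c 0 1 * a10 - y 1 0 * c01)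
    have y11' : y 1 1 = a 0 1 * c 1 0 := by rw [y11, ← hac, a10]; ring
    have y00 : y 0 0 = a 0 0 * c 0 0 := mul_right_cancel₀ hν0 (by
      linear_combination hyy + a 0 0 * c 0 0 * hac - a 0 0 * c 0 0 * c 0 1 * a10 + y 1 0 * y01
        + a 0 1 * c 0 0 * y10)
    refine ⟨!![1, c 0 0; 0, c 1 0], !![1, 0; a 0 0, a 0 1],
      by simpa [Matrix.det_fin_two] using right_ne_zero_of_mul hne,
      by simpa [Matrix.det_fin_two] using left_ne_zero_of_mul hne, Or.inl fun X => ?_⟩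
    rw [hexp]
    ext i j
    fin_cases i <;> fin_cases j <;>
      simp [hE, Matrix.mul_apply, Matrix.vecMul, dotProduct, Fin.sum_univ_two, a10, a11, c01, c11, y00, y01, y10, y11'] <;> ring

/-- The alternating form of the plane. -/
def jj : Matrix (Fin 2) (Fin 2) F := !![0, 1; -1, 0]

/-- A four-dimensional symmetric form of plus type is `J ⊗ J` in a suitable basis. -/
theorem exists_plus_frame (h2 : (2 : F) ≠ 0) {f : (Fin 4 → F) → (Fin 4 → F) → F} (hf : IsSymmetricForm f)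
    (hplus : IsPlusTypeOn (fun v : Fin 4 → F => f v v) ⊤) :
    ∃ v : Fin 2 × Fin 2 → (Fin 4 → F),
      (∀ p q, f (v p) (v q) = jj p.1 q.1 * jj p.2 q.2) ∧ LinearIndependent F v := by
  obtain ⟨U, -, hQ, hU⟩ := hplus
  rw [finrank_top, Module.finrank_fintype_fun_eq_card, Fintype.card_fin] at hU
  have hU2 : Module.finrank F U = 2 := by omega
  let b := Module.finBasisOfFinrankEq F U hU2
  set u : Fin 2 → (Fin 4 → F) := fun i => (b i : Fin 4 → F) with hu
  let B : LinearMap.BilinForm F (Fin 4 → F) :=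
    LinearMap.mk₂ F f hf.bilinear.add_left hf.bilinear.smul_left hf.bilinear.add_right hf.bilinear.smul_right
  have hBs : ∀ x y, B x y = B y x := fun x y => hf.symm x y
  have hUU : ∀ i j, B (u i) (u j) = 0 := by
    intro i j
    have h1 : B (u i) (u i) = 0 := hQ _ (b i).2
    have h3 : B (u j) (u j) = 0 := hQ _ (b j).2
    have h4 : B (u i + u j) (u i + u j) = 0 := hQ _ (U.add_mem (b i).2 (b j).2)
    simp only [map_add, LinearMap.add_apply, h1, h3, hBs (u j) (u i)] at h4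
    exact (mul_eq_zero.mp (show (2 : F) * B (u i) (u j) = 0 by linear_combination h4)).resolve_left h2
  let θ : (Fin 4 → F) →ₗ[F] F × F := (B.flip (u 0)).prod (B.flip (u 1))
  have hθ : ∀ x, θ x = (B x (u 0), B x (u 1)) := fun x => rfl
  have hsurj : Function.Surjective θ := by
    rw [← LinearMap.range_eq_top]
    by_contra hne
    obtain ⟨g, hg0, hg⟩ := Submodule.exists_le_ker_of_lt_top _ (lt_top_iff_ne_top.mpr hne)
    set z := g (1, 0) • u 0 + g (0, 1) • u 1 with hz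
    have hz0 : ∀ x, f x z = 0 := fun x => by
      have h0 := hg ⟨x, rfl⟩
      rw [LinearMap.mem_ker, hθ] at h0
      have he : ((B x (u 0), B x (u 1)) : F × F) = B x (u 0) • (1, 0) + B x (u 1) • (0, 1) := by simp
      rw [he, map_add, map_smul, map_smul, smul_eq_mul, smul_eq_mul] at h0
      show B x z = 0
      rw [hz, map_add, map_smul, map_smul, smul_eq_mul, smul_eq_mul]
      linear_combination h0
    have hzero : z = 0 := by
      by_contra hne'
      obtain ⟨⟨x, hx⟩, -⟩ := hf.nondegenerate z hne'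
      exact hx (hz0 x)
    have hli := Fintype.linearIndependent_iff.mp b.linearIndependent ![g (1, 0), g (0, 1)] (by
      apply Subtype.ext
      simpa [Fin.sum_univ_two] using hzero)
    apply hg0
    refine LinearMap.ext fun p => ?_
    have he : p = p.1 • ((1, 0) : F × F) + p.2 • ((0, 1) : F × F) := by ext <;> simp
    rw [he, map_add, map_smul, map_smul, show g (1, 0) = 0 from hli 0, show g (0, 1) = 0 from hli 1]
    simp
  obtain ⟨x₀, hx₀⟩ := hsurj (1, 0)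
  obtain ⟨x₁, hx₁⟩ := hsurj (0, 1)
  rw [hθ, Prod.mk.injEq] at hx₀ hx₁
  obtain ⟨h00, h01⟩ := hx₀
  obtain ⟨h10, h11⟩ := hx₁
  set w₀ := x₀ - (B x₀ x₀ / 2) • u 0 with hw₀
  have e00 : B w₀ (u 0) = 1 := by simp [hw₀, h00, hUU]
  have e01 : B w₀ (u 1) = 0 := by simp [hw₀, h01, hUU]
  have eww : B w₀ w₀ = 0 := by
    simp only [hw₀, map_sub, map_smul, LinearMap.sub_apply, LinearMap.smul_apply, smul_eq_mul, hUU,
      hBs (u 0) x₀, h00]
    field_simp
    ring
  set y₁ := x₁ - B x₁ w₀ • u 0 with hy₁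
  have e10' : B y₁ (u 0) = 0 := by simp [hy₁, h10, hUU]
  have e11' : B y₁ (u 1) = 1 := by simp [hy₁, h11, hUU]
  have eyw : B y₁ w₀ = 0 := by simp [hy₁, hBs (u 0) w₀, e00]
  set w₁ := y₁ - (B y₁ y₁ / 2) • u 1 with hw₁
  have e10 : B w₁ (u 0) = 0 := by simp [hw₁, e10', hUU]
  have e11 : B w₁ (u 1) = 1 := by simp [hw₁, e11', hUU]
  have e1w : B w₁ w₀ = 0 := by simp [hw₁, eyw, hBs (u 1) w₀, e01]
  have e11w : B w₁ w₁ = 0 := by
    simp only [hw₁, map_sub, map_smul, LinearMap.sub_apply, LinearMap.smul_apply, smul_eq_mul, hUU,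
      hBs (u 1) y₁, e11']
    field_simp
    ring
  let v : Fin 2 × Fin 2 → (Fin 4 → F) := fun p =>
    if p.1 = 0 then (if p.2 = 0 then u 0 else u 1) else (if p.2 = 0 then -w₁ else w₀)
  have hv : ∀ p q, B (v p) (v q) = jj p.1 q.1 * jj p.2 q.2 := by
    rintro ⟨i, j⟩ ⟨k, l⟩
    fin_cases i <;> fin_cases j <;> fin_cases k <;> fin_cases l <;>
      simp [v, jj, hUU, e00, e01, eww, e10, e11, e1w, e11w, hBs (u 0) w₀, hBs (u 1) w₀, hBs (u 0) w₁,
        hBs (u 1) w₁, hBs w₀ w₁]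
  refine ⟨v, hv, ?_⟩
  rw [Fintype.linearIndependent_iff]
  intro s hs p
  have h' := congrArg (fun x => B x (v (p.1 + 1, p.2 + 1))) hs
  simp only [map_sum, map_smul, LinearMap.sum_apply, LinearMap.smul_apply, smul_eq_mul, hv, map_zero,
    LinearMap.zero_apply] at h'
  obtain ⟨i, j⟩ := p
  fin_cases i <;> fin_cases j <;> simpa [Fintype.sum_prod_type, jj] using h'

/-- `Sp_2 ⊗ O_4^+` is not maximal in `Sp_8`. -/
theorem plus_tensor_not_maximal [Fintype F] {m : ℕ} (hm3 : 3 ≤ m) (hodd : Odd (Fintype.card F))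
    {H : Subgroup (GL (Fin m ⊕ Fin m) F)} (hH : IsMaximalIn (Cfsg.spGL m F) H)
    (e : (Fin m ⊕ Fin m) ≃ Fin 2 × Fin 4) (P : GL (Fin m ⊕ Fin m) F)
    {f₁ : (Fin 2 → F) → (Fin 2 → F) → F} {f₂ : (Fin 4 → F) → (Fin 4 → F) → F}
    (hf₁ : IsSymplecticForm f₁) (hf₂ : IsSymmetricForm f₂)
    (hplus : IsPlusTypeOn (fun v : Fin 4 → F => f₂ v v) ⊤)
    (hs : IsTensorFormStructure id (Cfsg.sympForm m F) f₁ f₂ e P)
    (he : H = tensorProductSubgroup 2 4 e P ⊓ Cfsg.spGL m F) : False := by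
  classical
  have h2 : (2 : F) ≠ 0 := Ring.two_ne_zero fun h2 => by
    have := FiniteField.even_card_iff_char_two.1 h2
    rw [Nat.odd_iff] at hodd; omega
  obtain ⟨c, hc, hform⟩ := hs
  obtain ⟨v, hv, hli⟩ := exists_plus_frame h2 hf₂ hplus
  let τ : Fin 2 × Fin 2 ≃ Fin 4 := finProdFinEquiv
  -- the change of basis
  let Tm : Matrix (Fin 4) (Fin 4) F := Matrix.of fun i j => v (τ.symm j) i
  have hTcol : ∀ p, Tm *ᵥ Pi.single (τ p) 1 = v p := fun p => by ext i; simp [Tm]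
  have hTdet : Tm.det ≠ 0 := by
    have h1 : LinearIndependent F Tm.col := hli.comp τ.symm τ.symm.injective
    exact ((Matrix.isUnit_iff_isUnit_det Tm).mp (Matrix.linearIndependent_cols_iff_isUnit.mp h1)).ne_zero
  let T : GL (Fin 4) F := GeneralLinearGroup.mkOfDetNeZero Tm hTdet
  have hTv : ∀ p, (T : Matrix (Fin 4) (Fin 4) F) *ᵥ Pi.single (τ p) 1 = v p := hTcol
  let K : GL (Fin 2 × Fin 4) F :=
    ⟨(1 : Matrix (Fin 2) (Fin 2) F) ⊗ₖ (T : Matrix (Fin 4) (Fin 4) F),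
      (1 : Matrix (Fin 2) (Fin 2) F) ⊗ₖ ((T⁻¹ : GL (Fin 4) F) : Matrix (Fin 4) (Fin 4) F),
      by rw [← Matrix.mul_kronecker_mul, one_mul, ← Units.val_mul, mul_inv_cancel, Units.val_one, Matrix.one_kronecker_one],
      by rw [← Matrix.mul_kronecker_mul, one_mul, ← Units.val_mul, inv_mul_cancel, Units.val_one, Matrix.one_kronecker_one]⟩
  let s : (Fin 3 → Fin 2) ≃ Fin 2 × Fin 4 :=
    (Fin.consEquiv fun _ => Fin 2).symm.trans
      ((Equiv.refl _).prodCongr ((piFinTwoEquiv fun _ => Fin 2).trans τ))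
  have hs' : ∀ x, s x = (x 0, τ (x 1, x 2)) := fun x => rfl
  set e' := e.trans s.symm
  set P' := P * glReindex e.symm K
  -- images of Kronecker elements
  have hmove : ∀ k : GL (Fin 2 × Fin 4) F,
      P' * glReindex e'.symm (glReindex s.symm (K⁻¹ * k * K)) * P'⁻¹ = P * glReindex e.symm k * P⁻¹ := by
    intro k
    have : ∀ z : GL (Fin 2 × Fin 4) F, glReindex e'.symm (glReindex s.symm z) = glReindex e.symm z := fun z => by
      apply Units.ext
      ext i j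
      simp [glReindex, e']
    rw [this]
    simp only [P', map_mul, map_inv, _root_.mul_inv_rev]
    group
  have hentry : ∀ (a : GL (Fin 2) F) (b : GL (Fin 4) F) (k : GL (Fin 2 × Fin 4) F),
      (k : Matrix (Fin 2 × Fin 4) (Fin 2 × Fin 4) F) = (a : Matrix (Fin 2) (Fin 2) F) ⊗ₖ (b : Matrix (Fin 4) (Fin 4) F) →
      ∀ x y : Fin 3 → Fin 2,
      (glReindex s.symm (K⁻¹ * k * K) : Matrix (Fin 3 → Fin 2) (Fin 3 → Fin 2) F) x y =
        (a : Matrix (Fin 2) (Fin 2) F) (x 0) (y 0) *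
          ((T⁻¹ * b * T : GL (Fin 4) F) : Matrix (Fin 4) (Fin 4) F) (τ (x 1, x 2)) (τ (y 1, y 2)) := by
    intro a b k hk x y
    have : ((K⁻¹ * k * K : GL (Fin 2 × Fin 4) F) : Matrix (Fin 2 × Fin 4) (Fin 2 × Fin 4) F) =
        (a : Matrix (Fin 2) (Fin 2) F) ⊗ₖ ((T⁻¹ * b * T : GL (Fin 4) F) : Matrix (Fin 4) (Fin 4) F) := by
      rw [Units.val_mul, Units.val_mul, hk,
        show ((K⁻¹ : GL (Fin 2 × Fin 4) F) : Matrix (Fin 2 × Fin 4) (Fin 2 × Fin 4) F) =
          (1 : Matrix (Fin 2) (Fin 2) F) ⊗ₖ ((T⁻¹ : GL (Fin 4) F) : Matrix (Fin 4) (Fin 4) F) from rfl,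
        show (K : Matrix (Fin 2 × Fin 4) (Fin 2 × Fin 4) F) =
          (1 : Matrix (Fin 2) (Fin 2) F) ⊗ₖ (T : Matrix (Fin 4) (Fin 4) F) from rfl,
        ← Matrix.mul_kronecker_mul, ← Matrix.mul_kronecker_mul, one_mul, mul_one, Units.val_mul, Units.val_mul]
    rw [show (glReindex s.symm (K⁻¹ * k * K) : Matrix (Fin 3 → Fin 2) (Fin 3 → Fin 2) F) x y =
      ((K⁻¹ * k * K : GL (Fin 2 × Fin 4) F) : Matrix (Fin 2 × Fin 4) (Fin 2 × Fin 4) F) (s x) (s y) from by
        simp [glReindex], this]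
    rfl
  -- `H` lies in the tensor-power member
  have hle : H ≤ tensorWreathSubgroup 2 3 e' P' := by
    intro g hg
    rw [he] at hg
    obtain ⟨⟨_, ⟨k, ⟨a, b, hk⟩, rfl⟩, hgk⟩, hsp⟩ := hg
    simp only [MulEquiv.toMonoidHom_eq_coe, MonoidHom.coe_coe, MulAut.conj_apply] at hgk
    have hgP : ∀ (y : Fin 2 → F) (z : Fin 4 → F), (g : Matrix (Fin m ⊕ Fin m) (Fin m ⊕ Fin m) F) *ᵥ
        ((P : Matrix (Fin m ⊕ Fin m) (Fin m ⊕ Fin m) F) *ᵥ ((fun p => y p.1 * z p.2) ∘ e)) =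
        (P : Matrix (Fin m ⊕ Fin m) (Fin m ⊕ Fin m) F) *ᵥ ((fun p => ((a : Matrix (Fin 2) (Fin 2) F) *ᵥ y) p.1 *
          ((b : Matrix (Fin 4) (Fin 4) F) *ᵥ z) p.2) ∘ e) := by
      intro y z
      rw [← hgk, Matrix.mulVec_mulVec, ← Units.val_mul, inv_mul_cancel_right, Units.val_mul, ← Matrix.mulVec_mulVec]
      congr 1
      have hval : ((glReindex e.symm k : GL (Fin m ⊕ Fin m) F) : Matrix (Fin m ⊕ Fin m) (Fin m ⊕ Fin m) F) =
          Matrix.reindex e.symm e.symm (k : Matrix (Fin 2 × Fin 4) (Fin 2 × Fin 4) F) := rfl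
      rw [hval, Matrix.reindex_apply, Equiv.symm_symm, Matrix.submatrix_mulVec_equiv, Function.comp_assoc,
        Equiv.self_comp_symm, Function.comp_id]
      congr 1
      funext p
      rw [hk]
      simp only [Matrix.mulVec, dotProduct, Matrix.kroneckerMap_apply, Finset.sum_mul_sum, Fintype.sum_prod_type]
      exact Finset.sum_congr rfl fun i _ => Finset.sum_congr rfl fun j _ => by ring
    set y₀ : Fin 2 → F := Pi.single 0 1
    obtain ⟨-, y₁, hy₁⟩ := hf₁.nondegenerate y₀ (by simp [y₀])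
    have hsim : ∀ z z', f₁ ((a : Matrix (Fin 2) (Fin 2) F) *ᵥ y₀) ((a : Matrix (Fin 2) (Fin 2) F) *ᵥ y₁) *
        f₂ ((b : Matrix (Fin 4) (Fin 4) F) *ᵥ z) ((b : Matrix (Fin 4) (Fin 4) F) *ᵥ z') =
        f₁ y₀ y₁ * f₂ z z' := by
      intro z z'
      have h := hsp ((P : Matrix (Fin m ⊕ Fin m) (Fin m ⊕ Fin m) F) *ᵥ ((fun p => y₀ p.1 * z p.2) ∘ e))
        ((P : Matrix (Fin m ⊕ Fin m) (Fin m ⊕ Fin m) F) *ᵥ ((fun p => y₁ p.1 * z' p.2) ∘ e))
      simp only [Cfsg.glToMat, Units.coeHom_apply] at h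
      rw [hgP, hgP, hform, hform, formOfGram_kronecker, formOfGram_kronecker,
        ← formOfGram_eq hf₁.bilinear, ← formOfGram_eq hf₂.bilinear, ← formOfGram_eq hf₁.bilinear,
        ← formOfGram_eq hf₂.bilinear] at h
      exact mul_left_cancel₀ hc h
    set α := f₁ ((a : Matrix (Fin 2) (Fin 2) F) *ᵥ y₀) ((a : Matrix (Fin 2) (Fin 2) F) *ᵥ y₁)
    have hα : α ≠ 0 := by
      intro h0
      have := hsim (v (0, 0)) (v (1, 1))
      rw [h0, zero_mul, hv] at this
      simp [jj] at this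
      exact hy₁ this.symm
    set μ := f₁ y₀ y₁ / α with hμ
    have hμ0 : μ ≠ 0 := div_ne_zero hy₁ hα
    set N4 : GL (Fin 4) F := T⁻¹ * b * T with hN4
    -- the determinant is scaled
    have hQv : ∀ x : Fin 4 → F, f₂ ((T : Matrix (Fin 4) (Fin 4) F) *ᵥ x) ((T : Matrix (Fin 4) (Fin 4) F) *ᵥ x) =
        2 * (x (τ (0, 0)) * x (τ (1, 1)) - x (τ (0, 1)) * x (τ (1, 0))) := by
      intro x
      let B₂ : LinearMap.BilinForm F (Fin 4 → F) :=
        LinearMap.mk₂ F f₂ hf₂.bilinear.add_left hf₂.bilinear.smul_left hf₂.bilinear.add_right hf₂.bilinear.smul_right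
      have hTx : (T : Matrix (Fin 4) (Fin 4) F) *ᵥ x = ∑ p : Fin 2 × Fin 2, x (τ p) • v p := by
        ext i
        rw [Finset.sum_apply, Matrix.mulVec, dotProduct, ← τ.sum_comp]
        exact Finset.sum_congr rfl fun p _ => by simp [T, Tm, GeneralLinearGroup.mkOfDetNeZero, mul_comm]
      show B₂ _ _ = _
      rw [hTx]
      have hB₂ : ∀ p q, B₂ (v p) (v q) = jj p.1 q.1 * jj p.2 q.2 := hv
      simp only [Fintype.sum_prod_type, Fin.sum_univ_two, map_add, map_smul, LinearMap.add_apply,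
        LinearMap.smul_apply, smul_eq_mul, hB₂]
      simp [jj]
      ring
    let vec : Matrix (Fin 2) (Fin 2) F → (Fin 4 → F) := fun X i => X (τ.symm i).1 (τ.symm i).2
    let φ : Matrix (Fin 2) (Fin 2) F →ₗ[F] Matrix (Fin 2) (Fin 2) F :=
      { toFun := fun X => Matrix.of fun i j => ((N4 : Matrix (Fin 4) (Fin 4) F) *ᵥ vec X) (τ (i, j))
        map_add' := fun X Y => by
          ext i j
          simp [vec, Matrix.mulVec, dotProduct, mul_add, Finset.sum_add_distrib]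
        map_smul' := fun r X => by
          ext i j
          simp [vec, Matrix.mulVec, dotProduct, Finset.mul_sum, mul_left_comm] }
    have hvec : ∀ X i j, vec X (τ (i, j)) = X i j := fun X i j => by simp [vec]
    have hφinj : Function.Injective φ := by
      intro X Y hXY
      have h1 : (N4 : Matrix (Fin 4) (Fin 4) F) *ᵥ vec X = (N4 : Matrix (Fin 4) (Fin 4) F) *ᵥ vec Y := by
        funext i
        obtain ⟨⟨k', l'⟩, rfl⟩ := τ.surjective i
        exact congrFun (congrFun hXY k') l'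
      ext i j
      rw [← hvec X, ← hvec Y, GeoClasses.mulVec_injective N4 h1]
    have hφdet : ∀ X, (φ X).det = μ * X.det := by
      intro X
      have h1 := hQv ((N4 : Matrix (Fin 4) (Fin 4) F) *ᵥ vec X)
      have hTN : (T : Matrix (Fin 4) (Fin 4) F) *ᵥ ((N4 : Matrix (Fin 4) (Fin 4) F) *ᵥ vec X) =
          (b : Matrix (Fin 4) (Fin 4) F) *ᵥ ((T : Matrix (Fin 4) (Fin 4) F) *ᵥ vec X) := by
        rw [Matrix.mulVec_mulVec, Matrix.mulVec_mulVec, ← Units.val_mul, ← Units.val_mul,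
          show T * N4 = b * T by rw [hN4]; group]
      have h3 := hsim ((T : Matrix (Fin 4) (Fin 4) F) *ᵥ vec X) ((T : Matrix (Fin 4) (Fin 4) F) *ᵥ vec X)
      rw [← hTN, h1, hQv, hvec, hvec, hvec, hvec] at h3
      rw [Matrix.det_fin_two, Matrix.det_fin_two, hμ]
      show ((N4 : Matrix (Fin 4) (Fin 4) F) *ᵥ vec X) (τ (0, 0)) * _ - _ = _
      simp only [φ, LinearMap.coe_mk, AddHom.coe_mk, Matrix.of_apply]
      rw [div_mul_eq_mul_div, eq_div_iff hα]
      exact mul_left_cancel₀ h2 (by linear_combination h3)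
    obtain ⟨A, B, hA, hB, hAB⟩ := det_similitude_cases φ hφinj hμ0 hφdet
    have hN : ∀ i j k' l', (N4 : Matrix (Fin 4) (Fin 4) F) (τ (i, j)) (τ (k', l')) =
        φ (Matrix.single k' l' 1) i j := by
      intro i j k' l'
      have : vec (Matrix.single k' l' 1) = Pi.single (τ (k', l')) 1 := by
        funext z
        obtain ⟨⟨p₁, p₂⟩, rfl⟩ := τ.surjective z
        rw [hvec, Matrix.single_apply, Pi.single_apply]
        exact if_congr (by simp [Prod.ext_iff, eq_comm]) rfl rfl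
      simp [φ, this]
    let A' : GL (Fin 2) F := GeneralLinearGroup.mkOfDetNeZero A hA
    let B' : GL (Fin 2) F := GeneralLinearGroup.mkOfDetNeZero Bᵀ (by rwa [Matrix.det_transpose])
    refine ⟨glReindex e'.symm (glReindex s.symm (K⁻¹ * k * K)), ⟨_, ?_, rfl⟩,
      (hmove k).trans hgk⟩
    rcases hAB with hAB | hAB
    · refine Subgroup.subset_closure (Or.inl ⟨![a, A', B'], fun x y => ?_⟩)
      rw [hentry a b k hk, ← hN4, hN, hAB, Fin.prod_univ_three]
      simp [A', B', GeneralLinearGroup.mkOfDetNeZero, Matrix.mul_apply, Matrix.single_apply, mul_assoc,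
        ite_and, Finset.sum_ite_eq, Finset.sum_ite_eq', mul_ite, ite_mul]
    · have hmem : glReindex s.symm (K⁻¹ * k * K) =
          GeoClasses.glPure ![a, A', B'] * GeoClasses.glFactorPerm (F := F) 2 (Equiv.swap (1 : Fin 3) 2) := by
        apply Units.ext
        ext x y
        rw [hentry a b k hk, ← hN4, hN, hAB, Units.val_mul]
        refine Eq.trans ?_ (Matrix.mul_apply.trans
          (Finset.sum_eq_single (y ∘ Equiv.swap (1 : Fin 3) 2) ?_ ?_)).symm
        · simp only [GeoClasses.glPure, GeoClasses.glFactorPerm, GeoClasses.pureMat, GeoClasses.factorPerm]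
          rw [if_pos (funext fun i => by simp), Fin.prod_univ_three]
          simp [A', B', GeneralLinearGroup.mkOfDetNeZero, Matrix.mul_apply, Matrix.single_apply,
            ite_and, Finset.sum_ite_eq, Finset.sum_ite_eq', mul_ite, ite_mul,
            Equiv.swap_apply_of_ne_of_ne, mul_assoc]
        · intro z _ hz
          simp only [GeoClasses.glPure, GeoClasses.glFactorPerm, GeoClasses.pureMat, GeoClasses.factorPerm]
          rw [if_neg (fun h => hz (funext fun i => by simp [h])), mul_zero]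
        · simp
      rw [hmem]
      exact Subgroup.mul_mem _ (Subgroup.subset_closure (Or.inl ⟨_, fun x y => rfl⟩))
        (Subgroup.subset_closure (Or.inr ⟨_, fun x y => rfl⟩))
  have heq : H = tensorWreathSubgroup 2 3 e' P' ⊓ Cfsg.spGL m F :=
    eq_inf_max hH hle (spGL_not_le_tensorWreath hm3 le_rfl (Or.inr rfl) e' P')
  -- the swap of the first two factors
  let π : Equiv.Perm (Fin 3) := Equiv.swap 0 1
  let k₀ := GeoClasses.glFactorPerm (F := F) 2 π
  set g₀ := P' * glReindex e'.symm k₀ * P'⁻¹ with hg₀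
  let Ω : (Fin 3 → Fin 2) → (Fin m ⊕ Fin m → F) := fun a =>
    (P' : Matrix (Fin m ⊕ Fin m) (Fin m ⊕ Fin m) F) *ᵥ ((Pi.single a 1) ∘ e')
  have hΩ : ∀ a, Ω a = (P : Matrix (Fin m ⊕ Fin m) (Fin m ⊕ Fin m) F) *ᵥ
      ((fun p : Fin 2 × Fin 4 => (Pi.single (a 0) 1 : Fin 2 → F) p.1 * v (a 1, a 2) p.2) ∘ e) := by
    intro a
    simp only [Ω, P', Units.val_mul, ← Matrix.mulVec_mulVec]
    congr 1
    rw [show ((glReindex e.symm K : GL (Fin m ⊕ Fin m) F) : Matrix (Fin m ⊕ Fin m) (Fin m ⊕ Fin m) F) =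
      Matrix.reindex e.symm e.symm (K : Matrix (Fin 2 × Fin 4) (Fin 2 × Fin 4) F) from rfl,
      Matrix.reindex_apply, Equiv.symm_symm, Matrix.submatrix_mulVec_equiv]
    funext i
    have hsingle : ((Pi.single a 1 : (Fin 3 → Fin 2) → F) ∘ e') ∘ e.symm = Pi.single (s a) 1 := by
      funext p
      simp only [Function.comp_apply, e', Equiv.trans_apply, Equiv.apply_symm_apply, Pi.single_apply]
      exact if_congr (Equiv.symm_apply_eq s) rfl rfl
    simp only [Function.comp_apply, hsingle, Matrix.mulVec_single_one, Matrix.col_apply]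
    show (K : Matrix (Fin 2 × Fin 4) (Fin 2 × Fin 4) F) (e i) (s a) = _
    simp [K, hs', T, Tm, GeneralLinearGroup.mkOfDetNeZero, Matrix.one_apply, Pi.single_apply]
  have hΩf : ∀ a b, Cfsg.sympForm m F (Ω a) (Ω b) =
      c * (f₁ (Pi.single (a 0) 1) (Pi.single (b 0) 1) * (jj (a 1) (b 1) * jj (a 2) (b 2))) := by
    intro a b
    rw [hΩ, hΩ, hform, formOfGram_kronecker, ← formOfGram_eq hf₁.bilinear, ← formOfGram_eq hf₂.bilinear, hv]
  have hG₁ : ∀ i j : Fin 2, f₁ (Pi.single i 1) (Pi.single j 1) = f₁ (Pi.single 0 1) (Pi.single 1 1) * jj i j := by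
    intro i j
    fin_cases i <;> fin_cases j <;> simp [jj, hf₁.alternating]
    exact hf₁.skew _ _
  have hgΩ : ∀ a, (g₀ : Matrix (Fin m ⊕ Fin m) (Fin m ⊕ Fin m) F) *ᵥ Ω a = Ω (a ∘ π) := by
    intro a
    simp only [Ω, hg₀]
    rw [Matrix.mulVec_mulVec, ← Units.val_mul, inv_mul_cancel_right, Units.val_mul, ← Matrix.mulVec_mulVec]
    congr 1
    rw [show ((glReindex e'.symm k₀ : GL (Fin m ⊕ Fin m) F) : Matrix (Fin m ⊕ Fin m) (Fin m ⊕ Fin m) F) =
      Matrix.reindex e'.symm e'.symm (k₀ : Matrix (Fin 3 → Fin 2) (Fin 3 → Fin 2) F) from rfl,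
      Matrix.reindex_apply, Equiv.symm_symm, Matrix.submatrix_mulVec_equiv, Function.comp_assoc,
      Equiv.self_comp_symm, Function.comp_id]
    congr 1
    rw [Matrix.mulVec_single_one]
    funext x
    show GeoClasses.factorPerm (F := F) 2 π x a = _
    simp only [GeoClasses.factorPerm, Pi.single_apply]
    exact if_congr ⟨fun h => by subst h; funext i; simp [π], fun h => by subst h; funext i; simp [π]⟩ rfl rfl
  have hg₀sp : g₀ ∈ Cfsg.spGL m F := by
    have hexp : ∀ u : Fin m ⊕ Fin m → F, ∃ x : (Fin 3 → Fin 2) → F, u = ∑ a, x a • Ω a := by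
      intro u
      refine ⟨(((P'⁻¹ : GL (Fin m ⊕ Fin m) F) : Matrix (Fin m ⊕ Fin m) (Fin m ⊕ Fin m) F) *ᵥ u) ∘ e'.symm, ?_⟩
      conv_lhs => rw [← Matrix.one_mulVec u, ← Units.val_one, ← mul_inv_cancel P', Units.val_mul, ← Matrix.mulVec_mulVec]
      simp only [Ω, ← Matrix.mulVec_smul, ← Matrix.mulVec_sum]
      congr 1
      funext i
      simp [Finset.sum_apply, Pi.single_apply]
    intro u w
    simp only [Cfsg.glToMat, Units.coeHom_apply]
    obtain ⟨x, rfl⟩ := hexp u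
    obtain ⟨y, rfl⟩ := hexp w
    simp only [Matrix.mulVec_sum, Matrix.mulVec_smul, hgΩ, ← sympBil_apply, map_sum, map_smul,
      LinearMap.sum_apply, LinearMap.smul_apply]
    refine Finset.sum_congr rfl fun a _ => congrArg (y a • ·) (Finset.sum_congr rfl fun b _ => ?_)
    congr 1
    rw [sympBil_apply, sympBil_apply, hΩf, hΩf, hG₁, hG₁ (b 0)]
    simp [π, Equiv.swap_apply_of_ne_of_ne]
    exact Or.inl (by ring)
  have hk₀ : k₀ ∈ tensorWreathStandard 2 3 F := Subgroup.subset_closure (Or.inr ⟨π, fun x y => rfl⟩)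
  have hg₀H : g₀ ∈ H := heq ▸ ⟨⟨_, ⟨k₀, hk₀, rfl⟩, rfl⟩, hg₀sp⟩
  rw [he] at hg₀H
  obtain ⟨⟨_, ⟨k, ⟨a, b, hk⟩, rfl⟩, hgk⟩, -⟩ := hg₀H
  have hkk : glReindex s.symm (K⁻¹ * k * K) = k₀ := by
    have h1 := (hmove k).trans hgk
    rw [hg₀] at h1
    exact (glReindex e'.symm).injective (mul_left_cancel (mul_right_cancel h1))
  have hx := fun x y => (hentry a b k hk x y).symm.trans
    (congrArg (fun g : GL (Fin 3 → Fin 2) F => (g : Matrix (Fin 3 → Fin 2) (Fin 3 → Fin 2) F) x y) hkk)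
  have e1 := hx ![0, 0, 0] ![0, 0, 0]
  have e2 := hx ![1, 0, 0] ![0, 1, 0]
  have e3 := hx ![1, 0, 0] ![0, 0, 0]
  have hval : ∀ x y, (k₀ : Matrix (Fin 3 → Fin 2) (Fin 3 → Fin 2) F) x y = if y = x ∘ π then 1 else 0 :=
    fun x y => rfl
  rw [hval, if_pos (by decide)] at e1 e2
  rw [hval, if_neg (by decide)] at e3
  simp only [Matrix.cons_val_zero, Matrix.cons_val_one, Matrix.cons_val] at e1 e2 e3
  rcases mul_eq_zero.mp e3 with h | h
  · rw [h, zero_mul] at e2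
    exact zero_ne_one e2
  · rw [h, mul_zero] at e1
    exact zero_ne_one e1

end Cfsg.Agent.MaxSub
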