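import Cfsg.Agent.MaxSub.EigenTools

/-!
Fixed spaces of elements of primitive soluble linear groups.
-/

set_option autoImplicit false
set_option linter.style.haveILetI false

namespace Cfsg.Agent.MaxSub.PrimSoluble

open Matrix Module Cfsg.Geo EigenTools
open scoped MatrixGroups Matrix commutatorElement

variable {F : Type*} [Field F] {n : ℕ}

local notation "Mat" => Matrix (Fin n) (Fin n) F

/-- The image of a submodule under an element of `G` stays inside. -/
theorem eq_top_of_invariant {G : Subgroup (GL (Fin n) F)} (hirr : ActsIrreducibly (matrixSet G))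
    (W : Submodule F (Fin n → F)) (hW : W ≠ ⊥)
    (h : ∀ g ∈ G, ∀ v ∈ W, (g : Mat) *ᵥ v ∈ W) : W = ⊤ := by
  refine (hirr W ?_).resolve_left hW
  rintro _ ⟨g, hg, rfl⟩ _ ⟨v, hv, rfl⟩
  simpa using h g hg v hv

section Algebra

variable [Finite F] {G : Subgroup (GL (Fin n) F)} (hirr : ActsIrreducibly (matrixSet G))
  {K : Subalgebra F (Matrix (Fin n) (Fin n) F)} (hcomm : ∀ x ∈ K, ∀ y ∈ K, Commute x y)
  (hconj : ∀ g ∈ G, ∀ x ∈ K, (g : Matrix (Fin n) (Fin n) F) * x * ((g⁻¹ : GL (Fin n) F) : Matrix (Fin n) (Fin n) F) ∈ K)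

include hirr hcomm hconj

theorem eq_zero_of_sq (x : Matrix (Fin n) (Fin n) F) (hx : x ∈ K) (hx2 : x * x = 0) : x = 0 := by
  classical
  haveI := Fintype.ofFinite F
  by_contra hne
  let C : Finset Mat := Finset.univ.filter fun y => ∃ g ∈ G, y = (g : Mat) * x * ((g⁻¹ : GL (Fin n) F) : Mat)
  have hC : ∀ y ∈ C, y ∈ K ∧ y * y = 0 := by
    intro y hy
    obtain ⟨-, g, hg, rfl⟩ := Finset.mem_filter.mp hy
    refine ⟨hconj g hg x hx, ?_⟩
    calc (g : Mat) * x * ((g⁻¹ : GL (Fin n) F) : Mat) * ((g : Mat) * x * ((g⁻¹ : GL (Fin n) F) : Mat))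
        = (g : Mat) * x * (((g⁻¹ : GL (Fin n) F) : Mat) * (g : Mat)) * x * ((g⁻¹ : GL (Fin n) F) : Mat) := by
          simp only [mul_assoc]
      _ = 0 := by
          rw [← Units.val_mul, inv_mul_cancel, Units.val_one, mul_one, mul_assoc (g : Mat) x x, hx2, mul_zero, zero_mul]
  haveI : Nonempty (Fin n) := by
    by_contra h
    rw [not_nonempty_iff] at h
    exact hne (Matrix.ext fun i => isEmptyElim i)
  have key : ∀ T ⊆ C, ∃ v : Fin n → F, v ≠ 0 ∧ ∀ y ∈ T, y *ᵥ v = 0 := by
    intro T hT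
    induction T using Finset.induction_on with
    | empty => exact ⟨fun _ => 1, fun h => one_ne_zero (congrFun h (Classical.arbitrary _)), by simp⟩
    | @insert a T haT ih =>
      obtain ⟨v, hv, hvT⟩ := ih (fun y hy => hT (Finset.mem_insert_of_mem hy))
      by_cases h0 : a *ᵥ v = 0
      · exact ⟨v, hv, fun y hy => (Finset.mem_insert.mp hy).elim (fun h => h ▸ h0) (hvT y)⟩
      · refine ⟨a *ᵥ v, h0, fun y hy => ?_⟩
        have haK := hC a (hT (Finset.mem_insert_self a T))
        rcases Finset.mem_insert.mp hy with rfl | hy'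
        · rw [Matrix.mulVec_mulVec, haK.2, Matrix.zero_mulVec]
        · rw [Matrix.mulVec_mulVec, (hcomm y (hC y (hT hy)).1 a haK.1).eq, ← Matrix.mulVec_mulVec,
            hvT y hy', Matrix.mulVec_zero]
  obtain ⟨v, hv, hvC⟩ := key C (subset_refl C)
  let W : Submodule F (Fin n → F) := ⨅ y ∈ C, LinearMap.ker (Matrix.toLin' y)
  have hmem : ∀ w, w ∈ W ↔ ∀ y ∈ C, y *ᵥ w = 0 := fun w => by simp [W, Submodule.mem_iInf]
  have hW : W = ⊤ := by
    refine eq_top_of_invariant hirr W (fun h => hv ?_) fun g hg w hw => (hmem _).mpr fun y hy => ?_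
    · simpa [h] using (hmem v).mpr hvC
    · obtain ⟨-, h, hh, rfl⟩ := Finset.mem_filter.mp hy
      have h2 := (hmem w).mp hw _ (Finset.mem_filter.mpr
        ⟨Finset.mem_univ _, g⁻¹ * h, G.mul_mem (G.inv_mem hg) hh, rfl⟩)
      apply mulVec_inj g⁻¹
      rw [Matrix.mulVec_zero, Matrix.mulVec_mulVec, Matrix.mulVec_mulVec]
      rw [_root_.mul_inv_rev, inv_inv, Units.val_mul, Units.val_mul] at h2
      simpa only [mul_assoc] using h2
  apply hne
  have hxC : x ∈ C := Finset.mem_filter.mpr ⟨Finset.mem_univ _, 1, G.one_mem, by simp⟩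
  refine Matrix.toLin'.injective (LinearMap.ext fun w => ?_)
  simpa using (hmem w).mp (hW ▸ Submodule.mem_top) x hxC

variable (hprim : ∀ (m t : ℕ) (D : Fin t → Submodule F (Fin n → F)), 2 ≤ t → IsMDecomposition m D →
  ¬ G ≤ decompositionStabilizer D)

include hprim

theorem idempotent_eq_one (f : Matrix (Fin n) (Fin n) F) (hf : f ∈ K) (hf2 : f * f = f) (hf0 : f ≠ 0) : f = 1 := by
  classical
  haveI := Fintype.ofFinite F
  let Id : Finset Mat := Finset.univ.filter fun e => e ∈ K ∧ e * e = e ∧ e ≠ 0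
  let At : Finset Mat := Id.filter fun e => ∀ h ∈ Id, h * e = h → h = e
  have hId : ∀ e, e ∈ Id ↔ e ∈ K ∧ e * e = e ∧ e ≠ 0 := fun e => by simp [Id]
  have hAt : ∀ e, e ∈ At ↔ (e ∈ K ∧ e * e = e ∧ e ≠ 0) ∧ ∀ h ∈ Id, h * e = h → h = e := fun e => by
    simp [At, hId]
  have hbelow : ∀ (N : ℕ) (e : Mat), e ∈ Id → (Id.filter fun h => h * e = h).card ≤ N → ∃ a ∈ At, a * e = a := by
    intro N
    induction N with
    | zero =>
      intro e he hN
      have h1 : e ∈ Id.filter fun h => h * e = h := Finset.mem_filter.mpr ⟨he, ((hId e).mp he).2.1⟩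
      exact absurd (Finset.card_pos.mpr ⟨e, h1⟩) (by omega)
    | succ N ih =>
      intro e he hN
      by_cases hmin : ∀ h ∈ Id, h * e = h → h = e
      · exact ⟨e, (hAt e).mpr ⟨(hId e).mp he, hmin⟩, ((hId e).mp he).2.1⟩
      push Not at hmin
      obtain ⟨h, hh, hhe, hne⟩ := hmin
      have hsub : (Id.filter fun k => k * h = k) ⊂ Id.filter fun k => k * e = k := by
        rw [Finset.ssubset_iff_of_subset]
        · refine ⟨e, Finset.mem_filter.mpr ⟨he, ((hId e).mp he).2.1⟩, fun hc => hne ?_⟩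
          rw [← hhe, (hcomm h ((hId h).mp hh).1 e ((hId e).mp he).1).eq, (Finset.mem_filter.mp hc).2]
        · intro k hk
          obtain ⟨hk1, hk2⟩ := Finset.mem_filter.mp hk
          exact Finset.mem_filter.mpr ⟨hk1, by rw [← hk2, mul_assoc, hhe]⟩
      obtain ⟨a, ha, hah⟩ := ih h hh (by have := Finset.card_lt_card hsub; omega)
      exact ⟨a, ha, by rw [← hah, mul_assoc, hhe]⟩
  have horth : ∀ a ∈ At, ∀ b ∈ At, a ≠ b → a * b = 0 := by
    intro a ha b hb hne
    by_contra h0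
    obtain ⟨⟨haK, ha2, -⟩, hamin⟩ := (hAt a).mp ha
    obtain ⟨⟨hbK, hb2, -⟩, hbmin⟩ := (hAt b).mp hb
    have hab := hcomm a haK b hbK
    have hmem : a * b ∈ Id := (hId _).mpr ⟨K.mul_mem haK hbK, by
      calc a * b * (a * b) = a * (b * a) * b := by simp only [mul_assoc]
        _ = a * (a * b) * b := by rw [hab.eq]
        _ = a * b := by rw [← mul_assoc, ha2, mul_assoc, hb2], h0⟩
    have h1 := hamin _ hmem (by rw [mul_assoc, ← hab.eq, ← mul_assoc, ha2])
    have h2 := hbmin _ hmem (by rw [mul_assoc, hb2])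
    exact hne (h1.symm.trans h2)
  have hsumAt : ∀ T ⊆ At, (∑ a ∈ T, a) ∈ K ∧ (∀ b ∈ T, b * ∑ a ∈ T, a = b) ∧
      (∀ b ∈ At, b ∉ T → b * ∑ a ∈ T, a = 0) := by
    intro T hT
    refine ⟨K.sum_mem fun a ha => ((hAt a).mp (hT ha)).1.1, fun b hb => ?_, fun b hb hbT => ?_⟩
    · rw [Finset.mul_sum, Finset.sum_eq_single b (fun a ha hne => horth b (hT hb) a (hT ha) (Ne.symm hne))
        (fun h => absurd hb h), ((hAt b).mp (hT hb)).1.2.1]
    · rw [Finset.mul_sum]
      exact Finset.sum_eq_zero fun a ha => horth b hb a (hT ha) fun h => hbT (h ▸ ha)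
  have hidem : ∀ T ⊆ At, (∑ a ∈ T, a) * (∑ a ∈ T, a) = ∑ a ∈ T, a := fun T hT => by
    rw [Finset.sum_mul]
    exact Finset.sum_congr rfl fun b hb => (hsumAt T hT).2.1 b hb
  have hone : ∑ a ∈ At, a = 1 := by
    by_contra hne
    obtain ⟨hK, hfix, -⟩ := hsumAt At subset_rfl
    have hi : (1 - ∑ a ∈ At, a) ∈ Id := (hId _).mpr ⟨K.sub_mem K.one_mem hK, by
      rw [mul_sub, sub_mul, sub_mul, one_mul, mul_one, one_mul, hidem At subset_rfl, sub_self, sub_zero],
      sub_ne_zero.mpr (Ne.symm hne)⟩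
    obtain ⟨a, ha, hae⟩ := hbelow _ _ hi le_rfl
    rw [mul_sub, mul_one, hfix a ha, sub_self] at hae
    exact ((hAt a).mp ha).1.2.2 hae.symm
  -- conjugation permutes the atoms
  let cj : GL (Fin n) F → Mat → Mat := fun g x => (g : Mat) * x * ((g⁻¹ : GL (Fin n) F) : Mat)
  have hcjcj : ∀ g h x, cj g (cj h x) = cj (g * h) x := fun g h x => by
    simp only [cj, _root_.mul_inv_rev, Units.val_mul, mul_assoc]
  have hcjm : ∀ g x y, cj g (x * y) = cj g x * cj g y := fun g x y => by
    simp only [cj]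
    calc (g : Mat) * (x * y) * ((g⁻¹ : GL (Fin n) F) : Mat)
        = (g : Mat) * x * (((g⁻¹ : GL (Fin n) F) : Mat) * (g : Mat)) * y * ((g⁻¹ : GL (Fin n) F) : Mat) := by
          rw [← Units.val_mul, inv_mul_cancel, Units.val_one]; simp only [mul_assoc, one_mul]
      _ = _ := by simp only [mul_assoc]
  have hcj1 : ∀ x, cj 1 x = x := fun x => by simp [cj]
  have hcjinj : ∀ g x y, cj g x = cj g y → x = y := fun g x y h => by
    have := congrArg (cj g⁻¹) h
    rwa [hcjcj, hcjcj, inv_mul_cancel, hcj1, hcj1] at this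
  have hcjId : ∀ g ∈ G, ∀ e ∈ Id, cj g e ∈ Id := fun g hg e he => by
    obtain ⟨h1, h2, h3⟩ := (hId e).mp he
    exact (hId _).mpr ⟨hconj g hg e h1, by rw [← hcjm, h2],
      fun h0 => h3 (hcjinj g e 0 (h0.trans (by simp [cj])))⟩
  have hcjAt : ∀ g ∈ G, ∀ a ∈ At, cj g a ∈ At := fun g hg a ha => by
    obtain ⟨h1, h2⟩ := (hAt a).mp ha
    refine (hAt _).mpr ⟨(hId _).mp (hcjId g hg a ((hId a).mpr h1)), fun h hh hha => ?_⟩
    have h3 := h2 (cj g⁻¹ h) (hcjId _ (G.inv_mem hg) h hh) (by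
      have := congrArg (cj g⁻¹) hha
      rwa [hcjm, hcjcj, inv_mul_cancel, hcj1] at this)
    rw [← h3, hcjcj, mul_inv_cancel, hcj1]
  obtain ⟨a₀, ha₀, -⟩ := hbelow _ f ((hId f).mpr ⟨hf, hf2, hf0⟩) le_rfl
  -- one orbit
  let O := At.filter fun a => ∃ g ∈ G, cj g a₀ = a
  have hO : O ⊆ At := Finset.filter_subset _ _
  have hinv : ∀ g ∈ G, cj g (∑ a ∈ O, a) = ∑ a ∈ O, a := by
    intro g hg
    have hlin : cj g (∑ a ∈ O, a) = ∑ a ∈ O, cj g a := by simp only [cj, Finset.mul_sum, Finset.sum_mul]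
    rw [hlin]
    refine Finset.sum_bij (fun a _ => cj g a) (fun a ha => ?_) (fun a _ b _ h => hcjinj g a b h)
      (fun b hb => ?_) (fun a _ => rfl)
    · obtain ⟨ha1, h, hh, rfl⟩ := Finset.mem_filter.mp ha
      exact Finset.mem_filter.mpr ⟨hcjAt g hg _ ha1, g * h, G.mul_mem hg hh, (hcjcj g h a₀).symm⟩
    · obtain ⟨hb1, h, hh, rfl⟩ := Finset.mem_filter.mp hb
      exact ⟨cj g⁻¹ (cj h a₀), Finset.mem_filter.mpr ⟨hcjAt _ (G.inv_mem hg) _ hb1, g⁻¹ * h,
        G.mul_mem (G.inv_mem hg) hh, (hcjcj g⁻¹ h a₀).symm⟩, by rw [hcjcj, mul_inv_cancel, hcj1]⟩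
  have hs1 : ∑ a ∈ O, a = 1 := by
    set s := ∑ a ∈ O, a with hs
    have ha₀O : a₀ ∈ O := Finset.mem_filter.mpr ⟨ha₀, 1, G.one_mem, hcj1 a₀⟩
    have hne : LinearMap.range (Matrix.toLin' s) ≠ ⊥ := fun h => by
      have h0 : s = 0 := Matrix.toLin'.injective (by rw [map_zero]; exact LinearMap.range_eq_bot.mp h)
      have := (hsumAt O hO).2.1 a₀ ha₀O
      rw [← hs, h0, mul_zero] at this
      exact ((hAt a₀).mp ha₀).1.2.2 this.symm
    have htop : LinearMap.range (Matrix.toLin' s) = ⊤ := eq_top_of_invariant hirr _ hne (by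
      rintro g hg _ ⟨v, rfl⟩
      refine ⟨(g : Mat) *ᵥ v, ?_⟩
      rw [Matrix.toLin'_apply, Matrix.toLin'_apply, Matrix.mulVec_mulVec, Matrix.mulVec_mulVec]
      congr 1
      conv_lhs => rw [← hinv g hg]
      simp only [cj, mul_assoc]
      rw [← Units.val_mul, inv_mul_cancel, Units.val_one, mul_one])
    refine Matrix.toLin'.injective (LinearMap.ext fun v => ?_)
    obtain ⟨w, rfl⟩ := LinearMap.range_eq_top.mp htop v
    simp only [Matrix.toLin'_apply, Matrix.mulVec_mulVec, hs, hidem O hO, one_mul]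
  have hall : ∀ a ∈ At, a ∈ O := fun a ha => by
    by_contra h
    have := (hsumAt O hO).2.2 a ha h
    rw [hs1, mul_one] at this
    exact ((hAt a).mp ha).1.2.2 this
  -- at most one atom
  have hcard : At.card ≤ 1 := by
    by_contra hlt
    let ev : Fin At.card ≃ At := At.equivFin.symm
    let D : Fin At.card → Submodule F (Fin n → F) := fun i => LinearMap.range (Matrix.toLin' (ev i : Mat))
    have hmap : ∀ g ∈ G, ∀ a : Mat, (LinearMap.range (Matrix.toLin' a)).map (Matrix.toLin' (g : Mat)) =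
        LinearMap.range (Matrix.toLin' (cj g a)) := by
      intro g _ a
      rw [← LinearMap.range_comp, ← Matrix.toLin'_mul]
      have e1 : cj g a * (g : Mat) = (g : Mat) * a := by
        simp only [cj, mul_assoc]
        rw [← Units.val_mul, inv_mul_cancel, Units.val_one, mul_one]
      rw [← e1, Matrix.toLin'_mul, LinearMap.range_comp_of_range_eq_top]
      exact LinearMap.range_eq_top.mpr fun v => ⟨((g⁻¹ : GL (Fin n) F) : Mat) *ᵥ v, by
        rw [Matrix.toLin'_apply, Matrix.mulVec_mulVec, ← Units.val_mul, mul_inv_cancel, Units.val_one,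
          Matrix.one_mulVec]⟩
    have hfr : ∀ i, finrank F (D i) = finrank F (LinearMap.range (Matrix.toLin' a₀)) := by
      intro i
      obtain ⟨-, g, hg, he⟩ := Finset.mem_filter.mp (hall _ (ev i).2)
      show finrank F (LinearMap.range (Matrix.toLin' (ev i : Mat))) = _
      rw [← he, ← hmap g hg a₀]
      exact (LinearEquiv.finrank_eq (Submodule.equivMapOfInjective _
        (fun v w hvw => mulVec_inj g (by simpa using hvw)) _)).symm
    have hfix : ∀ i, ∀ v ∈ D i, (ev i : Mat) *ᵥ v = v := by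
      rintro i _ ⟨w, rfl⟩
      rw [Matrix.toLin'_apply, Matrix.mulVec_mulVec, ((hAt _).mp (ev i).2).1.2.1]
    have hdec : IsMDecomposition (finrank F (LinearMap.range (Matrix.toLin' a₀))) D := by
      refine ⟨by omega, ?_, hfr, ?_, ?_⟩
      · refine Nat.pos_of_ne_zero fun h => ((hAt a₀).mp ha₀).1.2.2 (Matrix.toLin'.injective ?_)
        rw [map_zero]
        exact LinearMap.range_eq_bot.mp (Submodule.finrank_eq_zero.mp h)
      · intro i
        rw [Submodule.disjoint_def]
        intro v hv hv'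
        have hle : (⨆ j ≠ i, D j) ≤ LinearMap.ker (Matrix.toLin' (ev i : Mat)) := iSup₂_le fun j hj => by
          rintro _ ⟨w, rfl⟩
          rw [LinearMap.mem_ker, Matrix.toLin'_apply, Matrix.toLin'_apply, Matrix.mulVec_mulVec,
            horth _ (ev i).2 _ (ev j).2 (fun h => hj (ev.injective (Subtype.ext h)).symm), Matrix.zero_mulVec]
        rw [← hfix i v hv]
        simpa using hle hv'
      · refine eq_top_iff.mpr fun v _ => ?_
        have : v = ∑ i, (ev i : Mat) *ᵥ v := by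
          rw [← Matrix.sum_mulVec, ev.sum_comp (fun a : At => (a : Mat)), Finset.sum_coe_sort At (fun a => a),
            hone, Matrix.one_mulVec]
        rw [this]
        exact Submodule.sum_mem _ fun i _ => Submodule.mem_iSup_of_mem i ⟨v, rfl⟩
    refine hprim _ _ D (by omega) hdec fun g hg => ?_
    let σ : Fin At.card → Fin At.card := fun i => ev.symm ⟨cj g (ev i), hcjAt g hg _ (ev i).2⟩
    have hσ : Function.Bijective σ := Finite.injective_iff_bijective.mp fun i j h =>
      ev.injective (Subtype.ext (hcjinj g _ _ (congrArg Subtype.val (ev.symm.injective h))))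
    exact ⟨Equiv.ofBijective σ hσ, fun i => by
      show _ = LinearMap.range (Matrix.toLin' (ev (σ i) : Mat))
      rw [hmap g hg, Equiv.apply_symm_apply]⟩
  obtain ⟨a, ha, haf⟩ := hbelow _ f ((hId f).mpr ⟨hf, hf2, hf0⟩) le_rfl
  have : At = {a} := (Finset.eq_singleton_iff_unique_mem.mpr ⟨ha, fun b hb => Finset.card_le_one.mp hcard b hb a ha⟩)
  rw [this, Finset.sum_singleton] at hone
  rw [hone, one_mul] at haf
  exact haf

theorem eq_zero_of_mulVec_eq_zero (x : Matrix (Fin n) (Fin n) F) (hx : x ∈ K) {v : Fin n → F}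
    (hv : v ≠ 0) (hxv : x *ᵥ v = 0) : x = 0 := by
  by_contra hne
  have hnz : ∀ k, x ^ (k + 1) ≠ 0 := by
    intro k
    induction k using Nat.strong_induction_on with
    | _ k ih =>
      intro hk
      rcases k with _ | k
      · exact hne (by simpa using hk)
      refine ih k (Nat.lt_succ_self k) (eq_zero_of_sq hirr hcomm hconj _ (K.pow_mem hx _) ?_)
      rw [← pow_add, show k + 1 + (k + 1) = (k + 1 + 1) + k by omega, pow_add, hk, zero_mul]
  obtain ⟨i, j, hij, he⟩ := Finite.exists_ne_map_eq_of_infinite fun k : ℕ => x ^ k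
  wlog hlt : i < j generalizing i j
  · exact this j i hij.symm he.symm (by omega)
  obtain ⟨d, rfl⟩ : ∃ d, j = i + d := ⟨j - i, by omega⟩
  have hper : ∀ k, ∀ a, i ≤ a → x ^ (a + k * d) = x ^ a := by
    intro k a ha
    induction k with
    | zero => simp
    | succ k ih =>
      rw [show a + (k + 1) * d = (i + d) + (a - i + k * d) by rw [add_mul, one_mul]; omega, pow_add, ← he, ← pow_add,
        show i + (a - i + k * d) = a + k * d by omega, ih]
  have hd : 0 < d := by omega
  have hN : i ≤ (i + 1) * d := le_trans (Nat.le_succ i) (Nat.le_mul_of_pos_right _ hd)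
  have hidem : x ^ ((i + 1) * d) * x ^ ((i + 1) * d) = x ^ ((i + 1) * d) := by
    rw [← pow_add]; exact hper (i + 1) _ hN
  obtain ⟨e, he'⟩ : ∃ e, (i + 1) * d = e + 1 := ⟨(i + 1) * d - 1, by have := Nat.le_mul_of_pos_right (i+1) hd; omega⟩
  have h1 := idempotent_eq_one hirr hcomm hconj hprim _ (K.pow_mem hx _) hidem (he' ▸ hnz e)
  rw [he', pow_succ] at h1
  apply hv
  have := congrArg (fun M : Mat => M *ᵥ v) h1
  simpa [← Matrix.mulVec_mulVec, hxv] using this.symm

end Algebra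

variable [Finite F] {G : Subgroup (GL (Fin n) F)}

/-- An abelian normal subgroup acts without fixed vectors. -/
theorem fixed_point_free (hirr : ActsIrreducibly (matrixSet G))
    (hprim : ∀ (m t : ℕ) (D : Fin t → Submodule F (Fin n → F)), 2 ≤ t → IsMDecomposition m D →
      ¬ G ≤ decompositionStabilizer D)
    (A : Subgroup G) [A.Normal] (hab : ∀ a ∈ A, ∀ b ∈ A, Commute a b) {a : G} (ha : a ∈ A) (ha1 : a ≠ 1)
    {v : Fin n → F} (hv : ((a : GL (Fin n) F) : Mat) *ᵥ v = v) : v = 0 := by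
  let s : Set Mat := (fun x : G => ((x : GL (Fin n) F) : Mat)) '' (A : Set G)
  let K := Algebra.adjoin F s
  have hs : ∀ x ∈ s, ∀ y ∈ s, x * y = y * x := by
    rintro _ ⟨x, hx, rfl⟩ _ ⟨y, hy, rfl⟩
    exact congrArg (fun z : G => ((z : GL (Fin n) F) : Mat)) (hab x hx y hy).eq
  have h1 : ∀ x ∈ s, ∀ y ∈ K, Commute x y := by
    intro x hx y hy
    induction hy using Algebra.adjoin_induction with
    | mem y hy => exact hs x hx y hy
    | algebraMap r => exact (Algebra.commutes r x).symm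
    | add y z _ _ h1 h2 => exact h1.add_right h2
    | mul y z _ _ h1 h2 => exact h1.mul_right h2
  have hcomm : ∀ x ∈ K, ∀ y ∈ K, Commute x y := by
    intro x hx y hy
    induction hx using Algebra.adjoin_induction with
    | mem x hx => exact h1 x hx y hy
    | algebraMap r => exact Algebra.commutes r y
    | add x z _ _ h1 h2 => exact h1.add_left h2
    | mul x z _ _ h1 h2 => exact h1.mul_left h2
  have hconj : ∀ g ∈ G, ∀ x ∈ K, (g : Mat) * x * ((g⁻¹ : GL (Fin n) F) : Mat) ∈ K := by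
    intro g hg x hx
    induction hx using Algebra.adjoin_induction with
    | mem x hx =>
      obtain ⟨x, hx, rfl⟩ := hx
      exact Algebra.subset_adjoin ⟨⟨g, hg⟩ * x * ⟨g, hg⟩⁻¹, ‹A.Normal›.conj_mem x hx _, by simp⟩
    | algebraMap r =>
      rw [(Algebra.commutes r (g : Mat)).symm, mul_assoc, ← Units.val_mul, mul_inv_cancel, Units.val_one, mul_one]
      exact K.algebraMap_mem r
    | add x z _ _ h1 h2 => rw [mul_add, add_mul]; exact K.add_mem h1 h2
    | mul x z _ _ h1 h2 =>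
      have : (g : Mat) * (x * z) * ((g⁻¹ : GL (Fin n) F) : Mat) =
          ((g : Mat) * x * ((g⁻¹ : GL (Fin n) F) : Mat)) * ((g : Mat) * z * ((g⁻¹ : GL (Fin n) F) : Mat)) := by
        calc _ = (g : Mat) * x * (((g⁻¹ : GL (Fin n) F) : Mat) * (g : Mat)) * z * ((g⁻¹ : GL (Fin n) F) : Mat) := by
              rw [← Units.val_mul, inv_mul_cancel, Units.val_one]; simp only [mul_assoc, one_mul]
          _ = _ := by simp only [mul_assoc]
      rw [this]; exact K.mul_mem h1 h2
  by_contra hv0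
  apply ha1
  have h2 := eq_zero_of_mulVec_eq_zero hirr hcomm hconj hprim (((a : GL (Fin n) F) : Mat) - 1)
    (K.sub_mem (Algebra.subset_adjoin ⟨a, ha, rfl⟩) K.one_mem) hv0
    (by rw [Matrix.sub_mulVec, hv, Matrix.one_mulVec, sub_self])
  exact Subtype.ext (Units.ext (sub_eq_zero.mp h2))

/-- Fixed spaces in primitive soluble groups. -/
theorem fixed_space_bound (hsol : IsSolvable G) (hirr : ActsIrreducibly (matrixSet G))
    (hprim : ∀ (m t : ℕ) (D : Fin t → Submodule F (Fin n → F)), 2 ≤ t → IsMDecomposition m D →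
      ¬ G ≤ decompositionStabilizer D)
    (g : G) (hg1 : g ≠ 1) : 4 * finrank F (eig (g : GL (Fin n) F) 1) ≤ 3 * n := by
  classical
  haveI := Fintype.ofFinite F
  let act : G → Mat := fun x => ((x : GL (Fin n) F) : Mat)
  have hact : ∀ x y : G, ∀ v, act (x * y) *ᵥ v = act x *ᵥ (act y *ᵥ v) := fun x y v => by
    simp [act, Matrix.mulVec_mulVec]
  have hinv : ∀ x : G, ∀ v, act x *ᵥ v = v → act x⁻¹ *ᵥ v = v := fun x v h => by
    conv_lhs => rw [← h, ← hact, inv_mul_cancel]
    simp [act]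
  -- intersections
  have hcut : ∀ (x y : G) (b : ℕ), finrank F (eig ((⁅x, y⁆ : G) : GL (Fin n) F) 1) ≤ b →
      2 * finrank F (eig (x : GL (Fin n) F) 1) ≤ n + b := by
    intro x y b hb
    let W := eig (x : GL (Fin n) F) 1
    let W' := W.map (Matrix.toLin' (act y))
    have h3 : finrank F W' = finrank F W := (LinearEquiv.finrank_eq (Submodule.equivMapOfInjective _
      (fun v w hvw => mulVec_inj (y : GL (Fin n) F) (by simpa using hvw)) W)).symm
    have hle : W ⊓ W' ≤ eig ((⁅x, y⁆ : G) : GL (Fin n) F) 1 := by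
      rintro z ⟨hz, v, hv, rfl⟩
      have hv' : act x *ᵥ v = v := by simpa [W, act] using (mem_eig.mp hv)
      have hz' : act x *ᵥ (act y *ᵥ v) = act y *ᵥ v := by simpa [W, act] using (mem_eig.mp hz)
      rw [Matrix.toLin'_apply, mem_eig, one_smul]
      show act ⁅x, y⁆ *ᵥ _ = _
      rw [commutatorElement_def, hact, hact, hact]
      have e : act y⁻¹ *ᵥ (act y *ᵥ v) = v := by rw [← hact, inv_mul_cancel]; simp [act]
      rw [e, hinv x v hv', hz']
    have h1 := Submodule.finrank_sup_add_finrank_inf_eq W W'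
    have h2 := Submodule.finrank_le (W ⊔ W')
    rw [Module.finrank_fintype_fun_eq_card, Fintype.card_fin] at h2
    rw [h3] at h1
    have h4 := (Submodule.finrank_mono hle).trans hb
    show 2 * finrank F W ≤ n + b
    omega
  -- a maximal abelian normal subgroup
  obtain ⟨A, ⟨hAn, hAab⟩, hAmax⟩ := (Set.toFinite {A : Subgroup G |
    A.Normal ∧ ∀ a ∈ A, ∀ b ∈ A, Commute a b}).exists_maximal ⟨⊥, Subgroup.normal_bot, fun a ha b hb => by
      rw [Subgroup.mem_bot] at ha; rw [ha]; exact Commute.one_left b⟩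
  have hfpf : ∀ a ∈ A, a ≠ 1 → finrank F (eig (a : GL (Fin n) F) 1) = 0 := fun a ha ha1 =>
    Submodule.finrank_eq_zero.mpr ((Submodule.eq_bot_iff _).mpr fun v hv =>
      fixed_point_free hirr hprim A hAab ha ha1 (by simpa using mem_eig.mp hv))
  obtain ⟨E, ⟨hEn, hAE, hEA, hEc⟩, hEmax⟩ := (Set.toFinite {E : Subgroup G |
    E.Normal ∧ A ≤ E ∧ (∀ e ∈ E, ∀ a ∈ A, Commute e a) ∧ ∀ e ∈ E, ∀ f ∈ E, ⁅e, f⁆ ∈ A}).exists_maximal ⟨A, hAn, le_rfl, hAab,
      fun e he f hf => by rw [commutatorElement_eq_one_iff_commute.mpr (hAab e he f hf)]; exact A.one_mem⟩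
  -- the centre of `E`
  have hZE : ∀ z ∈ E, (∀ e ∈ E, Commute z e) → z ∈ A := by
    intro z hz hzc
    let B : Subgroup G := E ⊓ Subgroup.centralizer (E : Set G)
    have hB : A ≤ B := fun a ha => ⟨hAE ha, fun e he => (hEA e he a ha).eq⟩
    haveI : E.Normal := hEn
    exact hAmax (y := B) ⟨inferInstance, fun x (hx : x ∈ B) y (hy : y ∈ B) =>
      Subgroup.mem_centralizer_iff.mp (Subgroup.mem_inf.mp hy).2 x (Subgroup.mem_inf.mp hx).1⟩ hB ⟨hz, fun e he => (hzc e he).eq.symm⟩
  by_cases h1 : ∃ a ∈ A, ⁅g, a⁆ ≠ 1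
  · obtain ⟨a, ha, hne⟩ := h1
    have hmem : ⁅g, a⁆ ∈ A := A.mul_mem (hAn.conj_mem a ha g) (A.inv_mem ha)
    have := hcut g a 0 (hfpf _ hmem hne).le
    omega
  by_cases h2 : ∃ e ∈ E, ⁅g, e⁆ ≠ 1
  · obtain ⟨e, he, hne⟩ := h2
    have hmem : ⁅g, e⁆ ∈ E := E.mul_mem (hEn.conj_mem e he g) (E.inv_mem he)
    have hu : 2 * finrank F (eig ((⁅g, e⁆ : G) : GL (Fin n) F) 1) ≤ n := by
      by_cases hc : ∀ f ∈ E, Commute ⁅g, e⁆ f
      · rw [hfpf _ (hZE _ hmem hc) hne]; omega
      · push Not at hc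
        obtain ⟨f, hf, hfne⟩ := hc
        have := hcut ⁅g, e⁆ f 0 (hfpf _ (hEc _ hmem f hf)
          (fun h => hfne (commutatorElement_eq_one_iff_commute.mp h))).le
        omega
    have := hcut g e _ le_rfl
    omega
  push Not at h2
  -- the centralizer of `E` is `A`
  let D := Subgroup.centralizer (E : Set G)
  have hD : D ≤ A := by
    by_contra hDA
    obtain ⟨N, hN⟩ := hsol.solvable
    have : ∃ k, ¬ derivedSeries G k ⊓ D ≤ A := ⟨0, by simpa using hDA⟩
    have hex : ∃ k, derivedSeries G k ⊓ D ≤ A := ⟨N, by rw [hN]; simp⟩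
    set k := Nat.find hex with hk
    have hk0 : k ≠ 0 := fun h => by
      have := Nat.find_spec hex
      rw [← hk, h] at this
      exact hDA (by simpa using this)
    obtain ⟨j, hj⟩ := Nat.exists_eq_succ_of_ne_zero hk0
    have hjA : ¬ derivedSeries G j ⊓ D ≤ A := Nat.find_min hex (by omega)
    set M := derivedSeries G j ⊓ D with hM
    haveI : (derivedSeries G j).Normal := derivedSeries_normal G j
    haveI : M.Normal := by rw [hM]; infer_instance
    have hMD : ∀ x ∈ M, ∀ y ∈ E, Commute x y := fun x hx y hy => ((hx.2) y hy).symm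
    have hMc : ∀ x ∈ M, ∀ y ∈ M, ⁅x, y⁆ ∈ A := fun x hx y hy => by
      refine Nat.find_spec hex ⟨?_, ?_⟩
      · rw [← hk, hj, derivedSeries_succ]
        exact Subgroup.commutator_mem_commutator hx.1 hy.1
      · exact D.mul_mem (D.mul_mem (D.mul_mem hx.2 hy.2) (D.inv_mem hx.2)) (D.inv_mem hy.2)
    have hAc : ∀ x : G, (∀ a ∈ A, Commute x a) → ∀ y, (∀ a ∈ A, Commute y a) → ∀ a ∈ A, Commute (x * y) a :=
      fun x hx y hy a ha => (hx a ha).mul_left (hy a ha)
    let E' := E ⊔ M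
    haveI : E.Normal := hEn
    have hmemE' : ∀ z ∈ E', ∃ x ∈ E, ∃ y ∈ M, z = x * y := fun z hz => by
      obtain ⟨x, hx, y, hy, rfl⟩ := Subgroup.mem_sup_of_normal_right.mp hz
      exact ⟨x, hx, y, hy, rfl⟩
    have hMA : ∀ x ∈ M, ∀ a ∈ A, Commute x a := fun x hx a ha => hMD x hx a (hAE ha)
    have hle : E' ≤ E := hEmax ⟨inferInstance, hAE.trans le_sup_left, fun z hz a ha => by
      obtain ⟨x, hx, y, hy, rfl⟩ := hmemE' z hz
      exact (hEA x hx a ha).mul_left (hMA y hy a ha), fun z hz w hw => by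
      obtain ⟨x, hx, y, hy, rfl⟩ := hmemE' z hz
      obtain ⟨x', hx', y', hy', rfl⟩ := hmemE' w hw
      have hxy' := (hMD y' hy' x hx).symm
      have hyx' := hMD y hy x' hx'
      have hkey : ⁅x * y, x' * y'⁆ = ⁅x, x'⁆ * ⁅y, y'⁆ := by
        have e1 : (x * y) * (x' * y') = (x * x') * (y * y') := by
          rw [mul_assoc, ← mul_assoc y, hyx'.eq]; simp only [mul_assoc]
        have e2 : (x' * y') * (x * y) = (x' * x) * (y' * y) := by
          rw [mul_assoc, ← mul_assoc y', (hMD y' hy' x hx).eq]; simp only [mul_assoc]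
        have c1 : Commute (y * y') (x' * x)⁻¹ :=
          ((((hMD y hy x' hx').mul_right (hMD y hy x hx)).mul_left
            ((hMD y' hy' x' hx').mul_right (hMD y' hy' x hx)))).inv_right
        calc ⁅x * y, x' * y'⁆ = ((x * y) * (x' * y')) * ((x' * y') * (x * y))⁻¹ := by
              simp only [commutatorElement_def]; group
          _ = (x * x') * ((y * y') * (y' * y)⁻¹ * (x' * x)⁻¹) := by
              rw [e1, e2]; simp only [_root_.mul_inv_rev, mul_assoc]
          _ = (x * x') * ((x' * x)⁻¹ * ((y * y') * (y' * y)⁻¹)) := by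
              congr 1
              exact (c1.mul_left ((((hMD y' hy' x' hx').mul_right (hMD y' hy' x hx)).mul_left
                ((hMD y hy x' hx').mul_right (hMD y hy x hx))).inv_right.inv_left)).eq
          _ = _ := by simp only [commutatorElement_def]; group
      rw [hkey]
      exact A.mul_mem (hEc x hx x' hx') (hMc y hy y' hy')⟩ le_sup_left
    apply hjA
    intro z hz
    exact hZE z (hle (Subgroup.mem_sup_right hz)) fun e he => hMD z hz e he
  have hgA : g ∈ A := hD fun e he => (commutatorElement_eq_one_iff_commute.mp (h2 e he)).eq.symm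
  rw [hfpf g hgA hg1]
  omega

end Cfsg.Agent.MaxSub.PrimSoluble
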