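import Cfsg.Agent.MaxSub.PlusTensor
import Cfsg.Agent.Elusive.AltForm

/-!
Further exceptional inclusions in `Sp_8`, `Sp_10` and `Sp_12`.
-/

set_option autoImplicit false
set_option linter.style.haveILetI false

namespace Cfsg.Agent.MaxSub

open Matrix Cfsg.Geo Cfsg.Agent.Forms Module Cfsg.Agent.ClassicalMax
open scoped MatrixGroups Matrix Kronecker commutatorElement

variable {F : Type*} [Field F] {m : ℕ}

theorem even_of_symplecticForm {n : ℕ} {f : (Fin n → F) → (Fin n → F) → F} (hf : IsSymplecticForm f) :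
    Even n := by
  let B : LinearMap.BilinForm F (Fin n → F) :=
    LinearMap.mk₂ F f hf.bilinear.add_left hf.bilinear.smul_left hf.bilinear.add_right hf.bilinear.smul_right
  have := Elusive.even_finrank_of_alt (B := B) hf.alternating fun v hv => by
    by_contra h0
    obtain ⟨-, w, hw⟩ := hf.nondegenerate v h0
    exact hw (hv w)
  rwa [Module.finrank_fintype_fun_eq_card, Fintype.card_fin] at this

/-- Over three elements a tensor member `Sp_n ⊗ O_3` fixes a decomposition into three spaces of dimension `n`. -/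
theorem tensor_le_decomposition_three [Fintype F] {n₁ : ℕ} (hn₁ : 0 < n₁) (hF : Fintype.card F = 3)
    (e : (Fin m ⊕ Fin m) ≃ Fin n₁ × Fin 3) (P : GL (Fin m ⊕ Fin m) F)
    {f₁ : (Fin n₁ → F) → (Fin n₁ → F) → F} {f₂ : (Fin 3 → F) → (Fin 3 → F) → F}
    (hf₁ : IsSymplecticForm f₁) (hf₂ : IsSymmetricForm f₂)
    (hs : IsTensorFormStructure id (Cfsg.sympForm m F) f₁ f₂ e P) :
    ∃ D : Fin 3 → Submodule F (Fin m ⊕ Fin m → F), IsNondegenerateMDecomposition (Cfsg.sympForm m F) n₁ D ∧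
      tensorProductSubgroup n₁ 3 e P ⊓ Cfsg.spGL m F ≤ decompositionStabilizer D := by
  classical
  obtain ⟨c, hc, hform⟩ := hs
  let B₂ : LinearMap.BilinForm F (Fin 3 → F) :=
    LinearMap.mk₂ F f₂ hf₂.bilinear.add_left hf₂.bilinear.smul_left hf₂.bilinear.add_right hf₂.bilinear.smul_right
  have hB₂ : B₂.Nondegenerate := by
    constructor <;> intro x hx <;> by_contra h0
    · obtain ⟨-, y, hy⟩ := hf₂.nondegenerate x h0; exact hy (hx y)
    · obtain ⟨⟨y, hy⟩, -⟩ := hf₂.nondegenerate x h0; exact hy (hx y)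
  have hS₂ : B₂.IsSymm := ⟨fun x y => by simpa [B₂] using hf₂.symm x y⟩
  haveI : NeZero n₁ := ⟨by omega⟩
  obtain ⟨w, ε, hε, hw⟩ := exists_constant_basis_three hF hS₂ hB₂
  let L : Fin 3 → (Fin n₁ → F) → (Fin m ⊕ Fin m → F) := fun i y =>
    (P : Matrix (Fin m ⊕ Fin m) (Fin m ⊕ Fin m) F) *ᵥ ((fun p : Fin n₁ × Fin 3 => y p.1 * w i p.2) ∘ e)
  have hLadd : ∀ i y y', L i (y + y') = L i y + L i y' := fun i y y' => by
    simp only [L, ← Matrix.mulVec_add]; congr 1; funext p; simp [add_mul]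
  have hLsmul : ∀ i (a : F) y, L i (a • y) = a • L i y := fun i a y => by
    simp only [L, ← Matrix.mulVec_smul]; congr 1; funext p; simp [mul_assoc]
  have hL : ∀ i j y y', Cfsg.sympForm m F (L i y) (L j y') = c * (f₁ y y' * if i = j then ε else 0) := by
    intro i j y y'
    simp only [L]
    rw [hform, formOfGram_kronecker, ← formOfGram_eq hf₁.bilinear, ← formOfGram_eq hf₂.bilinear]
    rw [show f₂ (w i) (w j) = B₂ (w i) (w j) from rfl, hw]
  let v : Fin n₁ × Fin 3 → (Fin m ⊕ Fin m → F) := fun p => L p.2 (Pi.single p.1 1)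
  have hLsum : ∀ i (s : Fin n₁ → F), ∑ l, s l • v (l, i) = L i s := by
    intro i s
    let Li : (Fin n₁ → F) →ₗ[F] (Fin m ⊕ Fin m → F) := { toFun := L i, map_add' := hLadd i, map_smul' := hLsmul i }
    show _ = Li s
    conv_rhs => rw [pi_eq_sum_univ' s]
    simp only [map_sum, map_smul]
    rfl
  have hli : LinearIndependent F v := by
    rw [Fintype.linearIndependent_iff]
    intro s hs0 ⟨l, j⟩
    have hrow : (fun l => s (l, j)) = 0 := by
      by_contra hne
      obtain ⟨-, y, hy⟩ := hf₁.nondegenerate _ hne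
      apply hy
      have := congrArg (fun x => sympBil m F x (L j y)) hs0
      simp only [Fintype.sum_prod_type] at this
      rw [Finset.sum_comm] at this
      simp only [hLsum, map_sum, LinearMap.sum_apply, sympBil_apply, hL, map_zero, LinearMap.zero_apply,
        mul_ite, mul_zero, Finset.sum_ite_eq', Finset.mem_univ, if_true, mul_eq_zero] at this
      simpa [hc, hε] using this
    exact congrFun hrow l
  let b := basisOfLinearIndependentOfCardEqFinrank hli
    (by rw [Module.finrank_fintype_fun_eq_card, Fintype.card_congr e])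
  have hbv : (b : Fin n₁ × Fin 3 → _) = v := coe_basisOfLinearIndependentOfCardEqFinrank hli _
  let D : Fin 3 → Submodule F (Fin m ⊕ Fin m → F) := fun i => Submodule.span F (Set.range fun l => b (l, i))
  have hmem : ∀ i x, x ∈ D i ↔ ∃ y, x = L i y := by
    intro i x
    rw [Submodule.mem_span_range_iff_exists_fun]
    simp only [hbv, hLsum]
    exact ⟨fun ⟨s, hs⟩ => ⟨s, hs.symm⟩, fun ⟨s, hs⟩ => ⟨s, hs.symm⟩⟩
  refine ⟨D, ⟨isMDecomposition_of_basis (by norm_num) hn₁ b, fun i x hx hx0 => ?_, fun i j hij x hx x' hx' => ?_⟩, ?_⟩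
  · obtain ⟨y, rfl⟩ := (hmem i x).mp hx
    have hy : y ≠ 0 := fun h => hx0 (by rw [h, ← zero_smul F (0 : Fin n₁ → F), hLsmul, zero_smul])
    obtain ⟨⟨z, hz⟩, ⟨z', hz'⟩⟩ := hf₁.nondegenerate y hy
    exact ⟨⟨L i z, (hmem i _).mpr ⟨z, rfl⟩, by rw [hL, if_pos rfl]; exact mul_ne_zero hc (mul_ne_zero hz hε)⟩,
      ⟨L i z', (hmem i _).mpr ⟨z', rfl⟩, by rw [hL, if_pos rfl]; exact mul_ne_zero hc (mul_ne_zero hz' hε)⟩⟩
  · obtain ⟨y, rfl⟩ := (hmem i x).mp hx
    obtain ⟨y', rfl⟩ := (hmem j x').mp hx'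
    rw [hL, if_neg hij, mul_zero, mul_zero]
  rintro g ⟨⟨_, ⟨k, ⟨a, b', hk⟩, rfl⟩, hg⟩, hsp⟩
  simp only [MulEquiv.toMonoidHom_eq_coe, MonoidHom.coe_coe, MulAut.conj_apply] at hg
  have hgL : ∀ x : Fin n₁ × Fin 3 → F, (g : Matrix (Fin m ⊕ Fin m) (Fin m ⊕ Fin m) F) *ᵥ
      ((P : Matrix (Fin m ⊕ Fin m) (Fin m ⊕ Fin m) F) *ᵥ (x ∘ e)) =
      (P : Matrix (Fin m ⊕ Fin m) (Fin m ⊕ Fin m) F) *ᵥ (((k : Matrix (Fin n₁ × Fin 3) (Fin n₁ × Fin 3) F) *ᵥ x) ∘ e) := by
    intro x
    rw [← hg, Matrix.mulVec_mulVec, ← Units.val_mul, inv_mul_cancel_right, Units.val_mul, ← Matrix.mulVec_mulVec]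
    congr 1
    have hval : ((glReindex e.symm k : GL (Fin m ⊕ Fin m) F) : Matrix (Fin m ⊕ Fin m) (Fin m ⊕ Fin m) F) =
        Matrix.reindex e.symm e.symm (k : Matrix (Fin n₁ × Fin 3) (Fin n₁ × Fin 3) F) := rfl
    rw [hval, Matrix.reindex_apply, Equiv.symm_symm, Matrix.submatrix_mulVec_equiv]
    simp [Function.comp_assoc]
  have hkron : ∀ (y : Fin n₁ → F) (z : Fin 3 → F), (k : Matrix (Fin n₁ × Fin 3) (Fin n₁ × Fin 3) F) *ᵥ
      (fun p => y p.1 * z p.2) = fun p => ((a : Matrix (Fin n₁) (Fin n₁) F) *ᵥ y) p.1 *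
        ((b' : Matrix (Fin 3) (Fin 3) F) *ᵥ z) p.2 := by
    intro y z
    funext p
    rw [hk]
    simp only [Matrix.mulVec, dotProduct, Matrix.kroneckerMap_apply, Finset.sum_mul_sum, Fintype.sum_prod_type]
    exact Finset.sum_congr rfl fun i _ => Finset.sum_congr rfl fun j _ => by ring
  -- `b'` is a similitude of `f₂`
  set y₀ : Fin n₁ → F := Pi.single 0 1
  obtain ⟨-, y₁, hy₁⟩ := hf₁.nondegenerate y₀ (by simp [y₀])
  have hsim : ∀ z z', f₁ ((a : Matrix (Fin n₁) (Fin n₁) F) *ᵥ y₀) ((a : Matrix (Fin n₁) (Fin n₁) F) *ᵥ y₁) *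
      f₂ ((b' : Matrix (Fin 3) (Fin 3) F) *ᵥ z) ((b' : Matrix (Fin 3) (Fin 3) F) *ᵥ z') = f₁ y₀ y₁ * f₂ z z' := by
    intro z z'
    have h := hsp ((P : Matrix (Fin m ⊕ Fin m) (Fin m ⊕ Fin m) F) *ᵥ ((fun p => y₀ p.1 * z p.2) ∘ e))
      ((P : Matrix (Fin m ⊕ Fin m) (Fin m ⊕ Fin m) F) *ᵥ ((fun p => y₁ p.1 * z' p.2) ∘ e))
    simp only [Cfsg.glToMat, Units.coeHom_apply] at h
    rw [hgL, hgL, hform, hform, hkron, hkron, formOfGram_kronecker, formOfGram_kronecker,
      ← formOfGram_eq hf₁.bilinear, ← formOfGram_eq hf₂.bilinear, ← formOfGram_eq hf₁.bilinear,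
      ← formOfGram_eq hf₂.bilinear] at h
    exact mul_left_cancel₀ hc h
  set μ := f₁ y₀ y₁ / f₁ ((a : Matrix (Fin n₁) (Fin n₁) F) *ᵥ y₀) ((a : Matrix (Fin n₁) (Fin n₁) F) *ᵥ y₁) with hμ
  have hden : f₁ ((a : Matrix (Fin n₁) (Fin n₁) F) *ᵥ y₀) ((a : Matrix (Fin n₁) (Fin n₁) F) *ᵥ y₁) ≠ 0 := by
    intro h0
    have := hsim (w 0) (w 0)
    rw [h0, zero_mul, show f₂ (w 0) (w 0) = B₂ (w 0) (w 0) from rfl, hw, if_pos rfl] at this
    exact mul_ne_zero hy₁ hε this.symm
  have hb'sim : ∀ z z', B₂ ((b' : Matrix (Fin 3) (Fin 3) F) *ᵥ z) ((b' : Matrix (Fin 3) (Fin 3) F) *ᵥ z') = μ * B₂ z z' := by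
    intro z z'
    show f₂ _ _ = μ * f₂ z z'
    rw [hμ, div_mul_eq_mul_div, eq_div_iff hden]
    linear_combination hsim z z'
  have hμ0 : μ ≠ 0 := div_ne_zero hy₁ hden
  have hunits : ∀ x : F, x ≠ 0 → x ^ 2 = 1 := fun x hx => by simpa [hF] using FiniteField.pow_card_sub_one_eq_one x hx
  -- the multiplier is one
  let T := Matrix.of fun i j : Fin 3 => w.equivFun ((b' : Matrix (Fin 3) (Fin 3) F) *ᵥ w j) i
  have hT : ∀ i j, B₂ ((b' : Matrix (Fin 3) (Fin 3) F) *ᵥ w i) ((b' : Matrix (Fin 3) (Fin 3) F) *ᵥ w j) =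
      ε * ∑ l, T l i * T l j := by
    intro i j
    conv_lhs => rw [← w.sum_equivFun ((b' : Matrix (Fin 3) (Fin 3) F) *ᵥ w i),
      ← w.sum_equivFun ((b' : Matrix (Fin 3) (Fin 3) F) *ᵥ w j)]
    simp only [map_sum, map_smul, LinearMap.sum_apply, LinearMap.smul_apply, smul_eq_mul, hw, mul_ite, mul_zero,
      Finset.sum_ite_eq, Finset.sum_ite_eq', Finset.mem_univ, if_true, Finset.mul_sum, T, Matrix.of_apply]
    exact Finset.sum_congr rfl fun l _ => by ring
  have hTT : Tᵀ * T = μ • (1 : Matrix (Fin 3) (Fin 3) F) := by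
    ext i j
    have := (hT i j).symm.trans (hb'sim (w i) (w j))
    rw [hw] at this
    simp only [Matrix.mul_apply, Matrix.transpose_apply, Matrix.smul_apply, Matrix.one_apply, smul_eq_mul]
    apply mul_left_cancel₀ hε
    rw [this]
    split <;> ring
  have hμ1 : μ = 1 := by
    have hd := congrArg Matrix.det hTT
    rw [Matrix.det_mul, Matrix.det_transpose, Matrix.det_smul, Matrix.det_one, Fintype.card_fin, mul_one] at hd
    have hd0 : T.det ≠ 0 := fun h => pow_ne_zero 3 hμ0 (by rw [← hd, h, mul_zero])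
    linear_combination hunits _ hd0 - hd - μ * hunits μ hμ0
  -- the columns of `T` have one non-zero entry
  have hcol : ∀ j, ∃ i, ∀ l, l ≠ i → T l j = 0 := by
    intro j
    have h := congrFun (congrFun hTT j) j
    simp only [Matrix.mul_apply, Matrix.transpose_apply, Matrix.smul_apply, Matrix.one_apply_eq, smul_eq_mul,
      mul_one, hμ1, Fin.sum_univ_three] at h
    have h3 : (3 : F) = 0 := by
      have := Nat.cast_card_eq_zero F
      rw [hF] at this
      simpa using this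
    have hsq : ∀ l, T l j = 0 ∨ T l j * T l j = 1 := fun l => by
      by_cases hl : T l j = 0
      · exact Or.inl hl
      · exact Or.inr (by rw [← pow_two]; exact hunits _ hl)
    rcases hsq 0 with a0 | a0 <;> rcases hsq 1 with a1 | a1 <;> rcases hsq 2 with a2 | a2 <;>
      simp only [a0, a1, a2, mul_zero, zero_add, add_zero] at h
    · exact absurd h zero_ne_one
    · exact ⟨2, fun l hl => by fin_cases l <;> first | assumption | exact absurd rfl hl⟩
    · exact ⟨1, fun l hl => by fin_cases l <;> first | assumption | exact absurd rfl hl⟩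
    · exact absurd (show (1 : F) = 0 by linear_combination h) one_ne_zero
    · exact ⟨0, fun l hl => by fin_cases l <;> first | assumption | exact absurd rfl hl⟩
    · exact absurd (show (1 : F) = 0 by linear_combination h) one_ne_zero
    · exact absurd (show (1 : F) = 0 by linear_combination h) one_ne_zero
    · exact absurd (show (1 : F) = 0 by linear_combination h3 - h) one_ne_zero
  choose σ hσ using hcol
  have hbw : ∀ j, (b' : Matrix (Fin 3) (Fin 3) F) *ᵥ w j = T (σ j) j • w (σ j) := by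
    intro j
    conv_lhs => rw [← w.sum_equivFun ((b' : Matrix (Fin 3) (Fin 3) F) *ᵥ w j)]
    rw [Finset.sum_eq_single (σ j) (fun l _ hl => by
      have := hσ j l hl
      simp only [T, Matrix.of_apply] at this
      rw [this, zero_smul]) (by simp)]
    rfl
  have hσinj : Function.Injective σ := by
    intro i j hij
    by_contra hne
    have h := hb'sim (w i) (w j)
    simp only [hbw, hij, map_smul, LinearMap.smul_apply, hw, if_pos, if_neg hne, smul_eq_mul, mul_zero] at h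
    have hnz : ∀ l, T (σ l) l ≠ 0 := fun l h0 => w.ne_zero l
      (GeoClasses.mulVec_injective b' (by show _ *ᵥ w l = _ *ᵥ (0 : Fin 3 → F); rw [hbw, h0, zero_smul, Matrix.mulVec_zero]))
    have h1 := hnz i
    have h2 := hnz j
    simp only [hij, mul_eq_zero, hε, or_false] at h h1
    rcases h with h | h
    · first | exact h1 h | exact h2 h
    · first | exact h2 h | exact h1 h
  refine ⟨Equiv.ofBijective σ (Finite.injective_iff_bijective.mp hσinj), fun i => ?_⟩
  apply Submodule.eq_of_le_of_finrank_eq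
  · rintro _ ⟨x, hx, rfl⟩
    obtain ⟨y, rfl⟩ := (hmem i x).mp hx
    rw [Matrix.toLin'_apply]
    refine (hmem _ _).mpr ⟨T (σ i) i • ((a : Matrix (Fin n₁) (Fin n₁) F) *ᵥ y), ?_⟩
    simp only [L]
    rw [hgL, hkron, hbw]
    congr 1
    funext p
    simp only [Equiv.ofBijective_apply, Function.comp_apply, Pi.smul_apply, smul_eq_mul]
    ring
  · have hinj : Function.Injective (Matrix.toLin' (g : Matrix (Fin m ⊕ Fin m) (Fin m ⊕ Fin m) F)) :=
      fun x y h => GeoClasses.mulVec_injective g (by simpa using h)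
    rw [← LinearEquiv.finrank_eq (Submodule.equivMapOfInjective _ hinj (D i)),
      (isMDecomposition_of_basis (by norm_num : 2 ≤ 3) hn₁ b).finrank_eq,
      (isMDecomposition_of_basis (by norm_num : 2 ≤ 3) hn₁ b).finrank_eq]

end Cfsg.Agent.MaxSub
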